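import Mathlib
import Cfsg.Agent.Helper1.CharBasic

/-!
# Galois conjugation of sums of roots of unity (helper2)

`K = CyclotomicField n ℚ` with its embedding `cycEmb n : K →ₐ[ℚ] ℂ`.  Every Galois automorphism
`σ` has an exponent `galExp n σ` (coprime to `n`) with `σ ζ = ζ ^ galExp n σ`.

* `cyc_sum`: a sum of `n`-th roots of unity in `ℂ` is `cycEmb n y` for an integral `y`, with
  `cycEmb n (σ y) = ∑ μ_i ^ galExp n σ`.
* `cyc_rational`: an element fixed by all `σ` embeds to a rational number.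
* `cyc_norm_ge_one`: the product of the conjugates of a nonzero integral element has norm `≥ 1`.
* `char_pow_eig`: character values on powers as power sums of roots of unity.
-/

set_option autoImplicit false

namespace Cfsg.Agent.Helper2

open Polynomial

instance cycInst (n : ℕ) [NeZero n] : IsCyclotomicExtension {n} ℚ (CyclotomicField n ℚ) :=
  CyclotomicField.isCyclotomicExtension n ℚ

/-- the embedding of the `n`-th cyclotomic field in `ℂ`. -/
noncomputable def cycEmb (n : ℕ) [NeZero n] : CyclotomicField n ℚ →ₐ[ℚ] ℂ := IsAlgClosed.lift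

theorem exists_gal_exp (n : ℕ) [NeZero n]
    (σ : CyclotomicField n ℚ ≃ₐ[ℚ] CyclotomicField n ℚ) :
    ∃ m : ℕ, m.Coprime n ∧
      σ (IsCyclotomicExtension.zeta n ℚ (CyclotomicField n ℚ))
        = (IsCyclotomicExtension.zeta n ℚ (CyclotomicField n ℚ)) ^ m := by
  have hz := IsCyclotomicExtension.zeta_spec n ℚ (CyclotomicField n ℚ)
  have hz' : IsPrimitiveRoot (σ (IsCyclotomicExtension.zeta n ℚ (CyclotomicField n ℚ))) n :=
    hz.map_of_injective σ.injective
  obtain ⟨m, -, hm'⟩ := hz.eq_pow_of_pow_eq_one hz'.pow_eq_one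
  refine ⟨m, ?_, hm'.symm⟩
  rw [← hm'] at hz'
  exact (hz.pow_iff_coprime (NeZero.pos n) m).mp hz'

/-- the exponent of a Galois automorphism of the cyclotomic field. -/
noncomputable def galExp (n : ℕ) [NeZero n]
    (σ : CyclotomicField n ℚ ≃ₐ[ℚ] CyclotomicField n ℚ) : ℕ :=
  (exists_gal_exp n σ).choose

theorem galExp_coprime (n : ℕ) [NeZero n]
    (σ : CyclotomicField n ℚ ≃ₐ[ℚ] CyclotomicField n ℚ) : (galExp n σ).Coprime n :=
  (exists_gal_exp n σ).choose_spec.1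

theorem galExp_spec (n : ℕ) [NeZero n]
    (σ : CyclotomicField n ℚ ≃ₐ[ℚ] CyclotomicField n ℚ) :
    σ (IsCyclotomicExtension.zeta n ℚ (CyclotomicField n ℚ))
      = (IsCyclotomicExtension.zeta n ℚ (CyclotomicField n ℚ)) ^ galExp n σ :=
  (exists_gal_exp n σ).choose_spec.2

theorem cyc_sum (n : ℕ) [NeZero n] {k : ℕ} (μ : Fin k → ℂ) (hμ : ∀ i, μ i ^ n = 1) :
    ∃ y : CyclotomicField n ℚ, IsIntegral ℤ y ∧
      ∀ σ : CyclotomicField n ℚ ≃ₐ[ℚ] CyclotomicField n ℚ,
        cycEmb n (σ y) = ∑ i, μ i ^ galExp n σ := by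
  have hz := IsCyclotomicExtension.zeta_spec n ℚ (CyclotomicField n ℚ)
  have hz' : IsPrimitiveRoot (cycEmb n (IsCyclotomicExtension.zeta n ℚ (CyclotomicField n ℚ))) n :=
    hz.map_of_injective (cycEmb n).toRingHom.injective
  choose a _ ha using fun i => hz'.eq_pow_of_pow_eq_one (hμ i)
  refine ⟨∑ i, (IsCyclotomicExtension.zeta n ℚ (CyclotomicField n ℚ)) ^ a i, ?_, fun σ => ?_⟩
  · apply IsIntegral.sum
    intro i _
    exact (hz.isIntegral (NeZero.pos n)).pow _
  · rw [map_sum, map_sum]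
    apply Finset.sum_congr rfl
    intro i _
    rw [map_pow, galExp_spec, ← pow_mul, map_pow, mul_comm, pow_mul, ha i]

theorem cyc_rational (n : ℕ) [NeZero n] (y : CyclotomicField n ℚ)
    (h : ∀ σ : CyclotomicField n ℚ ≃ₐ[ℚ] CyclotomicField n ℚ, σ y = y) :
    ∃ q : ℚ, cycEmb n y = (q : ℂ) := by
  haveI : IsGalois ℚ (CyclotomicField n ℚ) :=
    IsCyclotomicExtension.isGalois {n} ℚ (CyclotomicField n ℚ)
  obtain ⟨q, hq⟩ := (IsGalois.mem_range_algebraMap_iff_fixed y).mpr h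
  refine ⟨q, ?_⟩
  rw [← hq, AlgHom.commutes]
  rfl

theorem cyc_norm_ge_one (n : ℕ) [NeZero n] (y : CyclotomicField n ℚ) (hy : IsIntegral ℤ y)
    (hy0 : y ≠ 0) :
    1 ≤ ‖∏ σ : CyclotomicField n ℚ ≃ₐ[ℚ] CyclotomicField n ℚ, cycEmb n (σ y)‖ := by
  haveI : IsGalois ℚ (CyclotomicField n ℚ) :=
    IsCyclotomicExtension.isGalois {n} ℚ (CyclotomicField n ℚ)
  have h1 := Algebra.norm_eq_prod_automorphisms ℚ y
  have h2 : IsIntegral ℤ (Algebra.norm ℚ y) := Algebra.isIntegral_norm ℚ hy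
  obtain ⟨z, hz⟩ := IsIntegrallyClosed.isIntegral_iff.mp h2
  have hz0 : z ≠ 0 := by
    rintro rfl
    rw [map_zero] at hz
    exact (Algebra.norm_ne_zero_iff.mpr hy0) hz.symm
  have h3 : ∏ σ : CyclotomicField n ℚ ≃ₐ[ℚ] CyclotomicField n ℚ, cycEmb n (σ y) = (z : ℂ) := by
    rw [← map_prod, ← h1, ← hz, AlgHom.commutes]
    simp
  rw [h3, Complex.norm_intCast]
  have : (1 : ℤ) ≤ |z| := Int.one_le_abs hz0
  exact_mod_cast this

/-- character values on powers of `g` are the power sums of a family of `|G|`-th roots of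
unity. -/
theorem char_pow_eig {G : Type*} [Group G] [Finite G] {V : Type*} [AddCommGroup V]
    [Module ℂ V] [FiniteDimensional ℂ V] (ρ : Representation ℂ G V) (g : G) :
    ∃ (d : ℕ) (μ : Fin d → ℂ), (∀ i, μ i ^ Nat.card G = 1) ∧
      ∀ m : ℕ, ρ.character (g ^ m) = ∑ i, μ i ^ m := by
  classical
  obtain ⟨b, μ, hμ, -, hb, -, -, -⟩ := Cfsg.Agent.Helper1.exists_eigenbasis ρ g
  refine ⟨_, μ, hμ, fun m => ?_⟩
  have hb' : ∀ i, ρ (g ^ m) (b i) = (μ i) ^ m • b i := by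
    intro i
    rw [map_pow]
    exact Cfsg.Agent.Helper1.pow_apply_of_apply_eq_smul (ρ g) (b i) (μ i) (hb i) m
  exact Cfsg.Agent.Helper1.trace_eq_sum_of_eigenbasis b (ρ (g ^ m)) (fun i => (μ i) ^ m) hb'

end Cfsg.Agent.Helper2
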