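import Mathlib
import Cfsg.Agent.Helper7.Defect
import Cfsg.Agent.Helper7.MinMax
import Cfsg.Agent.Helper25.BlockOrth
import Cfsg.Agent.Helper1.CharCentral

/-!
# Counting blocks of large defect (helper2)

`card_blocks_le`: the number of blocks of defect at least `d` is at most the number of
`p`-regular classes of defect at least `d`.
-/

set_option autoImplicit false
open Cfsg Cfsg.Agent.Helper25 Cfsg.Agent.Helper7
open scoped ComplexConjugate

namespace Cfsg.Agent.Helper2

universe u
variable {G : Type u} [Group G] {p : ℕ} {M : Ideal AlgInt}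

theorem li_prod_sub_one (hM : IsPModular p M) {ι : Type*} (s : Finset ι) (a : ι → ℂ)
    (h : ∀ i ∈ s, MemLocalIdeal M (a i - 1)) : MemLocalIdeal M (∏ i ∈ s, a i - 1) := by
  classical
  induction s using Finset.induction_on with
  | empty =>
    simp only [Finset.prod_empty, sub_self]
    exact li_zero hM
  | insert i s hi ih =>
    rw [Finset.prod_insert hi]
    have h1 := h i (Finset.mem_insert_self i s)
    have h2 := ih (fun j hj => h j (Finset.mem_insert_of_mem hj))
    have hP : MemLocalRing M (∏ j ∈ s, a j) := by
      have := lr_add hM (li_lr h2) (lr_one hM)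
      rwa [sub_add_cancel] at this
    have e : a i * ∏ j ∈ s, a j - 1 = (a i - 1) * ∏ j ∈ s, a j + (∏ j ∈ s, a j - 1) := by ring
    rw [e]
    exact li_add hM (li_mul_lr hM h1 hP) h2

/-- A square matrix congruent to the identity modulo the local ideal has nonzero determinant. -/
theorem det_ne_zero_of_li {n : Type*} [Fintype n] [DecidableEq n] (hM : IsPModular p M)
    (A : Matrix n n ℂ) (h : ∀ i j, MemLocalIdeal M (A i j - (1 : Matrix n n ℂ) i j)) :
    A.det ≠ 0 := by
  have hlr : ∀ i j, MemLocalRing M (A i j) := by
    intro i j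
    have h1 : MemLocalRing M ((1 : Matrix n n ℂ) i j) := by
      rw [Matrix.one_apply]
      split_ifs
      · exact lr_one hM
      · exact lr_zero hM
    have := lr_add hM (li_lr (h i j)) h1
    rwa [sub_add_cancel] at this
  have key : MemLocalIdeal M (A.det - 1) := by
    rw [Matrix.det_apply, ← Finset.add_sum_erase Finset.univ _ (Finset.mem_univ (1 : Equiv.Perm n))]
    have e : (Equiv.Perm.sign (1 : Equiv.Perm n) • ∏ i, A ((1 : Equiv.Perm n) i) i
        + ∑ σ ∈ Finset.univ.erase (1 : Equiv.Perm n), Equiv.Perm.sign σ • ∏ i, A (σ i) i) - 1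
        = (∏ i, A i i - 1)
          + ∑ σ ∈ Finset.univ.erase (1 : Equiv.Perm n), Equiv.Perm.sign σ • ∏ i, A (σ i) i := by
      simp only [Equiv.Perm.sign_one, one_smul, Equiv.Perm.coe_one, id_eq]
      ring
    rw [e]
    apply li_add hM
    · apply li_prod_sub_one hM
      intro i _
      have := h i i
      rwa [Matrix.one_apply_eq] at this
    · apply li_sum hM
      intro σ hσ
      have hσ1 : σ ≠ 1 := Finset.ne_of_mem_erase hσ
      obtain ⟨i, hi⟩ : ∃ i, σ i ≠ i := by
        by_contra hcon
        push Not at hcon
        exact hσ1 (Equiv.ext hcon)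
      have hprod : MemLocalIdeal M (∏ j, A (σ j) j) := by
        rw [← Finset.mul_prod_erase Finset.univ _ (Finset.mem_univ i)]
        apply li_mul_lr hM
        · have := h (σ i) i
          rwa [Matrix.one_apply_ne hi, sub_zero] at this
        · exact lr_prod hM _ _ (fun j _ => hlr _ _)
      rcases Int.units_eq_one_or (Equiv.Perm.sign σ) with hs | hs
      · rw [hs, one_smul]
        exact hprod
      · rw [hs, Units.neg_smul, one_smul]
        exact li_neg hprod
  intro h0
  rw [h0, zero_sub] at key
  exact not_li_one hM (by simpa using li_neg key)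

/-- Central characters of a block of defect at least `d` vanish modulo the local ideal on classes
of defect less than `d`. -/
theorem li_centralChar_of_small_defect [Finite G] [Fact p.Prime] (hM : IsPModular p M)
    {B : Set (IrrCharacter G)} (hB : IsPBlock M B) (d : ℕ) (hd : d ≤ blockDefect p B) (g : G)
    (hg : (Nat.card (Subgroup.centralizer ({g} : Set G))).factorization p < d)
    (χ : IrrCharacter G) (hχ : χ ∈ B) : MemLocalIdeal M (centralChar (χ : G → ℂ) g) := by
  have hp := hM.1
  by_contra hne
  have hall := centralChar_not_li_of_mem hM hB g ⟨χ, hχ, hne⟩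
  obtain ⟨ψ, hψB, hψ0⟩ := exists_height_zero hM hB
  have hidx0 : (Subgroup.centralizer ({g} : Set G)).index ≠ 0 := Subgroup.index_ne_zero_of_finite
  have hdvd := pow_dvd_degree_of_centralChar hM ψ g (hall ψ hψB)
    ((Subgroup.centralizer ({g} : Set G)).index.factorization p) (Nat.ordProj_dvd _ p)
  have hk : (Subgroup.centralizer ({g} : Set G)).index.factorization p
      ≤ (charDegree (ψ : G → ℂ)).factorization p :=
    (hp.pow_dvd_iff_le_factorization (irr_degree_pos ψ).ne').mp hdvd
  unfold blockHeight at hψ0
  unfold blockDefect at hd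
  have hmul : Nat.card (Subgroup.centralizer ({g} : Set G)) *
      (Subgroup.centralizer ({g} : Set G)).index = Nat.card G := Subgroup.card_mul_index _
  have ha : (Nat.card G).factorization p
      = (Nat.card (Subgroup.centralizer ({g} : Set G))).factorization p
        + (Subgroup.centralizer ({g} : Set G)).index.factorization p := by
    rw [← hmul, Nat.factorization_mul Nat.card_pos.ne' hidx0]
    rfl
  omega

theorem card_blocks_le [Finite G] [Fact p.Prime] (hM : IsPModular p M) (d : ℕ) :
    Nat.card {B : Set (IrrCharacter G) // IsPBlock M B ∧ d ≤ blockDefect p B} ≤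
      Nat.card {C : ConjClasses G // ∃ g : G, ConjClasses.mk g = C ∧ IsPRegular p g ∧
        d ≤ (Nat.card (Subgroup.centralizer ({g} : Set G))).factorization p} := by
  classical
  haveI := Fintype.ofFinite G
  have hp := hM.1
  haveI : Fintype {B : Set (IrrCharacter G) // IsPBlock M B ∧ d ≤ blockDefect p B} :=
    Fintype.ofFinite _
  haveI : Fintype (ConjClasses G) := Fintype.ofFinite _
  haveI : Fintype {C : ConjClasses G // ∃ g : G, ConjClasses.mk g = C ∧ IsPRegular p g ∧
        d ≤ (Nat.card (Subgroup.centralizer ({g} : Set G))).factorization p} :=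
    Fintype.ofFinite _
  rw [Nat.card_eq_fintype_card, Nat.card_eq_fintype_card]
  have hex : ∀ B : {B : Set (IrrCharacter G) // IsPBlock M B ∧ d ≤ blockDefect p B},
      ∃ χ : IrrCharacter G, χ ∈ B.1 := by
    intro B
    obtain ⟨χ, hχ⟩ := B.2.1
    exact ⟨χ, hχ ▸ self_mem_blockOf hM χ⟩
  choose χB hχB using hex
  set X : Matrix {B : Set (IrrCharacter G) // IsPBlock M B ∧ d ≤ blockDefect p B}
      {C : ConjClasses G // ∃ g : G, ConjClasses.mk g = C ∧ IsPRegular p g ∧
        d ≤ (Nat.card (Subgroup.centralizer ({g} : Set G))).factorization p} ℂ :=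
    fun B C => centralChar (χB B : G → ℂ) (Quotient.out C.1) with hX
  set Y : Matrix {C : ConjClasses G // ∃ g : G, ConjClasses.mk g = C ∧ IsPRegular p g ∧
        d ≤ (Nat.card (Subgroup.centralizer ({g} : Set G))).factorization p}
      {B : Set (IrrCharacter G) // IsPBlock M B ∧ d ≤ blockDefect p B} ℂ :=
    fun C B' => blockCoeff B'.1 (Quotient.out C.1) with hY
  have hdet : (X * Y).det ≠ 0 := by
    apply det_ne_zero_of_li hM
    intro B B'
    rw [Matrix.mul_apply]
    set T : ConjClasses G → ℂ := fun c =>
      centralChar (χB B : G → ℂ) (Quotient.out c) * blockCoeff B'.1 (Quotient.out c) with hT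
    have hfull : ∑ c : ConjClasses G, T c
        = (1 : Matrix {B : Set (IrrCharacter G) // IsPBlock M B ∧ d ≤ blockDefect p B}
            {B : Set (IrrCharacter G) // IsPBlock M B ∧ d ≤ blockDefect p B} ℂ) B B' := by
      have h1 := omega_blockCoeff B'.1 (χB B)
      unfold omega at h1
      rw [Finset.sum_div, Helper1.sum_eq_sum_conjClasses _ (by
        intro g x
        simp only
        rw [blockCoeff_conj, irr_conj])] at h1
      rw [Matrix.one_apply]
      have hiff : (χB B ∈ B'.1) ↔ B = B' := by
        constructor
        · intro h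
          apply Subtype.ext
          rw [eq_blockOf_of_mem hM B'.2.1 h, eq_blockOf_of_mem hM B.2.1 (hχB B)]
        · intro h
          rw [← h]
          exact hχB B
      rw [← if_congr hiff rfl rfl, ← h1]
      apply Finset.sum_congr rfl
      intro c _
      simp only [hT]
      unfold centralChar
      ring
    have hsplit := Finset.sum_filter_add_sum_filter_not (Finset.univ : Finset (ConjClasses G))
      (fun c : ConjClasses G => ∃ g : G, ConjClasses.mk g = c ∧ IsPRegular p g ∧
        d ≤ (Nat.card (Subgroup.centralizer ({g} : Set G))).factorization p) T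
    have hsub : ∑ C : {C : ConjClasses G // ∃ g : G, ConjClasses.mk g = C ∧ IsPRegular p g ∧
        d ≤ (Nat.card (Subgroup.centralizer ({g} : Set G))).factorization p}, X B C * Y C B'
        = ∑ c ∈ Finset.univ.filter (fun c : ConjClasses G => ∃ g : G, ConjClasses.mk g = c ∧
          IsPRegular p g ∧
          d ≤ (Nat.card (Subgroup.centralizer ({g} : Set G))).factorization p), T c := by
      exact (Finset.sum_subtype (Finset.univ.filter (fun c : ConjClasses G => ∃ g : G,
        ConjClasses.mk g = c ∧ IsPRegular p g ∧
          d ≤ (Nat.card (Subgroup.centralizer ({g} : Set G))).factorization p))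
        (p := fun c : ConjClasses G => ∃ g : G,
        ConjClasses.mk g = c ∧ IsPRegular p g ∧
          d ≤ (Nat.card (Subgroup.centralizer ({g} : Set G))).factorization p)
        (by intro x; simp only [Finset.mem_filter, Finset.mem_univ, true_and]) T).symm
    rw [hsub, ← hfull, ← hsplit, sub_add_cancel_left]
    apply li_neg
    apply li_sum hM
    intro c hc
    have hc' := (Finset.mem_filter.mp hc).2
    simp only [hT]
    by_cases hreg : p ∣ orderOf (Quotient.out c)
    · rw [blockCoeff_eq_zero_of_singular hM B'.2.1 _ hreg, mul_zero]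
      exact li_zero hM
    · have hlt : (Nat.card (Subgroup.centralizer ({Quotient.out c} : Set G))).factorization p < d := by
        by_contra hge
        push Not at hge
        exact hc' ⟨Quotient.out c, Quotient.out_eq c, hreg, hge⟩
      exact li_mul_lr hM (li_centralChar_of_small_defect hM B.2.1 d B.2.2 _ hlt (χB B) (hχB B))
        (blockCoeff_lr hM B'.2.1 _)
  have hunit : IsUnit (X * Y) := (Matrix.isUnit_iff_isUnit_det _).mpr (isUnit_iff_ne_zero.mpr hdet)
  have h1 := Matrix.rank_of_isUnit _ hunit
  have h2 := Matrix.rank_mul_le_left X Y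
  have h3 := Matrix.rank_le_card_width X
  omega

end Cfsg.Agent.Helper2
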