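import Mathlib
import Cfsg.Agent.Helper2.CentralDefect
import Cfsg.Agent.Helper2.Fong
import Cfsg.Agent.Helper2.BlockNormP
import Cfsg.Agent.Helper2.ExtFirstMain
import Cfsg.Agent.Helper25.BlockOrth
import Cfsg.Agent.Helper25.BlockRank
import Cfsg.Agent.Helper25.CharKer
import Cfsg.Agent.Helper26.BlockQuot
import Cfsg.Agent.Helper7.SecondMain
import Cfsg.Agent.Helper7.SecOrth
import Cfsg.Agent.Helper7.Defect
import Cfsg.Agent.Helper1.CharClass

/-!
# Blocks of `G = P · C_G(P)` with defect group `P` (helper2)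

The canonical character and the parametrisation of the block by `Irr(P)`.
-/

set_option autoImplicit false

namespace Cfsg.Agent.Helper2

open Cfsg Cfsg.Agent.Helper25 Cfsg.Agent.Helper7
open scoped ComplexConjugate

universe u

variable {G : Type u} [Group G] {p : ℕ} {M : Ideal AlgInt}

theorem normal_of_sup_centralizer (P : Subgroup G)
    (hG : P ⊔ Subgroup.centralizer (P : Set G) = ⊤) : P.Normal := by
  rw [← Subgroup.normalizer_eq_top_iff]
  exact top_le_iff.mp (hG ▸ sup_centralizer_le_normalizer P)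

theorem exists_mul_of_sup_centralizer (P : Subgroup G)
    (hG : P ⊔ Subgroup.centralizer (P : Set G) = ⊤) (g : G) :
    ∃ y ∈ P, ∃ c ∈ Subgroup.centralizer (P : Set G), g = y * c := by
  haveI := normal_of_sup_centralizer P hG
  have h1 : g ∈ ((P ⊔ Subgroup.centralizer (P : Set G) : Subgroup G) : Set G) := by
    rw [hG]
    exact Subgroup.mem_top g
  rw [Subgroup.normal_mul] at h1
  obtain ⟨y, hy, c, hc, rfl⟩ := Set.mem_mul.mp h1
  exact ⟨y, hy, c, hc, rfl⟩

/-- `p`-regular elements centralize `P` when `G = P · C_G(P)`. -/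
theorem regular_mem_centralizer [Finite G] [Fact p.Prime] (P : Subgroup G) (hP : IsPGroup p P)
    (hG : P ⊔ Subgroup.centralizer (P : Set G) = ⊤) (x : G) (hx : ¬ p ∣ orderOf x) :
    x ∈ Subgroup.centralizer (P : Set G) := by
  have hp : p.Prime := Fact.out
  obtain ⟨y, hy, c, hc, rfl⟩ := exists_mul_of_sup_centralizer P hG x
  obtain ⟨n, hn⟩ := IsPGroup.iff_card.mp hP
  have hcomm : Commute y c := hc y hy
  have hyn : y ^ (p ^ n) = 1 := by
    have h1 : (⟨y, hy⟩ : P) ^ (p ^ n) = 1 := by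
      rw [← hn]
      exact pow_card_eq_one'
    exact congrArg Subtype.val h1
  have h1 : (y * c) ^ (p ^ n) = c ^ (p ^ n) := by
    rw [hcomm.mul_pow, hyn, one_mul]
  have hcop : (p ^ n).Coprime (orderOf (y * c)) :=
    Nat.Coprime.pow_left n ((Nat.Prime.coprime_iff_not_dvd hp).mpr hx)
  obtain ⟨m, hm⟩ := exists_pow_eq_self_of_coprime hcop
  rw [← hm, h1]
  exact Subgroup.pow_mem _ (Subgroup.pow_mem _ hc _) _

/-- Every irreducible character of `P` is `G`-invariant when `G = P · C_G(P)`. -/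
theorem conjChar_eq_of_sup_centralizer (P : Subgroup G) [hPn : P.Normal]
    (hG : P ⊔ Subgroup.centralizer (P : Set G) = ⊤) (ζ : IrrCharacter P) (g : G) :
    conjChar P (ζ : P → ℂ) g = (ζ : P → ℂ) := by
  obtain ⟨y, hy, c, hc, rfl⟩ := exists_mul_of_sup_centralizer P hG g
  funext h
  rw [conjChar_apply]
  have e : (⟨y * c * (h : G) * (y * c)⁻¹, hPn.conj_mem h h.2 (y * c)⟩ : P)
      = ⟨y, hy⟩ * h * ⟨y, hy⟩⁻¹ := by
    apply Subtype.ext
    show y * c * (h : G) * (y * c)⁻¹ = y * (h : G) * y⁻¹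
    have hch : (h : G) * c = c * (h : G) := hc h h.2
    rw [mul_inv_rev]
    calc y * c * (h : G) * (c⁻¹ * y⁻¹) = y * (c * (h : G)) * c⁻¹ * y⁻¹ := by group
      _ = y * ((h : G) * c) * c⁻¹ * y⁻¹ := by rw [hch]
      _ = y * (h : G) * y⁻¹ := by group
  rw [e]
  exact irr_conj ζ h ⟨y, hy⟩

/-- The restriction to `P` of an irreducible character of `G = P · C_G(P)` is a multiple of each
of its constituents. -/
theorem restrict_eq_smul_of_sup_centralizer [Fintype G] (P : Subgroup G) [hPn : P.Normal]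
    [Fintype P] (hG : P ⊔ Subgroup.centralizer (P : Set G) = ⊤) (χ : IrrCharacter G)
    (ζ : IrrCharacter P)
    (h : classInner (fun y : P => (χ : G → ℂ) y) (ζ : P → ℂ) ≠ 0) :
    ∃ a : ℕ, 0 < a ∧ (fun y : P => (χ : G → ℂ) y) = (a : ℂ) • (ζ : P → ℂ) := by
  classical
  obtain ⟨a, ha, heq⟩ := clifford_orbit P χ ζ h
  refine ⟨a, ha, ?_⟩
  rw [heq]
  congr 1
  have hfilter : Finset.univ.filter (fun ξ : IrrCharacter P =>
      ∃ k : G, (ξ : P → ℂ) = conjChar P (ζ : P → ℂ) k) = {ζ} := by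
    ext ξ
    simp only [Finset.mem_filter, Finset.mem_univ, true_and, Finset.mem_singleton]
    constructor
    · rintro ⟨k, hk⟩
      rw [conjChar_eq_of_sup_centralizer P hG ζ k] at hk
      exact Subtype.ext hk
    · rintro rfl
      exact ⟨1, (conjChar_one P _).symm⟩
  rw [hfilter, Finset.sum_singleton]

theorem constituent_unique_of_sup_centralizer [Fintype G] (P : Subgroup G) [hPn : P.Normal]
    [Fintype P] (hG : P ⊔ Subgroup.centralizer (P : Set G) = ⊤) (χ : IrrCharacter G)
    (ζ ζ' : IrrCharacter P)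
    (h : classInner (fun y : P => (χ : G → ℂ) y) (ζ : P → ℂ) ≠ 0)
    (h' : classInner (fun y : P => (χ : G → ℂ) y) (ζ' : P → ℂ) ≠ 0) : ζ' = ζ := by
  obtain ⟨a, ha, heq⟩ := restrict_eq_smul_of_sup_centralizer P hG χ ζ h
  by_contra hne
  apply h'
  rw [heq, classInner_smul_left, classInner_irr_irr, if_neg (fun e => hne e.symm), mul_zero]

/-- The coefficient function of the idempotent of `ζ ∈ Irr(P)`, extended by zero to `G`. -/
noncomputable def cpCoeff (P : Subgroup G) (ζ : IrrCharacter P) : G → ℂ :=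
  fun g => ((ζ : P → ℂ) 1 / (Nat.card P : ℂ)) * conj (extendByZero P (ζ : P → ℂ) g)

theorem cpCoeff_classFun (P : Subgroup G) [hPn : P.Normal]
    (hG : P ⊔ Subgroup.centralizer (P : Set G) = ⊤) (ζ : IrrCharacter P) (g x : G) :
    cpCoeff P ζ (x * g * x⁻¹) = cpCoeff P ζ g := by
  unfold cpCoeff
  congr 2
  by_cases hg : g ∈ P
  · have hg' : x * g * x⁻¹ ∈ P := hPn.conj_mem g hg x
    rw [extendByZero_of_mem P _ hg', extendByZero_of_mem P _ hg]
    have h1 := congrFun (conjChar_eq_of_sup_centralizer P hG ζ x) ⟨g, hg⟩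
    rw [conjChar_apply] at h1
    exact h1
  · have hg' : x * g * x⁻¹ ∉ P := by
      intro h
      apply hg
      have h2 := hPn.conj_mem _ h x⁻¹
      have e : x⁻¹ * (x * g * x⁻¹) * x⁻¹⁻¹ = g := by group
      rwa [e] at h2
    rw [extendByZero_of_not_mem P _ hg', extendByZero_of_not_mem P _ hg]

open Classical in
theorem omega_cpCoeff [Fintype G] (P : Subgroup G) [hPn : P.Normal] [Fintype P]
    (hG : P ⊔ Subgroup.centralizer (P : Set G) = ⊤) (ζ : IrrCharacter P) (χ : IrrCharacter G) :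
    omega (cpCoeff P ζ) χ
      = if classInner (fun y : P => (χ : G → ℂ) y) (ζ : P → ℂ) ≠ 0 then 1 else 0 := by
  have hsum : ∑ g : G, cpCoeff P ζ g * (χ : G → ℂ) g
      = (ζ : P → ℂ) 1 * classInner (fun y : P => (χ : G → ℂ) y) (ζ : P → ℂ) := by
    have h1 : ∀ g : G, cpCoeff P ζ g * (χ : G → ℂ) g
        = (ζ : P → ℂ) 1 / (Nat.card P : ℂ) *
          (extendByZero P (fun y : P => conj ((ζ : P → ℂ) y)) g * (χ : G → ℂ) g) := by
      intro g
      unfold cpCoeff
      by_cases hg : g ∈ P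
      · rw [extendByZero_of_mem P _ hg, extendByZero_of_mem P _ hg]
        ring
      · rw [extendByZero_of_not_mem P _ hg, extendByZero_of_not_mem P _ hg]
        simp
    simp_rw [h1]
    rw [← Finset.mul_sum, sum_extendByZero_mul]
    unfold classInner
    rw [div_eq_mul_inv, mul_assoc]
    congr 2
    apply Finset.sum_congr rfl
    intro y _
    ring
  unfold omega
  rw [hsum]
  by_cases h : classInner (fun y : P => (χ : G → ℂ) y) (ζ : P → ℂ) ≠ 0
  · rw [if_pos h]
    obtain ⟨a, ha, heq⟩ := restrict_eq_smul_of_sup_centralizer P hG χ ζ h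
    have h1 := congrFun heq 1
    rw [Pi.smul_apply, smul_eq_mul] at h1
    have h2 : (χ : G → ℂ) ((1 : P) : G) = (χ : G → ℂ) 1 := rfl
    rw [h2] at h1
    rw [heq, classInner_smul_left, classInner_irr_irr, if_pos rfl, mul_one, h1]
    have ha' : (a : ℂ) ≠ 0 := Nat.cast_ne_zero.mpr ha.ne'
    have hz := irr_one_ne_zero ζ
    field_simp
  · rw [if_neg h]
    push Not at h
    rw [h, mul_zero, zero_div]

open Classical in
theorem blockCoeff_inter_eq_conv [Fintype G] (P : Subgroup G) [hPn : P.Normal] [Fintype P]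
    (hG : P ⊔ Subgroup.centralizer (P : Set G) = ⊤) (B : Set (IrrCharacter G))
    (ζ : IrrCharacter P) :
    blockCoeff (B ∩ {χ : IrrCharacter G |
      classInner (fun y : P => (χ : G → ℂ) y) (ζ : P → ℂ) ≠ 0})
      = conv (blockCoeff B) (cpCoeff P ζ) := by
  symm
  apply eq_blockCoeff_of_omega
  · exact conv_classFun (fun g x => blockCoeff_conj B g x) (cpCoeff_classFun P hG ζ)
  · intro χ
    rw [omega_conv (fun g x => blockCoeff_conj B g x), omega_blockCoeff, omega_cpCoeff P hG]
    by_cases h1 : χ ∈ B <;>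
      by_cases h2 : classInner (fun y : P => (χ : G → ℂ) y) (ζ : P → ℂ) ≠ 0 <;>
      simp [h1, h2]

theorem blockCoeff_inter_apply [Fintype G] [Fact p.Prime] (hM : IsPModular p M) (P : Subgroup G)
    [hPn : P.Normal] [Fintype P] (hP : IsPGroup p P)
    (hG : P ⊔ Subgroup.centralizer (P : Set G) = ⊤) (B : Set (IrrCharacter G))
    (hB : IsPBlock M B) (ζ : IrrCharacter P) (y : P) (x : G) (hx : ¬ p ∣ orderOf x) :
    blockCoeff (B ∩ {χ : IrrCharacter G |
      classInner (fun y : P => (χ : G → ℂ) y) (ζ : P → ℂ) ≠ 0}) ((y : G) * x)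
      = blockCoeff B x * ((ζ : P → ℂ) 1 / (Nat.card P : ℂ)) * conj ((ζ : P → ℂ) y) := by
  have hp : p.Prime := Fact.out
  rw [blockCoeff_inter_eq_conv P hG B ζ]
  unfold conv
  have hxC := regular_mem_centralizer P hP hG x hx
  rw [Finset.sum_eq_single x]
  · have e : x⁻¹ * ((y : G) * x) = (y : G) := by
      have h1 : (y : G) * x = x * (y : G) := hxC y y.2
      rw [h1]
      group
    rw [e]
    unfold cpCoeff
    rw [extendByZero_coe]
    ring
  · intro x' _ hne
    by_cases hx' : p ∣ orderOf x'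
    · rw [blockCoeff_eq_zero_of_singular hM hB x' hx', zero_mul]
    · have hnot : x'⁻¹ * ((y : G) * x) ∉ P := by
        intro hmem
        apply hne
        obtain ⟨n, hn⟩ := IsPGroup.iff_card.mp hP
        obtain ⟨w, hwdef⟩ : ∃ w : G, w = x'⁻¹ * ((y : G) * x) := ⟨_, rfl⟩
        have hwP : w ∈ P := hwdef ▸ hmem
        have hwx : Commute w⁻¹ x := hxC w⁻¹ (P.inv_mem hwP)
        obtain ⟨v, hvdef⟩ : ∃ v : G, v = (y : G) * w⁻¹ := ⟨_, rfl⟩
        have hvP : v ∈ P := by
          rw [hvdef]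
          exact P.mul_mem y.2 (P.inv_mem hwP)
        have hvx : Commute v x := hxC v hvP
        have hx'eq : x' = v * x := by
          rw [hvdef, mul_assoc, hwx.eq, hwdef]
          group
        have hvn : v ^ (p ^ n) = 1 := by
          have h1 : (⟨v, hvP⟩ : P) ^ (p ^ n) = 1 := by
            rw [← hn]
            exact pow_card_eq_one'
          exact congrArg Subtype.val h1
        have hv1 : v = 1 := eq_one_of_ppow_mul_regular hp v x hvx n hvn hx (hx'eq ▸ hx')
        rw [hx'eq, hv1, one_mul]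
      unfold cpCoeff
      rw [extendByZero_of_not_mem P _ hnot]
      simp
  · intro h
    exact absurd (Finset.mem_univ x) h

end Cfsg.Agent.Helper2
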