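import Mathlib
import Cfsg.Agent.Helper2.CentProd
import Cfsg.Agent.Helper2.CosetAvg
import Cfsg.Agent.S0912
import Cfsg.Agent.Helper28.Basic

/-!
# Blocks of `G = P · C_G(P)` with defect group `P`, part 2 (helper2)

The canonical character: degree, vanishing, uniqueness.
-/

set_option autoImplicit false

namespace Cfsg.Agent.Helper2

open Cfsg Cfsg.Agent.Helper25 Cfsg.Agent.Helper7
open scoped ComplexConjugate

universe u

variable {G : Type u} [Group G] {p : ℕ} {M : Ideal AlgInt}

/-- A normal defect group is the only defect group. -/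
theorem defectGroup_eq_of_normal [Finite G] [Fact p.Prime] (hM : IsPModular p M)
    (P : Subgroup G) [hPn : P.Normal] (hP : IsPGroup p P) {B : Set (IrrCharacter G)}
    (hB : IsPBlock M B) (hD : IsDefectGroup p M B P) {D : Subgroup G}
    (hD' : IsDefectGroup p M B D) : D = P := by
  have h1 : P ≤ D := (Cfsg.Agent.Helper28.le_pCore hPn hP).trans
    (Cfsg.Agent.S0912.result p M hM B hB D hD')
  have h2 : Nat.card D = Nat.card P := by
    rw [card_defectGroup hM hB hD', card_defectGroup hM hB hD]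
  exact (Subgroup.eq_of_le_of_card_ge h1 h2.le).symm

/-- The `p`-part of the degree of a member of `B` having the defect group `P` in its kernel. -/
theorem canonical_degree [Finite G] [Fact p.Prime] (hM : IsPModular p M) (P : Subgroup G)
    {B : Set (IrrCharacter G)} (hB : IsPBlock M B) (hD : IsDefectGroup p M B P)
    (θ : IrrCharacter G) (hθ : θ ∈ B) (hker : P ≤ irrKer θ) :
    (charDegree (θ : G → ℂ)).factorization p = P.index.factorization p := by
  have hp : p.Prime := Fact.out
  have hdvd : charDegree (θ : G → ℂ) ∣ P.index :=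
    (irr_degree_dvd_index_ker θ).trans (Subgroup.index_dvd_of_le hker)
  have hd0 : 0 < charDegree (θ : G → ℂ) := irr_degree_pos θ
  have hidx0 : P.index ≠ 0 := Subgroup.index_ne_zero_of_finite
  have h1 : (charDegree (θ : G → ℂ)).factorization p ≤ P.index.factorization p :=
    (Nat.factorization_le_iff_dvd hd0.ne' hidx0).mpr hdvd p
  have h2 := card_defectGroup hM hB hD
  unfold blockDefect at h2
  have h3 : sInf ((fun χ : IrrCharacter G => (charDegree (χ : G → ℂ)).factorization p) '' B)
      ≤ (charDegree (θ : G → ℂ)).factorization p := Nat.sInf_le ⟨θ, hθ, rfl⟩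
  have h4 : (Nat.card P).factorization p + P.index.factorization p
      = (Nat.card G).factorization p := by
    rw [← Subgroup.card_mul_index P, Nat.factorization_mul Nat.card_pos.ne' hidx0]
    rfl
  have h5 : (Nat.card P).factorization p = (Nat.card G).factorization p -
      sInf ((fun χ : IrrCharacter G => (charDegree (χ : G → ℂ)).factorization p) '' B) := by
    rw [h2, hp.factorization_pow, Finsupp.single_eq_same]
  omega

/-- Members of a block with normal defect group `P` vanish off `P · (p-regular elements)`. -/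
theorem irr_vanish_of_normal_defect [Finite G] [Fact p.Prime] (hM : IsPModular p M)
    (P : Subgroup G) [hPn : P.Normal] (hP : IsPGroup p P) {B : Set (IrrCharacter G)}
    (hB : IsPBlock M B) (hD : IsDefectGroup p M B P) (χ : IrrCharacter G) (hχ : χ ∈ B) (g : G)
    (hg : ¬ ∃ y ∈ P, ∃ x : G, ¬ p ∣ orderOf x ∧ Commute y x ∧ g = y * x) :
    (χ : G → ℂ) g = 0 := by
  have hp : p.Prime := Fact.out
  obtain ⟨u, hu⟩ := exists_isPPart hp g
  apply irr_eq_zero_of_ppart_not_mem_defect hM χ g u hu
  intro D hD' huD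
  rw [← eq_blockOf_of_mem hM hB hχ] at hD'
  have h1 := defectGroup_eq_of_normal hM P hP hB hD hD'
  rw [h1] at huD
  obtain ⟨s, hs, hc, -, hr⟩ := hu
  exact hg ⟨u, huD, s, hr, hc, hs.symm⟩

/-- Reindexing a sum over `G` by `P × (p-regular elements)` for functions vanishing elsewhere. -/
theorem sum_eq_sum_prod_of_vanish [Fintype G] [Fact p.Prime] (P : Subgroup G) [Fintype P]
    (hP : IsPGroup p P) (hG : P ⊔ Subgroup.centralizer (P : Set G) = ⊤) (F : G → ℂ)
    (hF : ∀ g : G, (¬ ∃ y ∈ P, ∃ x : G, ¬ p ∣ orderOf x ∧ g = y * x) → F g = 0) :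
    ∑ g : G, F g
      = ∑ y : P, ∑ x ∈ Finset.univ.filter (fun x : G => ¬ p ∣ orderOf x), F ((y : G) * x) := by
  classical
  have hp : p.Prime := Fact.out
  obtain ⟨n, hn⟩ := IsPGroup.iff_card.mp hP
  have hinj : Set.InjOn (fun yx : P × G => (yx.1 : G) * yx.2)
      (((Finset.univ : Finset P) ×ˢ Finset.univ.filter (fun x : G => ¬ p ∣ orderOf x) :
        Finset (P × G)) : Set (P × G)) := by
    rintro ⟨y, x⟩ h1 ⟨y', x'⟩ h2 heq
    simp only [Finset.coe_product, Set.mem_prod, Finset.mem_coe, Finset.mem_filter,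
      Finset.mem_univ, true_and] at h1 h2
    change (y : G) * x = (y' : G) * x' at heq
    have hxC := regular_mem_centralizer P hP hG x h1
    obtain ⟨v, hvdef⟩ : ∃ v : P, v = y'⁻¹ * y := ⟨_, rfl⟩
    have hvx : Commute (v : G) x := hxC v v.2
    have hx'eq : x' = (v : G) * x := by
      rw [hvdef]
      push_cast
      rw [mul_assoc, heq]
      group
    have hvn : (v : G) ^ (p ^ n) = 1 := by
      have h3 : v ^ (p ^ n) = 1 := by
        rw [← hn]
        exact pow_card_eq_one'
      exact_mod_cast congrArg Subtype.val h3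
    have hv1 : (v : G) = 1 :=
      eq_one_of_ppow_mul_regular hp (v : G) x hvx n hvn h1 (hx'eq ▸ h2)
    have hyy : y = y' := by
      have h4 : v = 1 := Subtype.ext hv1
      rw [hvdef] at h4
      exact (inv_mul_eq_one.mp h4).symm
    have hxx : x = x' := by rw [hx'eq, hv1, one_mul]
    exact Prod.ext hyy hxx
  rw [← Finset.sum_product' (s := (Finset.univ : Finset P))
    (t := Finset.univ.filter (fun x : G => ¬ p ∣ orderOf x)) (f := fun y x => F ((y : G) * x)),
    ← Finset.sum_image (f := F) hinj]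
  symm
  apply Finset.sum_subset (Finset.subset_univ _)
  intro g _ hg
  apply hF
  rintro ⟨y, hy, x, hx, rfl⟩
  apply hg
  rw [Finset.mem_image]
  exact ⟨(⟨y, hy⟩, x), by simp [hx], rfl⟩

/-- Orthogonality on the `p`-regular elements for members of `B` with `P` in the kernel. -/
theorem sum_regular_of_ker [Fintype G] [Fact p.Prime] (hM : IsPModular p M) (P : Subgroup G)
    [hPn : P.Normal] [Fintype P] (hP : IsPGroup p P)
    (hG : P ⊔ Subgroup.centralizer (P : Set G) = ⊤) {B : Set (IrrCharacter G)}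
    (hB : IsPBlock M B) (hD : IsDefectGroup p M B P) (θ θ' : IrrCharacter G) (hθ : θ ∈ B)
    (hk : P ≤ irrKer θ) (hk' : P ≤ irrKer θ') :
    (Nat.card P : ℂ) * ∑ x ∈ Finset.univ.filter (fun x : G => ¬ p ∣ orderOf x),
        (θ : G → ℂ) x * conj ((θ' : G → ℂ) x)
      = if θ = θ' then (Nat.card G : ℂ) else 0 := by
  classical
  have h1 := classInner_irr_irr θ θ'
  unfold classInner at h1
  have hG0 : (Nat.card G : ℂ) ≠ 0 := Nat.cast_ne_zero.mpr Nat.card_pos.ne'
  have h2 : ∑ g : G, (θ : G → ℂ) g * conj ((θ' : G → ℂ) g)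
      = if θ = θ' then (Nat.card G : ℂ) else 0 := by
    by_cases h : θ = θ'
    · rw [if_pos h] at h1 ⊢
      field_simp at h1
      exact h1
    · rw [if_neg h] at h1 ⊢
      rcases mul_eq_zero.mp h1 with h3 | h3
      · exact absurd (inv_eq_zero.mp h3) hG0
      · exact h3
  rw [← h2, sum_eq_sum_prod_of_vanish P hP hG
    (fun g => (θ : G → ℂ) g * conj ((θ' : G → ℂ) g)) ?_]
  · have h3 : ∀ y : P, ∑ x ∈ Finset.univ.filter (fun x : G => ¬ p ∣ orderOf x),
        (θ : G → ℂ) ((y : G) * x) * conj ((θ' : G → ℂ) ((y : G) * x))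
        = ∑ x ∈ Finset.univ.filter (fun x : G => ¬ p ∣ orderOf x),
          (θ : G → ℂ) x * conj ((θ' : G → ℂ) x) := by
      intro y
      apply Finset.sum_congr rfl
      intro x _
      rw [irr_mul_of_le_ker θ P hk y.2 x, irr_mul_of_le_ker θ' P hk' y.2 x]
    rw [Finset.sum_congr rfl (fun y _ => h3 y), Finset.sum_const, Finset.card_univ,
      nsmul_eq_mul, Nat.card_eq_fintype_card]
  · intro g hg
    rw [irr_vanish_of_normal_defect hM P hP hB hD θ hθ g
      (by rintro ⟨y, hy, x, hx, -, rfl⟩; exact hg ⟨y, hy, x, hx, rfl⟩), zero_mul]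

/-- Uniqueness of the canonical character. -/
theorem canonical_unique [Fintype G] [Fact p.Prime] (hM : IsPModular p M) (P : Subgroup G)
    [hPn : P.Normal] [Fintype P] (hP : IsPGroup p P)
    (hG : P ⊔ Subgroup.centralizer (P : Set G) = ⊤) {B : Set (IrrCharacter G)}
    (hB : IsPBlock M B) (hD : IsDefectGroup p M B P) (θ θ' : IrrCharacter G) (hθ : θ ∈ B)
    (hθ' : θ' ∈ B) (hk : P ≤ irrKer θ) (hk' : P ≤ irrKer θ') : θ' = θ := by
  classical
  have hp : p.Prime := Fact.out
  by_contra hne
  have hdeg := canonical_degree hM P hB hD θ hθ hk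
  have hdvd : charDegree (θ : G → ℂ) ∣ P.index :=
    (irr_degree_dvd_index_ker θ).trans (Subgroup.index_dvd_of_le hk)
  obtain ⟨v, hv⟩ := hdvd
  have hd0 : 0 < charDegree (θ : G → ℂ) := irr_degree_pos θ
  have hidx0 : P.index ≠ 0 := Subgroup.index_ne_zero_of_finite
  have hv0 : v ≠ 0 := by
    rintro rfl
    rw [mul_zero] at hv
    exact hidx0 hv
  have hpv : ¬ p ∣ v := by
    intro hpv
    have h1 : P.index.factorization p
        = (charDegree (θ : G → ℂ)).factorization p + v.factorization p := by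
      rw [hv, Nat.factorization_mul hd0.ne' hv0]
      rfl
    have h2 : 0 < v.factorization p := hp.factorization_pos_of_dvd hv0 hpv
    omega
  obtain ⟨a, ha⟩ : ∃ a : G → ℂ, a = fun g =>
    if ¬ p ∣ orderOf g then (v : ℂ)⁻¹ * conj ((θ : G → ℂ) g) else 0 := ⟨_, rfl⟩
  have hacl : ∀ g x : G, a (x * g * x⁻¹) = a g := by
    intro g x
    have ho : orderOf (x * g * x⁻¹) = orderOf g := by
      have h1 := (MulAut.conj x).orderOf_eq g
      rwa [MulAut.conj_apply] at h1
    rw [ha]
    simp only [ho, irr_conj θ g x]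
  have halr : ∀ g, MemLocalRing M (a g) := by
    intro g
    rw [ha]
    by_cases hg : ¬ p ∣ orderOf g
    · simp only [if_pos hg]
      exact lr_mul hM (lr_natCast_inv hM hpv)
        (lr_of_isIntegral hM (map_isIntegral_int (starRingEnd ℂ) (irr_isIntegral θ g)))
    · simp only [if_neg hg]
      exact lr_zero hM
  have hom := omega_congr hM a hacl halr (sameBlock_of_mem hM hB hθ hθ')
  have hS := sum_regular_of_ker hM P hP hG hB hD θ θ hθ hk hk
  have hS' := sum_regular_of_ker hM P hP hG hB hD θ' θ hθ' hk' hk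
  rw [if_pos rfl] at hS
  rw [if_neg hne] at hS'
  have hP0 : (Nat.card P : ℂ) ≠ 0 := Nat.cast_ne_zero.mpr Nat.card_pos.ne'
  have hsum : ∀ ψ : IrrCharacter G, ∑ g : G, a g * (ψ : G → ℂ) g
      = (v : ℂ)⁻¹ * ∑ x ∈ Finset.univ.filter (fun x : G => ¬ p ∣ orderOf x),
        (ψ : G → ℂ) x * conj ((θ : G → ℂ) x) := by
    intro ψ
    rw [Finset.mul_sum, Finset.sum_filter]
    apply Finset.sum_congr rfl
    intro g _
    rw [ha]
    by_cases hg : ¬ p ∣ orderOf g
    · simp only [if_pos hg]
      ring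
    · simp only [if_neg hg]
      ring
  have h1 : omega a θ = 1 := by
    unfold omega
    rw [hsum θ]
    have hcard : (Nat.card G : ℂ)
        = (Nat.card P : ℂ) * ((charDegree (θ : G → ℂ) : ℂ) * (v : ℂ)) := by
      rw [← Subgroup.card_mul_index P, hv]
      push_cast
      ring
    rw [hcard] at hS
    have hS2 := mul_left_cancel₀ hP0 hS
    rw [hS2, irr_one_eq_degree]
    have hd' : (charDegree (θ : G → ℂ) : ℂ) ≠ 0 := Nat.cast_ne_zero.mpr hd0.ne'
    have hv' : (v : ℂ) ≠ 0 := Nat.cast_ne_zero.mpr hv0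
    field_simp
  have h2 : omega a θ' = 0 := by
    unfold omega
    rw [hsum θ']
    have hS2 : ∑ x ∈ Finset.univ.filter (fun x : G => ¬ p ∣ orderOf x),
        (θ' : G → ℂ) x * conj ((θ : G → ℂ) x) = 0 := by
      rcases mul_eq_zero.mp hS' with h | h
      · exact absurd h hP0
      · exact h
    rw [hS2, mul_zero, zero_div]
  rw [h1, h2, sub_zero] at hom
  exact not_li_one hM hom

end Cfsg.Agent.Helper2
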