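import Mathlib
import Cfsg.Agent.Helper2.CentProd2
import Cfsg.Agent.Helper24.InvConst

/-!
# Blocks of `G = P · C_G(P)` with defect group `P`, part 3 (helper2)

Degrees of the members of the block relative to the canonical character.
-/

set_option autoImplicit false

namespace Cfsg.Agent.Helper2

open Cfsg Cfsg.Agent.Helper25 Cfsg.Agent.Helper7
open scoped ComplexConjugate

universe u

variable {G : Type u} [Group G] {p : ℕ} {M : Ideal AlgInt}

theorem classInner_triv_ne_zero_iff [Fintype G] (P : Subgroup G) [hPn : P.Normal] [Fintype P]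
    (hG : P ⊔ Subgroup.centralizer (P : Set G) = ⊤) (χ : IrrCharacter G) :
    classInner (fun y : P => (χ : G → ℂ) y) (trivChar P : P → ℂ) ≠ 0 ↔ P ≤ irrKer χ := by
  constructor
  · intro h y hy
    obtain ⟨a, ha, heq⟩ := restrict_eq_smul_of_sup_centralizer P hG χ (trivChar P) h
    rw [mem_irrKer]
    have h1 := congrFun heq ⟨y, hy⟩
    have h2 := congrFun heq 1
    simp only [Pi.smul_apply, trivChar_apply, smul_eq_mul, mul_one, Subgroup.coe_one] at h1 h2
    rw [h1, h2]
  · intro h
    have hconst : (fun y : P => (χ : G → ℂ) y) = (χ : G → ℂ) 1 • (trivChar P : P → ℂ) := by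
      funext y
      rw [Pi.smul_apply, trivChar_apply, smul_eq_mul, mul_one]
      exact (mem_irrKer χ y).mp (h y.2)
    rw [hconst, classInner_smul_left, classInner_irr_irr, if_pos rfl, mul_one]
    exact irr_one_ne_zero χ

theorem inter_triv_eq_singleton [Fintype G] [Fact p.Prime] (hM : IsPModular p M)
    (P : Subgroup G) [hPn : P.Normal] [Fintype P] (hP : IsPGroup p P)
    (hG : P ⊔ Subgroup.centralizer (P : Set G) = ⊤) {B : Set (IrrCharacter G)}
    (hB : IsPBlock M B) (hD : IsDefectGroup p M B P) (θ : IrrCharacter G) (hθ : θ ∈ B)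
    (hk : P ≤ irrKer θ) :
    B ∩ {χ : IrrCharacter G |
      classInner (fun y : P => (χ : G → ℂ) y) (trivChar P : P → ℂ) ≠ 0} = {θ} := by
  ext ψ
  simp only [Set.mem_inter_iff, Set.mem_ofPred_eq, Set.mem_singleton_iff]
  rw [classInner_triv_ne_zero_iff P hG ψ]
  constructor
  · rintro ⟨h1, h2⟩
    exact canonical_unique hM P hP hG hB hD θ ψ hθ h1 hk h2
  · rintro rfl
    exact ⟨hθ, hk⟩

/-- The idempotent of `B` on the `p`-regular elements, through the canonical character. -/
theorem blockCoeff_regular_eq [Fintype G] [Fact p.Prime] (hM : IsPModular p M)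
    (P : Subgroup G) [hPn : P.Normal] [Fintype P] (hP : IsPGroup p P)
    (hG : P ⊔ Subgroup.centralizer (P : Set G) = ⊤) {B : Set (IrrCharacter G)}
    (hB : IsPBlock M B) (hD : IsDefectGroup p M B P) (θ : IrrCharacter G) (hθ : θ ∈ B)
    (hk : P ≤ irrKer θ) (x : G) (hx : ¬ p ∣ orderOf x) :
    blockCoeff B x = (Nat.card P : ℂ) *
      ((Nat.card G : ℂ)⁻¹ * ((θ : G → ℂ) 1 * conj ((θ : G → ℂ) x))) := by
  have h1 := blockCoeff_inter_apply hM P hP hG B hB (trivChar P) 1 x hx
  rw [inter_triv_eq_singleton hM P hP hG hB hD θ hθ hk] at h1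
  have h2 : blockCoeff ({θ} : Set (IrrCharacter G)) x
      = (Nat.card G : ℂ)⁻¹ * ((θ : G → ℂ) 1 * conj ((θ : G → ℂ) x)) := by
    unfold blockCoeff
    rw [finsum_mem_singleton]
  have e : ((1 : P) : G) * x = x := by rw [Subgroup.coe_one, one_mul]
  rw [e, h2] at h1
  simp only [trivChar_apply, map_one, mul_one] at h1
  have hP0 : (Nat.card P : ℂ) ≠ 0 := Nat.cast_ne_zero.mpr Nat.card_pos.ne'
  rw [h1]
  field_simp

/-- The degree of the canonical character divides the degree of every member of the block. -/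
theorem canonical_degree_dvd [Fintype G] [Fact p.Prime] (hM : IsPModular p M)
    (P : Subgroup G) [hPn : P.Normal] [Fintype P] (hP : IsPGroup p P)
    (hG : P ⊔ Subgroup.centralizer (P : Set G) = ⊤) {B : Set (IrrCharacter G)}
    (hB : IsPBlock M B) (hD : IsDefectGroup p M B P) (θ : IrrCharacter G) (hθ : θ ∈ B)
    (hk : P ≤ irrKer θ) (χ : IrrCharacter G) (hχ : χ ∈ B) :
    charDegree (θ : G → ℂ) ∣ charDegree (χ : G → ℂ) := by
  classical
  have hp : p.Prime := Fact.out
  have h1 := sum_blockCoeff_mul B χ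
  rw [if_pos hχ] at h1
  have h2 : ∀ g : G, blockCoeff B g * (χ : G → ℂ) g
      = (Nat.card P : ℂ) * (θ : G → ℂ) 1 * ((Nat.card G : ℂ)⁻¹ *
        conj (pRegularPart p (θ : G → ℂ) g * conj ((χ : G → ℂ) g))) := by
    intro g
    by_cases hg : p ∣ orderOf g
    · rw [blockCoeff_eq_zero_of_singular hM hB g hg, pRegularPart_of_sing hg]
      simp
    · rw [blockCoeff_regular_eq hM P hP hG hB hD θ hθ hk g hg, pRegularPart_of_reg hg, map_mul,
        Complex.conj_conj]
      ring
  have hS : ∑ g : G, blockCoeff B g * (χ : G → ℂ) g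
      = (Nat.card P : ℂ) * (θ : G → ℂ) 1 * ((Nat.card G : ℂ)⁻¹ *
        conj (∑ g : G, pRegularPart p (θ : G → ℂ) g * conj ((χ : G → ℂ) g))) := by
    rw [map_sum, Finset.mul_sum, Finset.mul_sum]
    exact Finset.sum_congr rfl (fun g _ => h2 g)
  rw [hS] at h1
  obtain ⟨m, hm⟩ := classInner_pRegular_int hM θ χ
  unfold classInner at hm
  have hpow : (p : ℂ) ^ ((Nat.card G).factorization p
      - (charDegree (θ : G → ℂ)).factorization p) = (Nat.card P : ℂ) := by
    obtain ⟨n, hn⟩ := IsPGroup.iff_card.mp hP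
    have hdeg := canonical_degree hM P hB hD θ hθ hk
    have h4 : (Nat.card P).factorization p + P.index.factorization p
        = (Nat.card G).factorization p := by
      rw [← Subgroup.card_mul_index P,
        Nat.factorization_mul Nat.card_pos.ne' Subgroup.index_ne_zero_of_finite]
      rfl
    have h5 : (Nat.card P).factorization p = n := by
      rw [hn, hp.factorization_pow, Finsupp.single_eq_same]
    have h6 : (Nat.card G).factorization p - (charDegree (θ : G → ℂ)).factorization p = n := by
      omega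
    rw [h6, hn]
    push_cast
    rfl
  rw [hpow] at hm
  have hm' := congrArg (starRingEnd ℂ) hm
  simp only [map_mul, map_inv₀, Complex.conj_natCast, map_intCast] at hm'
  have h3 : (χ : G → ℂ) 1 = (θ : G → ℂ) 1 * (m : ℂ) := by
    rw [← h1, ← hm']
    ring
  rw [irr_one_eq_degree, irr_one_eq_degree] at h3
  have h4 : ((charDegree (χ : G → ℂ) : ℕ) : ℤ) = ((charDegree (θ : G → ℂ) : ℕ) : ℤ) * m := by
    exact_mod_cast h3
  exact Int.natCast_dvd_natCast.mp ⟨m, h4⟩

/-- If `χ_P` is a multiple of `ζ` and `x` centralizes `P`, then `χ(x)` is `ζ(1)` times an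
algebraic integer. -/
theorem value_centralizer_dvd [Fintype G] (P : Subgroup G) [hPn : P.Normal] [Fintype P] (x : G)
    (hx : x ∈ Subgroup.centralizer (P : Set G)) (χ : IrrCharacter G) (ζ : IrrCharacter P)
    (hζ : ∀ ζ' : IrrCharacter P, ζ' ≠ ζ →
      classInner (fun y : P => (χ : G → ℂ) y) (ζ' : P → ℂ) = 0) :
    ∃ κ : ℂ, IsIntegral ℤ κ ∧ (χ : G → ℂ) x = (charDegree (ζ : P → ℂ) : ℂ) * κ := by
  classical
  obtain ⟨H, hHdef⟩ : ∃ H : Subgroup G, H = P ⊔ Subgroup.zpowers x := ⟨_, rfl⟩
  have hPH : P ≤ H := by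
    rw [hHdef]
    exact le_sup_left
  have hxH : x ∈ H := by
    rw [hHdef]
    exact (le_sup_right : Subgroup.zpowers x ≤ P ⊔ Subgroup.zpowers x) (Subgroup.mem_zpowers x)
  haveI : Fintype H := Fintype.ofFinite H
  haveI : Fintype (P.subgroupOf H) := Fintype.ofFinite _
  haveI : (P.subgroupOf H).Normal := inferInstance
  have hHC : H ≤ Subgroup.centralizer ({x} : Set G) := by
    rw [hHdef]
    apply sup_le
    · intro y hy
      rw [Subgroup.mem_centralizer_iff]
      intro z hz
      rw [Set.mem_singleton_iff.mp hz]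
      exact (hx y hy).symm
    · rw [Subgroup.zpowers_le, Subgroup.mem_centralizer_iff]
      intro z hz
      rw [Set.mem_singleton_iff.mp hz]
  have hcent : ∀ η : IrrCharacter H, (η : H → ℂ) ⟨x, hxH⟩
      = centralChar (η : H → ℂ) ⟨x, hxH⟩ * (η : H → ℂ) 1 := by
    intro η
    unfold centralChar
    have htop : Subgroup.centralizer ({(⟨x, hxH⟩ : H)} : Set H) = ⊤ := by
      rw [eq_top_iff]
      intro h _
      rw [Subgroup.mem_centralizer_iff]
      intro z hz
      rw [Set.mem_singleton_iff.mp hz]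
      apply Subtype.ext
      have h1 := hHC h.2
      rw [Subgroup.mem_centralizer_iff] at h1
      exact h1 x rfl
    rw [htop, Subgroup.index_top, Nat.cast_one, one_mul, div_mul_cancel₀ _ (irr_one_ne_zero η)]
  have hχH : IsCharacter H (fun h : H => (χ : G → ℂ) h) :=
    isCharacter_restrict H (isCharacter_of_isIrrCharacter χ.2)
  have hn : ∀ η : IrrCharacter H, ∃ n : ℕ,
      classInner (fun h : H => (χ : G → ℂ) h) (η : H → ℂ) = n :=
    fun η => classInner_char_nat hχH (isCharacter_of_isIrrCharacter η.2)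
  choose n hn using hn
  have hexp := classFun_eq_sum_classInner (isClassFunction_of_isCharacter hχH)
  have hval : ∀ h : H, (χ : G → ℂ) h = ∑ η : IrrCharacter H, (n η : ℂ) * (η : H → ℂ) h := by
    intro h
    have h1 := congrFun hexp h
    simp only [Finset.sum_apply, Pi.smul_apply, smul_eq_mul, hn] at h1
    exact h1
  have hdvd : ∀ η : IrrCharacter H, n η ≠ 0 →
      charDegree (ζ : P → ℂ) ∣ charDegree (η : H → ℂ) := by
    intro η hnη
    obtain ⟨ξ, hξ⟩ := Cfsg.Agent.Helper24.exists_constituent
      (isCharacter_restrict (P.subgroupOf H) (isCharacter_of_isIrrCharacter η.2))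
      (by simpa using irr_one_ne_zero η)
    have hdv := constituent_degree_dvd (P.subgroupOf H) η ξ hξ
    have hξeq : ξ = irrEquiv (Subgroup.subgroupOfEquivOfLe hPH)
        (irrEquiv (Subgroup.subgroupOfEquivOfLe hPH).symm ξ) :=
      (irrEquiv_irrEquiv_symm (Subgroup.subgroupOfEquivOfLe hPH) ξ).symm
    have hζ₂ : irrEquiv (Subgroup.subgroupOfEquivOfLe hPH).symm ξ = ζ := by
      by_contra hne
      have h0 := hζ _ hne
      -- transport the inner product to `P.subgroupOf H`
      have h1 : classInner (fun y : P => (χ : G → ℂ) y)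
          (irrEquiv (Subgroup.subgroupOfEquivOfLe hPH).symm ξ : P → ℂ)
          = classInner (fun y' : P.subgroupOf H => (χ : G → ℂ) ((y' : H) : G))
            (ξ : P.subgroupOf H → ℂ) := by
        unfold classInner
        rw [Nat.card_congr (Subgroup.subgroupOfEquivOfLe hPH).toEquiv]
        congr 1
        rw [← Equiv.sum_comp (Subgroup.subgroupOfEquivOfLe hPH).toEquiv]
        apply Finset.sum_congr rfl
        intro y' _
        rw [irrEquiv_apply]
        have e1 : (Subgroup.subgroupOfEquivOfLe hPH).symm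
            ((Subgroup.subgroupOfEquivOfLe hPH).toEquiv y') = y' :=
          (Subgroup.subgroupOfEquivOfLe hPH).symm_apply_apply y'
        rw [e1]
        rfl
      have h2 : (fun y' : P.subgroupOf H => (χ : G → ℂ) ((y' : H) : G))
          = ∑ η' : IrrCharacter H, (n η' : ℂ) •
            (fun y' : P.subgroupOf H => (η' : H → ℂ) (y' : H)) := by
        funext y'
        rw [hval (y' : H), Finset.sum_apply]
        rfl
      rw [h1, h2, classInner_sum_left] at h0
      have hm : ∀ η' : IrrCharacter H, ∃ m : ℕ,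
          classInner (fun y' : P.subgroupOf H => (η' : H → ℂ) (y' : H))
            (ξ : P.subgroupOf H → ℂ) = m :=
        fun η' => classInner_char_nat
          (isCharacter_restrict (P.subgroupOf H) (isCharacter_of_isIrrCharacter η'.2))
          (isCharacter_of_isIrrCharacter ξ.2)
      choose m hm using hm
      have h3 : ∑ η' : IrrCharacter H, n η' * m η' = 0 := by
        have h4 : ∑ η' : IrrCharacter H, classInner ((n η' : ℂ) •
            (fun y' : P.subgroupOf H => (η' : H → ℂ) (y' : H))) (ξ : P.subgroupOf H → ℂ)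
            = ((∑ η' : IrrCharacter H, n η' * m η' : ℕ) : ℂ) := by
          push_cast
          apply Finset.sum_congr rfl
          intro η' _
          rw [classInner_smul_left, hm η']
        rw [h4] at h0
        exact_mod_cast h0
      have h5 := (Finset.sum_eq_zero_iff.mp h3) η (Finset.mem_univ η)
      rcases Nat.mul_eq_zero.mp h5 with h6 | h6
      · exact hnη h6
      · apply hξ
        rw [hm η, h6, Nat.cast_zero]
    rw [hξeq, hζ₂, charDegree_irrEquiv] at hdv
    exact hdv
  have hnat : ∀ k : ℕ, IsIntegral ℤ (k : ℂ) := fun k => by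
    have h1 := isIntegral_algebraMap (R := ℤ) (A := ℂ) (x := (k : ℤ))
    simpa using h1
  refine ⟨∑ η : IrrCharacter H, (n η : ℂ) * centralChar (η : H → ℂ) ⟨x, hxH⟩ *
    ((charDegree (η : H → ℂ) / charDegree (ζ : P → ℂ) : ℕ) : ℂ), ?_, ?_⟩
  · apply IsIntegral.sum
    intro η _
    exact ((hnat _).mul (centralChar_isIntegral η _)).mul (hnat _)
  · have h1 := hval ⟨x, hxH⟩
    rw [h1, Finset.mul_sum]
    apply Finset.sum_congr rfl
    intro η _
    by_cases h0 : n η = 0
    · rw [h0]
      simp
    · rw [hcent η, irr_one_eq_degree]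
      obtain ⟨q, hq⟩ := hdvd η h0
      rw [hq, Nat.mul_div_cancel_left q (irr_degree_pos ζ)]
      push_cast
      ring

end Cfsg.Agent.Helper2
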