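import Mathlib
import Cfsg.Agent.Helper2.CentProd3

/-!
# Blocks of `G = P · C_G(P)` with defect group `P`, part 4 (helper2)

The parametrisation of the block by the irreducible characters of `P`.
-/

set_option autoImplicit false

namespace Cfsg.Agent.Helper2

open Cfsg Cfsg.Agent.Helper25 Cfsg.Agent.Helper7
open scoped ComplexConjugate

universe u

variable {G : Type u} [Group G] {p : ℕ} {M : Ideal AlgInt}

/-- The `p`-part of the degree of a member of the block lying over `ζ`. -/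
theorem degree_val_ge [Fintype G] [Fact p.Prime] (hM : IsPModular p M) (P : Subgroup G)
    [hPn : P.Normal] [Fintype P] (hP : IsPGroup p P)
    (hG : P ⊔ Subgroup.centralizer (P : Set G) = ⊤) {B : Set (IrrCharacter G)}
    (hB : IsPBlock M B) (hD : IsDefectGroup p M B P) (χ : IrrCharacter G) (hχ : χ ∈ B)
    (ζ : IrrCharacter P)
    (hζ : classInner (fun y : P => (χ : G → ℂ) y) (ζ : P → ℂ) ≠ 0) :
    P.index.factorization p + (charDegree (ζ : P → ℂ)).factorization p
      ≤ (charDegree (χ : G → ℂ)).factorization p := by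
  have hp : p.Prime := Fact.out
  obtain ⟨g₀, hg₀, Q, hQ⟩ := hD
  have hreg := isDefectClass_regular hM hB hg₀
  have hg₀C := regular_mem_centralizer P hP hG g₀ hreg
  obtain ⟨κ, hκ, hval⟩ := value_centralizer_dvd P g₀ hg₀C χ ζ (fun ζ' hne => by
    by_contra h
    exact hne (constituent_unique_of_sup_centralizer P hG χ ζ ζ' hζ h))
  have hnli := hg₀.2.2 χ hχ
  unfold centralChar at hnli
  rw [hval, irr_one_eq_degree] at hnli
  have hidx0 : (Subgroup.centralizer ({g₀} : Set G)).index ≠ 0 := Subgroup.index_ne_zero_of_finite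
  have hPidx0 : P.index ≠ 0 := Subgroup.index_ne_zero_of_finite
  have hcardP : Nat.card P
      = p ^ (Nat.card (Subgroup.centralizer ({g₀} : Set G))).factorization p := by
    have h1 : Nat.card P = Nat.card (Q : Subgroup (Subgroup.centralizer ({g₀} : Set G))) := by
      rw [hQ]
      exact Subgroup.card_map_of_injective (Subgroup.subtype_injective _)
    rw [h1]
    exact Sylow.card_eq_multiplicity Q
  have ha : (Nat.card P).factorization p + P.index.factorization p
      = (Nat.card G).factorization p := by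
    rw [← Subgroup.card_mul_index P, Nat.factorization_mul Nat.card_pos.ne' hPidx0]
    rfl
  have hb : (Nat.card (Subgroup.centralizer ({g₀} : Set G))).factorization p
      + (Subgroup.centralizer ({g₀} : Set G)).index.factorization p
      = (Nat.card G).factorization p := by
    rw [← Subgroup.card_mul_index (Subgroup.centralizer ({g₀} : Set G)),
      Nat.factorization_mul Nat.card_pos.ne' hidx0]
    rfl
  have hc : (Nat.card P).factorization p
      = (Nat.card (Subgroup.centralizer ({g₀} : Set G))).factorization p := by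
    rw [hcardP, hp.factorization_pow, Finsupp.single_eq_same]
  by_contra hlt
  push Not at hlt
  apply hnli
  obtain ⟨h, u, hu, hdχ⟩ :=
    Nat.exists_eq_pow_mul_and_not_dvd (irr_degree_pos χ).ne' p hp.ne_one
  have hu0 : u ≠ 0 := by
    rintro rfl
    exact hu (dvd_zero p)
  have hh : (charDegree (χ : G → ℂ)).factorization p = h := by
    rw [hdχ, Nat.factorization_mul (pow_ne_zero _ hp.pos.ne') hu0, hp.factorization_pow]
    simp [Nat.factorization_eq_zero_of_not_dvd hu]
  have hN : p ^ (h + 1)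
      ∣ (Subgroup.centralizer ({g₀} : Set G)).index * charDegree (ζ : P → ℂ) := by
    rw [hp.pow_dvd_iff_le_factorization (Nat.mul_ne_zero hidx0 (irr_degree_pos ζ).ne'),
      Nat.factorization_mul hidx0 (irr_degree_pos ζ).ne']
    simp only [Finsupp.coe_add, Pi.add_apply]
    omega
  obtain ⟨t, ht⟩ := hN
  have h1 : (((Subgroup.centralizer ({g₀} : Set G)).index : ℕ) : ℂ)
      * (charDegree (ζ : P → ℂ) : ℂ) = (p : ℂ) ^ (h + 1) * t := by
    exact_mod_cast ht
  have h1' : (((Subgroup.centralizer ({g₀} : Set G)).index : ℕ) : ℂ)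
      * ((charDegree (ζ : P → ℂ) : ℂ) * κ) = (p : ℂ) ^ (h + 1) * t * κ := by
    rw [← mul_assoc, h1]
  have hp0 : (p : ℂ) ≠ 0 := Nat.cast_ne_zero.mpr hp.pos.ne'
  have hu0' : (u : ℂ) ≠ 0 := Nat.cast_ne_zero.mpr hu0
  have e : (((Subgroup.centralizer ({g₀} : Set G)).index : ℕ) : ℂ)
      * ((charDegree (ζ : P → ℂ) : ℂ) * κ) / (charDegree (χ : G → ℂ) : ℂ)
      = (p : ℂ) * ((t : ℂ) * κ * ((u : ℕ) : ℂ)⁻¹) := by
    rw [h1', hdχ]
    push_cast
    field_simp
    ring
  rw [e]
  exact li_mul_lr hM (li_prime hM)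
    (lr_mul hM (lr_mul hM (lr_natCast hM t) (lr_of_isIntegral hM hκ)) (lr_natCast_inv hM hu))

/-- The sum of the squares of the degrees of the members of the block over `ζ`. -/
theorem sum_sq_inter [Fintype G] [Fact p.Prime] (hM : IsPModular p M) (P : Subgroup G)
    [hPn : P.Normal] [Fintype P] (hP : IsPGroup p P)
    (hG : P ⊔ Subgroup.centralizer (P : Set G) = ⊤) {B : Set (IrrCharacter G)}
    (hB : IsPBlock M B) (hD : IsDefectGroup p M B P) (θ : IrrCharacter G) (hθ : θ ∈ B)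
    (hk : P ≤ irrKer θ) (ζ : IrrCharacter P) :
    ∑ χ ∈ (Set.toFinite (B ∩ {χ : IrrCharacter G |
        classInner (fun y : P => (χ : G → ℂ) y) (ζ : P → ℂ) ≠ 0})).toFinset,
        charDegree (χ : G → ℂ) ^ 2
      = (charDegree (θ : G → ℂ) * charDegree (ζ : P → ℂ)) ^ 2 := by
  have hp : p.Prime := Fact.out
  have hreg1 : ¬ p ∣ orderOf (1 : G) := by
    rw [orderOf_one]
    exact hp.not_dvd_one
  have h1 := blockCoeff_inter_apply hM P hP hG B hB ζ 1 1 hreg1
  have e : ((1 : P) : G) * 1 = 1 := by simp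
  rw [e, blockCoeff_regular_eq hM P hP hG hB hD θ hθ hk 1 hreg1] at h1
  have h2 : blockCoeff (B ∩ {χ : IrrCharacter G |
        classInner (fun y : P => (χ : G → ℂ) y) (ζ : P → ℂ) ≠ 0}) 1
      = (Nat.card G : ℂ)⁻¹ * ∑ χ ∈ (Set.toFinite (B ∩ {χ : IrrCharacter G |
        classInner (fun y : P => (χ : G → ℂ) y) (ζ : P → ℂ) ≠ 0})).toFinset,
        ((charDegree (χ : G → ℂ) ^ 2 : ℕ) : ℂ) := by
    unfold blockCoeff
    rw [finsum_mem_eq_finite_toFinset_sum _ (Set.toFinite _)]
    congr 1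
    apply Finset.sum_congr rfl
    intro χ _
    rw [irr_one_eq_degree, Complex.conj_natCast]
    push_cast
    ring
  rw [h2] at h1
  simp only [irr_one_eq_degree, Complex.conj_natCast] at h1
  have hG0 : (Nat.card G : ℂ) ≠ 0 := Nat.cast_ne_zero.mpr Nat.card_pos.ne'
  have hP0 : (Nat.card P : ℂ) ≠ 0 := Nat.cast_ne_zero.mpr Nat.card_pos.ne'
  have h3 := congrArg (fun z => (Nat.card G : ℂ) * z) h1
  rw [mul_inv_cancel_left₀ hG0] at h3
  have h4 : (∑ χ ∈ (Set.toFinite (B ∩ {χ : IrrCharacter G |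
        classInner (fun y : P => (χ : G → ℂ) y) (ζ : P → ℂ) ≠ 0})).toFinset,
        ((charDegree (χ : G → ℂ) ^ 2 : ℕ) : ℂ))
      = (((charDegree (θ : G → ℂ) * charDegree (ζ : P → ℂ)) ^ 2 : ℕ) : ℂ) := by
    rw [h3]
    push_cast
    first | (field_simp; ring) | field_simp
  exact_mod_cast h4

theorem singleton_of_sq_sum {α : Type*} (s : Finset α) (d : α → ℕ) (D : ℕ) (hD : 0 < D)
    (hsum : ∑ x ∈ s, d x ^ 2 = D ^ 2) (hge : ∀ x ∈ s, D ≤ d x) :
    ∃ x₀, s = {x₀} ∧ d x₀ = D := by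
  classical
  have hne : s.Nonempty := by
    rw [Finset.nonempty_iff_ne_empty]
    rintro rfl
    rw [Finset.sum_empty] at hsum
    have := pow_pos hD 2
    omega
  obtain ⟨x₀, hx₀⟩ := hne
  have hrest : ∀ x ∈ s, x = x₀ := by
    intro x hx
    by_contra hxne
    have h1 : d x₀ ^ 2 + d x ^ 2 ≤ ∑ y ∈ s, d y ^ 2 := by
      have hsub : ({x₀, x} : Finset α) ⊆ s := by
        intro y hy
        rw [Finset.mem_insert, Finset.mem_singleton] at hy
        rcases hy with rfl | rfl <;> assumption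
      have h2 := Finset.sum_le_sum_of_subset (f := fun y => d y ^ 2) hsub
      rwa [Finset.sum_pair (Ne.symm hxne)] at h2
    have h2 := Nat.pow_le_pow_left (hge x₀ hx₀) 2
    have h3 := Nat.pow_le_pow_left (hge x hx) 2
    have h4 := pow_pos hD 2
    omega
  have hs : s = {x₀} := Finset.eq_singleton_iff_unique_mem.mpr ⟨hx₀, hrest⟩
  refine ⟨x₀, hs, ?_⟩
  rw [hs, Finset.sum_singleton] at hsum
  exact Nat.pow_left_injective (by norm_num : (2 : ℕ) ≠ 0) hsum

/-- **Blocks of `G = P · C_G(P)` with defect group `P`**: the canonical character `θ` and the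
parametrisation `ζ ↦ F ζ` of the block by `Irr(P)`, with `F ζ (y x) = ζ(y) θ(x)`. -/
theorem centProd_param [Finite G] [Fact p.Prime] (hM : IsPModular p M) (P : Subgroup G)
    (hP : IsPGroup p P) (hG : P ⊔ Subgroup.centralizer (P : Set G) = ⊤)
    (B : Set (IrrCharacter G)) (hB : IsPBlock M B) (hD : IsDefectGroup p M B P) :
    ∃ θ : IrrCharacter G, θ ∈ B ∧ P ≤ irrKer θ ∧ (∀ θ' ∈ B, P ≤ irrKer θ' → θ' = θ) ∧
      (charDegree (θ : G → ℂ)).factorization p = P.index.factorization p ∧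
      ∃ F : IrrCharacter P → IrrCharacter G, (∀ ζ, F ζ ∈ B) ∧ Function.Injective F ∧
        (∀ χ ∈ B, ∃ ζ, F ζ = χ) ∧
        (∀ ζ (y : P) (x : G), ¬ p ∣ orderOf x →
          (F ζ : G → ℂ) ((y : G) * x) = (ζ : P → ℂ) y * (θ : G → ℂ) x) := by
  classical
  haveI := Fintype.ofFinite G
  haveI hPn := normal_of_sup_centralizer P hG
  haveI : Fintype P := Fintype.ofFinite P
  have hp : p.Prime := Fact.out
  obtain ⟨θ, hθ, hk⟩ := Cfsg.Agent.Helper26.exists_mem_block_le_irrKer hM P hP hB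
  refine ⟨θ, hθ, hk, fun θ' hθ' hk' => canonical_unique hM P hP hG hB hD θ θ' hθ hθ' hk hk',
    canonical_degree hM P hB hD θ hθ hk, ?_⟩
  have hsing : ∀ ζ : IrrCharacter P, ∃ χ₀ : IrrCharacter G,
      B ∩ {χ : IrrCharacter G |
        classInner (fun y : P => (χ : G → ℂ) y) (ζ : P → ℂ) ≠ 0} = {χ₀} ∧
      charDegree (χ₀ : G → ℂ) = charDegree (θ : G → ℂ) * charDegree (ζ : P → ℂ) := by
    intro ζ
    have hsum := sum_sq_inter hM P hP hG hB hD θ hθ hk ζ
    have hge : ∀ χ ∈ (Set.toFinite (B ∩ {χ : IrrCharacter G |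
        classInner (fun y : P => (χ : G → ℂ) y) (ζ : P → ℂ) ≠ 0})).toFinset,
        charDegree (θ : G → ℂ) * charDegree (ζ : P → ℂ) ≤ charDegree (χ : G → ℂ) := by
      intro χ hχ
      rw [Set.Finite.mem_toFinset] at hχ
      obtain ⟨hχB, hχζ⟩ := hχ
      have h1 := canonical_degree_dvd hM P hP hG hB hD θ hθ hk χ hχB
      have h2 := degree_val_ge hM P hP hG hB hD χ hχB ζ hχζ
      have h3 := canonical_degree hM P hB hD θ hθ hk
      obtain ⟨n, hn⟩ := IsPGroup.iff_card.mp hP
      obtain ⟨j, -, hj⟩ := (Nat.dvd_prime_pow hp).mp (hn ▸ irr_degree_dvd_card ζ)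
      obtain ⟨k, hk'⟩ := h1
      have hk0 : k ≠ 0 := by
        rintro rfl
        rw [mul_zero] at hk'
        exact (irr_degree_pos χ).ne' hk'
      have h4 : (charDegree (χ : G → ℂ)).factorization p
          = (charDegree (θ : G → ℂ)).factorization p + k.factorization p := by
        rw [hk', Nat.factorization_mul (irr_degree_pos θ).ne' hk0]
        rfl
      have h5 : (charDegree (ζ : P → ℂ)).factorization p = j := by
        rw [hj, hp.factorization_pow, Finsupp.single_eq_same]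
      have h6 : p ^ j ∣ k := (hp.pow_dvd_iff_le_factorization hk0).mpr (by omega)
      rw [hj, hk']
      exact Nat.mul_le_mul_left _ (Nat.le_of_dvd (Nat.pos_of_ne_zero hk0) h6)
    obtain ⟨χ₀, hs, hd⟩ := singleton_of_sq_sum _ (fun χ : IrrCharacter G => charDegree (χ : G → ℂ))
      _ (Nat.mul_pos (irr_degree_pos θ) (irr_degree_pos ζ)) hsum hge
    refine ⟨χ₀, ?_, hd⟩
    ext χ
    rw [← Set.Finite.mem_toFinset (Set.toFinite _), hs, Finset.mem_singleton,
      Set.mem_singleton_iff]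
  choose F hF hFdeg using hsing
  have hFmem : ∀ ζ : IrrCharacter P, F ζ ∈ B ∩ {χ : IrrCharacter G |
      classInner (fun y : P => (χ : G → ℂ) y) (ζ : P → ℂ) ≠ 0} := fun ζ => by
    rw [hF ζ]
    exact Set.mem_singleton _
  refine ⟨F, fun ζ => (hFmem ζ).1, ?_, ?_, ?_⟩
  · intro ζ ζ' heq
    have h1 := (hFmem ζ).2
    have h2 := (hFmem ζ').2
    rw [← heq] at h2
    exact constituent_unique_of_sup_centralizer P hG (F ζ) ζ' ζ h2 h1
  · intro χ hχ
    obtain ⟨ζ, hζ⟩ := Cfsg.Agent.Helper24.exists_constituent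
      (isCharacter_restrict P (isCharacter_of_isIrrCharacter χ.2))
      (by simpa using irr_one_ne_zero χ)
    refine ⟨ζ, ?_⟩
    have h1 : χ ∈ B ∩ {χ : IrrCharacter G |
        classInner (fun y : P => (χ : G → ℂ) y) (ζ : P → ℂ) ≠ 0} := ⟨hχ, hζ⟩
    rw [hF ζ] at h1
    exact (Set.mem_singleton_iff.mp h1).symm
  · intro ζ y x hx
    have h1 := blockCoeff_inter_apply hM P hP hG B hB ζ y x hx
    rw [hF ζ, blockCoeff_regular_eq hM P hP hG hB hD θ hθ hk x hx] at h1
    have h2 : blockCoeff ({F ζ} : Set (IrrCharacter G)) ((y : G) * x)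
        = (Nat.card G : ℂ)⁻¹ * ((F ζ : G → ℂ) 1 * conj ((F ζ : G → ℂ) ((y : G) * x))) := by
      unfold blockCoeff
      rw [finsum_mem_singleton]
    rw [h2] at h1
    simp only [irr_one_eq_degree, hFdeg ζ] at h1
    have hG0 : (Nat.card G : ℂ) ≠ 0 := Nat.cast_ne_zero.mpr Nat.card_pos.ne'
    have hP0 : (Nat.card P : ℂ) ≠ 0 := Nat.cast_ne_zero.mpr Nat.card_pos.ne'
    have hdθ : (charDegree (θ : G → ℂ) : ℂ) ≠ 0 := Nat.cast_ne_zero.mpr (irr_degree_pos θ).ne'
    have hdζ : (charDegree (ζ : P → ℂ) : ℂ) ≠ 0 := Nat.cast_ne_zero.mpr (irr_degree_pos ζ).ne'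
    have h5 := congrArg (fun z => (Nat.card G : ℂ) * z) h1
    rw [mul_inv_cancel_left₀ hG0] at h5
    have h3 : ((charDegree (θ : G → ℂ) : ℂ) * (charDegree (ζ : P → ℂ) : ℂ))
          * conj ((F ζ : G → ℂ) ((y : G) * x))
        = ((charDegree (θ : G → ℂ) : ℂ) * (charDegree (ζ : P → ℂ) : ℂ))
          * (conj ((ζ : P → ℂ) y) * conj ((θ : G → ℂ) x)) := by
      push_cast at h5
      rw [h5]
      first | (field_simp; ring) | field_simp
    have h6 := mul_left_cancel₀ (mul_ne_zero hdθ hdζ) h3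
    have h7 := congrArg (starRingEnd ℂ) h6
    simpa using h7

end Cfsg.Agent.Helper2
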