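import Mathlib
import Cfsg.Agent.Helper2.CharExtra
import Cfsg.Agent.Helper2.PermChar
import Cfsg.Agent.Helper25.CharOrth
import Cfsg.Agent.Helper25.CharMore
import Cfsg.Agent.Helper1.CharCentral

/-!
# Hecke operators of a transitive permutation group and subdegrees (helper2)

For a transitive `G`-set `Ω`, a point `a` with stabilizer `H` and a suborbit `O` of `H`, the
element `T = |H|⁻¹ ∑_{d : d • a ∈ O} d` acts on every matrix representation with eigenvalues that
are either zero or eigenvalues of the adjacency matrix of the corresponding orbital graph.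
-/

set_option autoImplicit false

namespace Cfsg.Agent.Helper2

open Cfsg
open scoped ComplexConjugate

section MatrixLemmas

theorem scalar_mulVec_h2 {Ω : Type*} [Fintype Ω] [DecidableEq Ω] (μ : ℂ) (u : Ω → ℂ) :
    (Matrix.scalar Ω μ).mulVec u = μ • u := by
  have : Matrix.scalar Ω μ = μ • (1 : Matrix Ω Ω ℂ) := by
    ext i j
    simp [Matrix.scalar_apply, Matrix.diagonal_apply, Matrix.one_apply]
  rw [this, Matrix.smul_mulVec, Matrix.one_mulVec]

/-- An eigenvalue of an integer matrix is an algebraic integer. -/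
theorem isIntegral_of_int_mulVec {Ω : Type*} [Fintype Ω] [DecidableEq Ω] (A : Matrix Ω Ω ℤ)
    (u : Ω → ℂ) (hu : u ≠ 0) (μ : ℂ)
    (h : (A.map (Int.castRingHom ℂ)).mulVec u = μ • u) : IsIntegral ℤ μ := by
  have hdet : (Matrix.scalar Ω μ - A.map (Int.castRingHom ℂ)).det = 0 := by
    apply Matrix.exists_mulVec_eq_zero_iff.mp
    refine ⟨u, hu, ?_⟩
    rw [Matrix.sub_mulVec, h, scalar_mulVec_h2, sub_self]
  refine ⟨A.charpoly, Matrix.charpoly_monic A, ?_⟩
  rw [Polynomial.eval₂_eq_eval_map, ← Matrix.charpoly_map, Matrix.eval_charpoly]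
  exact hdet

theorem exists_eigenvector_of_mem_roots {k : ℕ} (M : Matrix (Fin k) (Fin k) ℂ) (μ : ℂ)
    (hμ : μ ∈ M.charpoly.roots) : ∃ v : Fin k → ℂ, v ≠ 0 ∧ M.mulVec v = μ • v := by
  have hroot := (Polynomial.mem_roots (Matrix.charpoly_monic M).ne_zero).mp hμ
  rw [Polynomial.IsRoot.def, Matrix.eval_charpoly] at hroot
  obtain ⟨v, hv, hv0⟩ := Matrix.exists_mulVec_eq_zero_iff.mpr hroot
  refine ⟨v, hv, ?_⟩
  rw [Matrix.sub_mulVec, scalar_mulVec_h2, sub_eq_zero] at hv0
  exact hv0.symm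

/-- If all eigenvalues of a complex matrix are algebraic integers, so is its trace. -/
theorem isIntegral_trace_of_eigen {k : ℕ} (M : Matrix (Fin k) (Fin k) ℂ)
    (h : ∀ (μ : ℂ) (v : Fin k → ℂ), v ≠ 0 → M.mulVec v = μ • v → IsIntegral ℤ μ) :
    IsIntegral ℤ M.trace := by
  rw [Matrix.trace_eq_sum_roots_charpoly]
  apply IsIntegral.multiset_sum
  intro μ hμ
  obtain ⟨v, hv, hv2⟩ := exists_eigenvector_of_mem_roots M μ hμ
  exact h μ v hv hv2

/-- If all eigenvalues of a complex matrix vanish, so does its trace. -/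
theorem trace_eq_zero_of_eigen {k : ℕ} (M : Matrix (Fin k) (Fin k) ℂ)
    (h : ∀ (μ : ℂ) (v : Fin k → ℂ), v ≠ 0 → M.mulVec v = μ • v → μ = 0) : M.trace = 0 := by
  rw [Matrix.trace_eq_sum_roots_charpoly]
  apply Multiset.sum_eq_zero
  intro μ hμ
  obtain ⟨v, hv, hv2⟩ := exists_eigenvector_of_mem_roots M μ hμ
  exact h μ v hv hv2

/-- An idempotent complex matrix of trace zero is zero. -/
theorem idempotent_trace_zero {k : ℕ} (P : Matrix (Fin k) (Fin k) ℂ) (hP : P * P = P)
    (ht : P.trace = 0) : P = 0 := by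
  have h1 : IsIdempotentElem (Matrix.toLin' P) := by
    show Matrix.toLin' P * Matrix.toLin' P = Matrix.toLin' P
    rw [Module.End.mul_eq_comp, ← Matrix.toLin'_mul, hP]
  have h2 : LinearMap.trace ℂ (Fin k → ℂ) (Matrix.toLin' P) = 0 := by
    rw [Matrix.trace_toLin'_eq, ht]
  have h3 := LinearMap.IsIdempotentElem.eq_zero_of_trace_eq_zero h1 h2
  have h4 : Matrix.toLin' P = Matrix.toLin' (0 : Matrix (Fin k) (Fin k) ℂ) := by
    rw [h3, map_zero]
  exact Matrix.toLin'.injective h4

end MatrixLemmas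

section Core

variable {G : Type*} [Group G] [Fintype G] {Ω : Type*} [Fintype Ω] [MulAction G Ω]

open Classical in
/-- The stabilizer of `a`, as a finset of `G`. -/
noncomputable def stabF (G : Type*) [Group G] [Fintype G] {Ω : Type*} [MulAction G Ω] (a : Ω) :
    Finset G :=
  Finset.univ.filter (fun h : G => h • a = a)

open Classical in
/-- The orbit of `b` under the stabilizer of `a`, as a finset. -/
noncomputable def subOrb (G : Type*) [Group G] {Ω : Type*} [Fintype Ω] [MulAction G Ω] (a b : Ω) :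
    Finset Ω :=
  Finset.univ.filter (fun β : Ω => ∃ h : G, h • a = a ∧ h • b = β)

open Classical in
/-- The double coset of the stabilizer of `a` attached to the suborbit of `b`. -/
noncomputable def heckeSet (G : Type*) [Group G] [Fintype G] {Ω : Type*} [Fintype Ω]
    [MulAction G Ω] (a b : Ω) : Finset G :=
  Finset.univ.filter (fun d : G => d • a ∈ subOrb G a b)

theorem mem_stabF {a : Ω} {h : G} : h ∈ stabF G a ↔ h • a = a := by
  simp [stabF]

theorem mem_subOrb {a b β : Ω} : β ∈ subOrb G a b ↔ ∃ h : G, h • a = a ∧ h • b = β := by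
  simp [subOrb]

theorem mem_heckeSet {a b : Ω} {d : G} :
    d ∈ heckeSet G a b ↔ ∃ h : G, h • a = a ∧ h • b = d • a := by
  simp [heckeSet, mem_subOrb]

theorem one_mem_stabF (a : Ω) : (1 : G) ∈ stabF G a := mem_stabF.mpr (one_smul G a)

theorem stabF_card_ne_zero (a : Ω) : ((stabF G a).card : ℂ) ≠ 0 := by
  have : 0 < (stabF G a).card := Finset.card_pos.mpr ⟨1, one_mem_stabF a⟩
  exact_mod_cast this.ne'

theorem smul_mem_subOrb {a b β : Ω} {h : G} (hh : h • a = a) :
    h • β ∈ subOrb G a b ↔ β ∈ subOrb G a b := by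
  rw [mem_subOrb, mem_subOrb]
  constructor
  · rintro ⟨h', h1, h2⟩
    refine ⟨h⁻¹ * h', ?_, ?_⟩
    · rw [mul_smul, h1, inv_smul_eq_iff, hh]
    · rw [mul_smul, h2, inv_smul_smul]
  · rintro ⟨h', h1, h2⟩
    refine ⟨h * h', ?_, ?_⟩
    · rw [mul_smul, h1, hh]
    · rw [mul_smul, h2]

theorem mul_mem_heckeSet {a b : Ω} {h d : G} (hh : h • a = a) :
    h * d ∈ heckeSet G a b ↔ d ∈ heckeSet G a b := by
  simp only [heckeSet, Finset.mem_filter, Finset.mem_univ, true_and]
  rw [mul_smul, smul_mem_subOrb hh]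

theorem mul_mem_stabF {a : Ω} {h h' : G} (hh : h • a = a) :
    h * h' ∈ stabF G a ↔ h' ∈ stabF G a := by
  rw [mem_stabF, mem_stabF, mul_smul]
  constructor
  · intro h1
    have := congrArg (fun z => h⁻¹ • z) h1
    simp only [inv_smul_smul] at this
    rw [this, inv_smul_eq_iff, hh]
  · intro h1
    rw [h1, hh]

theorem one_notMem_heckeSet {a b : Ω} (hab : b ≠ a) : (1 : G) ∉ heckeSet G a b := by
  rw [mem_heckeSet]
  rintro ⟨h, h1, h2⟩
  rw [one_smul] at h2
  apply hab
  have := congrArg (fun z => h⁻¹ • z) h2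
  simp only [inv_smul_smul] at this
  rw [this, inv_smul_eq_iff, h1]

open Classical in
theorem card_fiber_h2 [MulAction.IsPretransitive G Ω] (a β : Ω) :
    (Finset.univ.filter (fun d : G => d • a = β)).card = (stabF G a).card := by
  obtain ⟨x, hx⟩ := MulAction.exists_smul_eq G a β
  symm
  apply Finset.card_bij (fun h _ => x * h)
  · intro h hh
    rw [Finset.mem_filter]
    refine ⟨Finset.mem_univ _, ?_⟩
    rw [mul_smul, mem_stabF.mp hh, hx]
  · intro h₁ _ h₂ _ he
    exact mul_left_cancel he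
  · intro d hd
    rw [Finset.mem_filter] at hd
    refine ⟨x⁻¹ * d, ?_, by rw [mul_inv_cancel_left]⟩
    rw [mem_stabF, mul_smul, hd.2, inv_smul_eq_iff, hx]

open Classical in
/-- Summation over the double coset in terms of the suborbit. -/
theorem sum_heckeSet [MulAction.IsPretransitive G Ω] {V : Type*} [AddCommMonoid V] (a b : Ω)
    (F : Ω → V) :
    ∑ d ∈ heckeSet G a b, F (d • a) = (stabF G a).card • ∑ β ∈ subOrb G a b, F β := by
  have hmaps : ∀ d ∈ heckeSet G a b, d • a ∈ subOrb G a b := by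
    intro d hd
    simpa [heckeSet] using hd
  rw [← Finset.sum_fiberwise_of_maps_to hmaps, Finset.smul_sum]
  apply Finset.sum_congr rfl
  intro β hβ
  have h1 : ∀ d ∈ Finset.filter (fun d : G => d • a = β) (heckeSet G a b), F (d • a) = F β := by
    intro d hd
    rw [(Finset.mem_filter.mp hd).2]
  rw [Finset.sum_congr rfl h1, Finset.sum_const]
  congr 1
  rw [← card_fiber_h2 a β]
  congr 1
  ext d
  simp only [Finset.mem_filter, Finset.mem_univ, true_and, heckeSet]
  constructor
  · rintro ⟨-, h2⟩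
    exact h2
  · intro h2
    exact ⟨by rw [h2]; exact hβ, h2⟩

theorem card_heckeSet [MulAction.IsPretransitive G Ω] (a b : Ω) :
    (heckeSet G a b).card = (stabF G a).card * (subOrb G a b).card := by
  have h := sum_heckeSet (G := G) a b (fun _ => (1 : ℕ))
  simpa using h

theorem card_eq_card_mul_stabF [MulAction.IsPretransitive G Ω] (a : Ω) :
    Fintype.card G = Fintype.card Ω * (stabF G a).card := by
  classical
  have h := Finset.card_eq_sum_card_fiberwise (s := (Finset.univ : Finset G))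
    (t := (Finset.univ : Finset Ω)) (f := fun d : G => d • a) (fun d _ => Finset.mem_univ _)
  rw [Finset.card_univ] at h
  rw [h, Finset.sum_congr rfl (fun β _ => card_fiber_h2 a β), Finset.sum_const, Finset.card_univ,
    smul_eq_mul]

variable [MulAction.IsPretransitive G Ω]

theorem hecke_stab_mul {k : ℕ} (R : G → Matrix (Fin k) (Fin k) ℂ)
    (hRm : ∀ g h, R (g * h) = R g * R h) (a b : Ω) {h : G} (hh : h • a = a) :
    R h * ∑ d ∈ heckeSet G a b, R d = ∑ d ∈ heckeSet G a b, R d := by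
  rw [Finset.mul_sum]
  apply Finset.sum_equiv (Equiv.mulLeft h)
  · intro d
    exact (mul_mem_heckeSet hh).symm
  · intro d _
    rw [← hRm]
    rfl

theorem stab_stab_mul {k : ℕ} (R : G → Matrix (Fin k) (Fin k) ℂ)
    (hRm : ∀ g h, R (g * h) = R g * R h) (a : Ω) {h : G} (hh : h • a = a) :
    R h * ∑ d ∈ stabF G a, R d = ∑ d ∈ stabF G a, R d := by
  rw [Finset.mul_sum]
  apply Finset.sum_equiv (Equiv.mulLeft h)
  · intro d
    exact (mul_mem_stabF hh).symm
  · intro d _
    rw [← hRm]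
    rfl

/-- An eigenvector of the Hecke operator for a nonzero eigenvalue is fixed by the stabilizer. -/
theorem hecke_eigen_fixed {k : ℕ} (R : G → Matrix (Fin k) (Fin k) ℂ)
    (hRm : ∀ g h, R (g * h) = R g * R h) (a b : Ω) (μ : ℂ) (hμ : μ ≠ 0) (v : Fin k → ℂ)
    (hev : (((stabF G a).card : ℂ)⁻¹ • ∑ d ∈ heckeSet G a b, R d).mulVec v = μ • v)
    (h : G) (hh : h • a = a) : (R h).mulVec v = v := by
  have hv' : v = μ⁻¹ • (((stabF G a).card : ℂ)⁻¹ • ∑ d ∈ heckeSet G a b, R d).mulVec v := by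
    rw [hev, smul_smul, inv_mul_cancel₀ hμ, one_smul]
  have hRM : R h * (((stabF G a).card : ℂ)⁻¹ • ∑ d ∈ heckeSet G a b, R d)
      = ((stabF G a).card : ℂ)⁻¹ • ∑ d ∈ heckeSet G a b, R d := by
    rw [Matrix.mul_smul, hecke_stab_mul R hRm a b hh]
  calc (R h).mulVec v
      = (R h).mulVec (μ⁻¹ • (((stabF G a).card : ℂ)⁻¹ • ∑ d ∈ heckeSet G a b, R d).mulVec v) := by
        rw [← hv']
    _ = μ⁻¹ • (R h * (((stabF G a).card : ℂ)⁻¹ • ∑ d ∈ heckeSet G a b, R d)).mulVec v := by
        rw [Matrix.mulVec_smul, Matrix.mulVec_mulVec]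
    _ = v := by rw [hRM]; exact hv'.symm

open Classical in
/-- A nonzero eigenvalue of the Hecke operator is an algebraic integer. -/
theorem hecke_eigen_integral {k : ℕ} (R : G → Matrix (Fin k) (Fin k) ℂ) (hR1 : R 1 = 1)
    (hRm : ∀ g h, R (g * h) = R g * R h) (a b : Ω) (μ : ℂ) (hμ : μ ≠ 0) (v : Fin k → ℂ)
    (hv : v ≠ 0)
    (hev : (((stabF G a).card : ℂ)⁻¹ • ∑ d ∈ heckeSet G a b, R d).mulVec v = μ • v) :
    IsIntegral ℤ μ := by
  have hfix := hecke_eigen_fixed R hRm a b μ hμ v hev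
  have hc := stabF_card_ne_zero (G := G) a
  choose x hx using fun ω : Ω => MulAction.exists_smul_eq G a ω
  obtain ⟨w, hwdef⟩ : ∃ w : Ω → Fin k → ℂ, w = fun ω => (R (x ω)).mulVec v := ⟨_, rfl⟩
  have hw : ∀ g : G, w (g • a) = (R g).mulVec v := by
    intro g
    have h1 : ((x (g • a))⁻¹ * g) • a = a := by rw [mul_smul, inv_smul_eq_iff, hx]
    have h2 := hfix _ h1
    rw [hwdef]
    show (R (x (g • a))).mulVec v = (R g).mulVec v
    conv_lhs => rw [← h2]
    rw [Matrix.mulVec_mulVec, ← hRm, mul_inv_cancel_left]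
  have hw2 : ∀ (g : G) (ω : Ω), w (g • ω) = (R g).mulVec (w ω) := by
    intro g ω
    have e1 : w (g • ω) = w ((g * x ω) • a) := by rw [mul_smul, hx]
    have e2 : w ω = w (x ω • a) := by rw [hx]
    rw [e1, e2, hw, hw, hRm, Matrix.mulVec_mulVec]
  have hsum : ∑ β ∈ subOrb G a b, w β = μ • v := by
    rw [← hev, Matrix.smul_mulVec, Matrix.sum_mulVec]
    have e1 : ∑ d ∈ heckeSet G a b, (R d).mulVec v = ∑ d ∈ heckeSet G a b, w (d • a) :=
      Finset.sum_congr rfl (fun d _ => (hw d).symm)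
    rw [e1, sum_heckeSet a b w, ← Nat.cast_smul_eq_nsmul ℂ, smul_smul, inv_mul_cancel₀ hc,
      one_smul]
  have hnb : ∀ g : G, ∑ ω' ∈ Finset.univ.filter
      (fun ω' : Ω => ∃ g' : G, g' • a = g • a ∧ g' • b = ω'), w ω' = μ • w (g • a) := by
    intro g
    have e1 : ∑ β ∈ subOrb G a b, w (g • β) = ∑ ω' ∈ Finset.univ.filter
        (fun ω' : Ω => ∃ g' : G, g' • a = g • a ∧ g' • b = ω'), w ω' := by
      apply Finset.sum_equiv (MulAction.toPerm g)
      · intro β
        rw [mem_subOrb, Finset.mem_filter]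
        constructor
        · rintro ⟨h, h1, h2⟩
          refine ⟨Finset.mem_univ _, g * h, ?_, ?_⟩
          · rw [mul_smul, h1]
          · rw [mul_smul, h2]; rfl
        · rintro ⟨-, g', h1, h2⟩
          refine ⟨g⁻¹ * g', ?_, ?_⟩
          · rw [mul_smul, h1, inv_smul_smul]
          · rw [mul_smul, h2]
            show g⁻¹ • (g • β) = β
            rw [inv_smul_smul]
      · intro β _
        rfl
    rw [← e1, Finset.sum_congr rfl (fun β _ => hw2 g β), ← Matrix.mulVec_sum, hsum,
      Matrix.mulVec_smul, hw]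
  obtain ⟨i, hi⟩ := Function.ne_iff.mp hv
  obtain ⟨u, hudef⟩ : ∃ u : Ω → ℂ, u = fun ω => w ω i := ⟨_, rfl⟩
  have hwa : w a = v := by
    have := hw 1
    rw [one_smul, hR1, Matrix.one_mulVec] at this
    exact this
  have hu : u ≠ 0 := by
    intro h0
    have := congrFun h0 a
    rw [hudef] at this
    simp only [Pi.zero_apply] at this
    rw [hwa] at this
    exact hi this
  obtain ⟨A, hA⟩ : ∃ A : Matrix Ω Ω ℤ,
      A = fun ω ω' => if ∃ g' : G, g' • a = ω ∧ g' • b = ω' then 1 else 0 := ⟨_, rfl⟩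
  have hAu : (A.map (Int.castRingHom ℂ)).mulVec u = μ • u := by
    funext ω
    obtain ⟨g, rfl⟩ := MulAction.exists_smul_eq G a ω
    show ∑ ω', (A.map (Int.castRingHom ℂ)) (g • a) ω' * u ω' = μ * u (g • a)
    have e1 : ∀ ω' : Ω, (A.map (Int.castRingHom ℂ)) (g • a) ω' * u ω'
        = if ∃ g' : G, g' • a = g • a ∧ g' • b = ω' then u ω' else 0 := by
      intro ω'
      rw [Matrix.map_apply, hA]
      beta_reduce
      by_cases hc' : ∃ g' : G, g' • a = g • a ∧ g' • b = ω'
      · rw [if_pos hc', if_pos hc']; simp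
      · rw [if_neg hc', if_neg hc']; simp
    rw [Finset.sum_congr rfl (fun ω' _ => e1 ω'), ← Finset.sum_filter]
    have e2 := congrFun (hnb g) i
    rw [Finset.sum_apply] at e2
    rw [hudef]
    exact e2
  exact isIntegral_of_int_mulVec A u hu μ hAu

/-- The trace of the Hecke operator on a matrix representation is an algebraic integer. -/
theorem hecke_trace_integral {k : ℕ} (R : G → Matrix (Fin k) (Fin k) ℂ) (hR1 : R 1 = 1)
    (hRm : ∀ g h, R (g * h) = R g * R h) (a b : Ω) :
    IsIntegral ℤ (((stabF G a).card : ℂ)⁻¹ • ∑ d ∈ heckeSet G a b, R d).trace := by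
  apply isIntegral_trace_of_eigen
  intro μ v hv hev
  by_cases hμ : μ = 0
  · rw [hμ]; exact isIntegral_zero
  · exact hecke_eigen_integral R hR1 hRm a b μ hμ v hv hev

/-- If the stabilizer has no fixed vectors (trace of its averaging operator vanishes), the
trace of the Hecke operator vanishes. -/
theorem hecke_trace_zero {k : ℕ} (R : G → Matrix (Fin k) (Fin k) ℂ)
    (hRm : ∀ g h, R (g * h) = R g * R h) (a b : Ω)
    (h0 : ∑ h ∈ stabF G a, (R h).trace = 0) :
    (((stabF G a).card : ℂ)⁻¹ • ∑ d ∈ heckeSet G a b, R d).trace = 0 := by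
  apply trace_eq_zero_of_eigen
  intro μ v hv hev
  by_contra hμ
  have hfix := hecke_eigen_fixed R hRm a b μ hμ v hev
  have hc := stabF_card_ne_zero (G := G) a
  obtain ⟨P, hPdef⟩ : ∃ P : Matrix (Fin k) (Fin k) ℂ,
      P = ((stabF G a).card : ℂ)⁻¹ • ∑ h ∈ stabF G a, R h := ⟨_, rfl⟩
  have hP : P * P = P := by
    rw [hPdef, Matrix.smul_mul, Matrix.mul_smul, Finset.sum_mul,
      Finset.sum_congr rfl (fun h hh => stab_stab_mul R hRm a (mem_stabF.mp hh)),
      Finset.sum_const, ← Nat.cast_smul_eq_nsmul ℂ, smul_smul, smul_smul]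
    congr 1
    field_simp
  have hPt : P.trace = 0 := by
    rw [hPdef, Matrix.trace_smul, Matrix.trace_sum, h0, smul_zero]
  have hP0 := idempotent_trace_zero P hP hPt
  have hPv : P.mulVec v = v := by
    rw [hPdef, Matrix.smul_mulVec, Matrix.sum_mulVec,
      Finset.sum_congr rfl (fun h hh => hfix h (mem_stabF.mp hh)), Finset.sum_const,
      ← Nat.cast_smul_eq_nsmul ℂ, smul_smul, inv_mul_cancel₀ hc, one_smul]
  rw [hP0, Matrix.zero_mulVec] at hPv
  exact hv hPv.symm

end Core

section Chars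

variable {G : Type*} [Group G] [Fintype G] {Ω : Type*} [Fintype Ω] [MulAction G Ω]

omit [Fintype G] [Fintype Ω] [MulAction G Ω] in
theorem exists_matrix_rep {χ : G → ℂ} (hχ : IsCharacter G χ) :
    ∃ (k : ℕ) (R : G → Matrix (Fin k) (Fin k) ℂ), R 1 = 1 ∧ (∀ g h, R (g * h) = R g * R h) ∧
      ∀ g, (R g).trace = χ g := by
  obtain ⟨k, ρ, rfl⟩ := hχ
  refine ⟨k, fun g => LinearMap.toMatrix' (ρ g), ?_, ?_, ?_⟩
  · show LinearMap.toMatrix' (ρ 1) = 1
    rw [map_one]
    exact LinearMap.toMatrix'_one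
  · intro g h
    show LinearMap.toMatrix' (ρ (g * h)) = LinearMap.toMatrix' (ρ g) * LinearMap.toMatrix' (ρ h)
    rw [map_mul]
    exact LinearMap.toMatrix'_mul _ _
  · intro g
    show Matrix.trace (LinearMap.toMatrix' (ρ g)) = LinearMap.trace ℂ _ (ρ g)
    rw [LinearMap.trace_eq_matrix_trace ℂ (Pi.basisFun ℂ (Fin k)), LinearMap.toMatrix_eq_toMatrix']

theorem card_orbit_stabilizer_eq (a b : Ω) :
    Nat.card (MulAction.orbit (MulAction.stabilizer G a) b) = (subOrb G a b).card := by
  classical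
  rw [Nat.card_coe_set_eq, ← Set.ncard_coe_finset]
  congr 1
  ext β
  rw [MulAction.mem_orbit_iff, Finset.mem_coe, mem_subOrb]
  constructor
  · rintro ⟨⟨h, hh⟩, e⟩
    exact ⟨h, MulAction.mem_stabilizer_iff.mp hh, e⟩
  · rintro ⟨h, hh, e⟩
    exact ⟨⟨h, MulAction.mem_stabilizer_iff.mpr hh⟩, e⟩

variable [MulAction.IsPretransitive G Ω]

theorem hecke_char_integral {χ : G → ℂ} (hχ : IsCharacter G χ) (a b : Ω) :
    IsIntegral ℤ (((stabF G a).card : ℂ)⁻¹ * ∑ d ∈ heckeSet G a b, χ d) := by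
  obtain ⟨k, R, hR1, hRm, htr⟩ := exists_matrix_rep hχ
  have h := hecke_trace_integral R hR1 hRm a b
  rw [Matrix.trace_smul, Matrix.trace_sum, smul_eq_mul,
    Finset.sum_congr rfl (fun d _ => htr d)] at h
  exact h

theorem hecke_char_zero {χ : G → ℂ} (hχ : IsCharacter G χ) (a b : Ω)
    (h0 : ∑ h ∈ stabF G a, χ h = 0) : ∑ d ∈ heckeSet G a b, χ d = 0 := by
  obtain ⟨k, R, hR1, hRm, htr⟩ := exists_matrix_rep hχ
  have h := hecke_trace_zero R hRm a b (by rw [Finset.sum_congr rfl (fun d _ => htr d)]; exact h0)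
  rw [Matrix.trace_smul, Matrix.trace_sum, smul_eq_mul,
    Finset.sum_congr rfl (fun d _ => htr d)] at h
  rcases mul_eq_zero.mp h with h | h
  · exact absurd (inv_eq_zero.mp h) (stabF_card_ne_zero a)
  · exact h

/-- The multiplicity of a class function in the permutation character, computed on a point
stabilizer. -/
theorem classInner_permChar_eq (χ : G → ℂ) (hχ : ∀ g x : G, χ (x * g * x⁻¹) = χ g) (a : Ω) :
    classInner (fun g : G => (Nat.card (MulAction.fixedBy Ω g) : ℂ)) χ
      = ((stabF G a).card : ℂ)⁻¹ * ∑ h ∈ stabF G a, conj (χ h) := by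
  classical
  have h1 : ∀ g : G, (Nat.card (MulAction.fixedBy Ω g) : ℂ)
      = ∑ ω : Ω, if g • ω = ω then (1 : ℂ) else 0 := by
    intro g
    rw [Finset.sum_boole]
    congr 1
    rw [Nat.card_coe_set_eq, Set.ncard_eq_toFinset_card']
    congr 1
    ext ω
    simp [MulAction.mem_fixedBy]
  have h2 : ∑ g : G, (Nat.card (MulAction.fixedBy Ω g) : ℂ) * conj (χ g)
      = ∑ ω : Ω, ∑ g ∈ Finset.univ.filter (fun g : G => g • ω = ω), conj (χ g) := by
    have e1 : ∀ g : G, (Nat.card (MulAction.fixedBy Ω g) : ℂ) * conj (χ g)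
        = ∑ ω : Ω, if g • ω = ω then conj (χ g) else 0 := by
      intro g
      rw [h1 g, Finset.sum_mul]
      apply Finset.sum_congr rfl
      intro ω _
      split_ifs <;> simp
    rw [Finset.sum_congr rfl (fun g _ => e1 g), Finset.sum_comm]
    apply Finset.sum_congr rfl
    intro ω _
    rw [Finset.sum_filter]
  have h3 : ∀ ω : Ω, ∑ g ∈ Finset.univ.filter (fun g : G => g • ω = ω), conj (χ g)
      = ∑ h ∈ stabF G a, conj (χ h) := by
    intro ω
    obtain ⟨x, rfl⟩ := MulAction.exists_smul_eq G a ω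
    symm
    apply Finset.sum_equiv (MulAut.conj x).toEquiv
    · intro h
      rw [mem_stabF, Finset.mem_filter]
      simp only [Finset.mem_univ, true_and]
      show h • a = a ↔ (x * h * x⁻¹) • x • a = x • a
      rw [← mul_smul, inv_mul_cancel_right, mul_smul]
      constructor
      · intro h1; rw [h1]
      · intro h1; exact smul_left_cancel x h1
    · intro h _
      show conj (χ h) = conj (χ (x * h * x⁻¹))
      rw [hχ]
  rw [classInner, h2, Finset.sum_congr rfl (fun ω _ => h3 ω), Finset.sum_const, Finset.card_univ,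
    nsmul_eq_mul, Nat.card_eq_fintype_card, card_eq_card_mul_stabF a]
  push_cast
  have hc := stabF_card_ne_zero (G := G) a
  have hΩ : (Fintype.card Ω : ℂ) ≠ 0 := by
    have : 0 < Fintype.card Ω := Fintype.card_pos_iff.mpr ⟨a⟩
    exact_mod_cast this.ne'
  field_simp

/-- Wielandt: if `f` divides the degree of every nonprincipal irreducible constituent of the
permutation character of a transitive group, then `f` divides every nontrivial subdegree. -/
theorem subdegree_dvd (f : ℕ)
    (hf : ∀ χ : G → ℂ, IsIrrCharacter G χ → χ ≠ (fun _ => 1) →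
      classInner (fun g : G => (Nat.card (MulAction.fixedBy Ω g) : ℂ)) χ ≠ 0 →
      ∃ m : ℕ, χ 1 = (f : ℂ) * m)
    (a b : Ω) (hab : b ≠ a) : f ∣ (subOrb G a b).card := by
  classical
  have hc := stabF_card_ne_zero (G := G) a
  have E1 : ∑ χ : IrrCharacter G, (χ : G → ℂ) 1 * ∑ d ∈ heckeSet G a b, (χ : G → ℂ) d = 0 := by
    simp_rw [Finset.mul_sum]
    rw [Finset.sum_comm]
    apply Finset.sum_eq_zero
    intro d hd
    have h1 := Helper25.second_orthogonality d (1 : G)
    rw [inv_one, if_neg] at h1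
    · rw [← h1]
      exact Finset.sum_congr rfl (fun χ _ => mul_comm _ _)
    · intro hconj
      have : d = 1 := isConj_one_left.mp hconj
      exact one_notMem_heckeSet hab (this ▸ hd)
  have E3 : ∀ χ : IrrCharacter G, ∃ α : ℂ, IsIntegral ℤ α ∧ (χ ≠ Helper25.trivChar G →
      (χ : G → ℂ) 1 * ∑ d ∈ heckeSet G a b, (χ : G → ℂ) d
        = (f : ℂ) * ((stabF G a).card : ℂ) * α) := by
    intro χ
    by_cases hχ1 : χ = Helper25.trivChar G
    · exact ⟨0, isIntegral_zero, fun h => absurd hχ1 h⟩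
    by_cases hin : classInner (fun g : G => (Nat.card (MulAction.fixedBy Ω g) : ℂ))
        (χ : G → ℂ) = 0
    · refine ⟨0, isIntegral_zero, fun _ => ?_⟩
      rw [classInner_permChar_eq _ (fun g x => Helper25.irr_conj χ g x) a] at hin
      have h2 : ∑ h ∈ stabF G a, conj ((χ : G → ℂ) h) = 0 := by
        rcases mul_eq_zero.mp hin with h | h
        · exact absurd (inv_eq_zero.mp h) hc
        · exact h
      have h3 : ∑ h ∈ stabF G a, (χ : G → ℂ) h = 0 := by
        have := congrArg (starRingEnd ℂ) h2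
        rw [map_sum, map_zero] at this
        simpa using this
      rw [hecke_char_zero (Helper25.irr_isCharacter χ) a b h3]
      ring
    · have hne : (χ : G → ℂ) ≠ fun _ => 1 := by
        intro h
        apply hχ1
        apply Subtype.ext
        rw [h]
        rfl
      obtain ⟨m, hm⟩ := hf χ.1 χ.2 hne hin
      have hm_int : IsIntegral ℤ (m : ℂ) := by
        have := isIntegral_algebraMap (R := ℤ) (A := ℂ) (x := (m : ℤ))
        simpa using this
      refine ⟨(m : ℂ) * (((stabF G a).card : ℂ)⁻¹ * ∑ d ∈ heckeSet G a b, (χ : G → ℂ) d),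
        IsIntegral.mul hm_int (hecke_char_integral (Helper25.irr_isCharacter χ) a b), fun _ => ?_⟩
      rw [hm]
      field_simp
  choose α hα1 hα2 using E3
  have E2 : ∑ d ∈ heckeSet G a b, (Helper25.trivChar G : G → ℂ) d
      = ((stabF G a).card : ℂ) * ((subOrb G a b).card : ℂ) := by
    simp only [Helper25.trivChar_apply, Finset.sum_const, nsmul_eq_mul, mul_one]
    rw [card_heckeSet]
    push_cast
    ring
  rw [← Finset.add_sum_erase Finset.univ _ (Finset.mem_univ (Helper25.trivChar G)),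
    Helper25.trivChar_apply, one_mul, E2,
    Finset.sum_congr rfl (fun χ hχ => hα2 χ (Finset.ne_of_mem_erase hχ)), ← Finset.mul_sum] at E1
  have hn : ((subOrb G a b).card : ℂ)
      = (f : ℂ) * (-∑ χ ∈ Finset.univ.erase (Helper25.trivChar G), α χ) := by
    have : ((stabF G a).card : ℂ) * (((subOrb G a b).card : ℂ)
        - (f : ℂ) * (-∑ χ ∈ Finset.univ.erase (Helper25.trivChar G), α χ)) = 0 := by
      linear_combination E1
    rcases mul_eq_zero.mp this with h | h
    · exact absurd h hc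
    · exact sub_eq_zero.mp h
  have hint : IsIntegral ℤ (-∑ χ ∈ Finset.univ.erase (Helper25.trivChar G), α χ) :=
    IsIntegral.neg (IsIntegral.sum _ (fun χ _ => hα1 χ))
  by_cases hf0 : f = 0
  · have h0 : ((subOrb G a b).card : ℂ) = 0 := by rw [hn, hf0]; simp
    have h0' : (subOrb G a b).card = 0 := by exact_mod_cast h0
    rw [h0', hf0]
  · apply Helper1.dvd_of_isIntegral_div _ _ hf0
    have hf0' : (f : ℂ) ≠ 0 := by exact_mod_cast hf0
    have : ((subOrb G a b).card : ℂ) / (f : ℂ)
        = -∑ χ ∈ Finset.univ.erase (Helper25.trivChar G), α χ := by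
      rw [hn]
      field_simp
    rw [this]
    exact hint

end Chars

end Cfsg.Agent.Helper2
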