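import Mathlib
import Cfsg.Agent.Helper2.Hecke

/-!
# Rank and multiplicities of a transitive permutation character (helper2)
-/

set_option autoImplicit false

namespace Cfsg.Agent.Helper2

open Cfsg
open scoped ComplexConjugate

section Rank

variable {G : Type*} [Group G] [Fintype G] {Ω : Type*} [Fintype Ω] [MulAction G Ω]
  [MulAction.IsPretransitive G Ω]

theorem permChar_isClassFunction :
    IsClassFunction G (fun g : G => (Nat.card (MulAction.fixedBy Ω g) : ℂ)) :=
  Helper25.char_isClassFunction (isCharacter_permChar (G := G) Ω)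

/-- The trivial character has multiplicity one in a transitive permutation character. -/
theorem permChar_inner_triv (a : Ω) :
    classInner (fun g : G => (Nat.card (MulAction.fixedBy Ω g) : ℂ))
      (Helper25.trivChar G : G → ℂ) = 1 := by
  rw [classInner_permChar_eq _ (fun g x => Helper25.irr_conj (Helper25.trivChar G) g x) a]
  simp only [Helper25.trivChar_apply, map_one, Finset.sum_const, nsmul_eq_mul, mul_one]
  exact inv_mul_cancel₀ (stabF_card_ne_zero a)

omit [MulAction.IsPretransitive G Ω] in
theorem card_stabilizer_eq (a : Ω) :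
    Nat.card (MulAction.stabilizer G a) = (stabF G a).card := by
  classical
  rw [Nat.card_eq_fintype_card, ← Finset.card_univ, Finset.card_eq_sum_ones,
    Finset.card_eq_sum_ones (stabF G a)]
  symm
  exact Finset.sum_subtype (p := fun x => x ∈ MulAction.stabilizer G a) (stabF G a)
    (fun x => by rw [mem_stabF, MulAction.mem_stabilizer_iff]) (fun _ => 1)

/-- The norm of a transitive permutation character is the rank. -/
theorem permChar_inner_self (a : Ω) :
    classInner (fun g : G => (Nat.card (MulAction.fixedBy Ω g) : ℂ))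
        (fun g : G => (Nat.card (MulAction.fixedBy Ω g) : ℂ))
      = (Nat.card (MulAction.orbitRel.Quotient (MulAction.stabilizer G a) Ω) : ℂ) := by
  classical
  rw [classInner_permChar_eq _ (fun g x => permChar_isClassFunction g x) a]
  have h1 := sum_card_fixedBy (G := MulAction.stabilizer G a) Ω
  have h2 : ∑ h ∈ stabF G a, conj ((Nat.card (MulAction.fixedBy Ω h) : ℂ))
      = ∑ h : MulAction.stabilizer G a, (Nat.card (MulAction.fixedBy Ω h) : ℂ) := by
    rw [Finset.sum_subtype (p := fun x => x ∈ MulAction.stabilizer G a) (stabF G a)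
      (fun x => by rw [mem_stabF, MulAction.mem_stabilizer_iff])]
    apply Finset.sum_congr rfl
    intro h _
    rw [Complex.conj_natCast]
    rfl
  rw [h2, h1, card_stabilizer_eq a]
  have hc := stabF_card_ne_zero (G := G) a
  field_simp

/-- The degrees of the constituents, with multiplicity, add up to the degree. -/
theorem permChar_sum_deg :
    ∑ χ : IrrCharacter G, classInner (fun g : G => (Nat.card (MulAction.fixedBy Ω g) : ℂ))
      (χ : G → ℂ) * (χ : G → ℂ) 1 = (Fintype.card Ω : ℂ) := by
  have h := congrFun (classFun_eq_sum_classInner (permChar_isClassFunction (G := G) (Ω := Ω))) 1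
  rw [Finset.sum_apply] at h
  simp only [Pi.smul_apply, smul_eq_mul] at h
  rw [← h]
  congr 1
  rw [← Nat.card_eq_fintype_card, MulAction.fixedBy_one_eq_univ, Nat.card_coe_set_eq,
    Set.ncard_univ]

/-- The sum of the squares of the multiplicities is the rank. -/
theorem permChar_sum_sq (a : Ω) (m : IrrCharacter G → ℕ)
    (hm : ∀ χ : IrrCharacter G, classInner (fun g : G => (Nat.card (MulAction.fixedBy Ω g) : ℂ))
      (χ : G → ℂ) = (m χ : ℂ)) :
    ∑ χ : IrrCharacter G, (m χ) ^ 2
      = Nat.card (MulAction.orbitRel.Quotient (MulAction.stabilizer G a) Ω) := by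
  have h1 := classInner_eq_sum_mul (permChar_isClassFunction (G := G) (Ω := Ω))
    (fun g : G => (Nat.card (MulAction.fixedBy Ω g) : ℂ))
  rw [permChar_inner_self a] at h1
  have h2 : ∀ χ : IrrCharacter G,
      classInner (fun g : G => (Nat.card (MulAction.fixedBy Ω g) : ℂ)) (χ : G → ℂ)
        * conj (classInner (fun g : G => (Nat.card (MulAction.fixedBy Ω g) : ℂ)) (χ : G → ℂ))
      = ((m χ ^ 2 : ℕ) : ℂ) := by
    intro χ
    rw [hm χ, Complex.conj_natCast]
    push_cast
    ring
  rw [Finset.sum_congr rfl (fun χ _ => h2 χ), ← Nat.cast_sum] at h1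
  exact_mod_cast h1.symm

omit [MulAction.IsPretransitive G Ω] [Fintype G] in
/-- A finite set acted on by a group is the disjoint union of the orbits. -/
theorem card_eq_sum_card_orbits (H : Subgroup G)
    [Fintype (MulAction.orbitRel.Quotient H Ω)] :
    Fintype.card Ω = ∑ q : MulAction.orbitRel.Quotient H Ω, Nat.card q.orbit := by
  rw [← Nat.card_eq_fintype_card, Nat.card_congr (MulAction.selfEquivSigmaOrbits' H Ω),
    Nat.card_sigma]

omit [MulAction.IsPretransitive G Ω] [Fintype G] [Fintype Ω] in
theorem card_orbit_self (a : Ω) :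
    Nat.card (MulAction.orbitRel.Quotient.orbit
      (Quotient.mk'' a : MulAction.orbitRel.Quotient (MulAction.stabilizer G a) Ω)) = 1 := by
  rw [MulAction.orbitRel.Quotient.orbit_mk]
  have : MulAction.orbit (MulAction.stabilizer G a) a = {a} := by
    ext x
    rw [MulAction.mem_orbit_iff, Set.mem_singleton_iff]
    constructor
    · rintro ⟨⟨h, hh⟩, rfl⟩
      exact MulAction.mem_stabilizer_iff.mp hh
    · rintro rfl
      exact ⟨1, one_smul _ _⟩
  rw [this, Nat.card_coe_set_eq, Set.ncard_singleton]

/-- Under the hypothesis of Wielandt's lemma every nontrivial suborbit has length divisible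
by `f`. -/
theorem orbit_dvd (f : ℕ)
    (hf : ∀ χ : G → ℂ, IsIrrCharacter G χ → χ ≠ (fun _ => 1) →
      classInner (fun g : G => (Nat.card (MulAction.fixedBy Ω g) : ℂ)) χ ≠ 0 →
      ∃ m : ℕ, χ 1 = (f : ℂ) * m)
    (a : Ω) (q : MulAction.orbitRel.Quotient (MulAction.stabilizer G a) Ω)
    (hq : q ≠ Quotient.mk'' a) : f ∣ Nat.card q.orbit ∧ 0 < Nat.card q.orbit := by
  induction q using Quotient.inductionOn' with
  | h b =>
    have hb : b ≠ a := by
      rintro rfl
      exact hq rfl
    rw [MulAction.orbitRel.Quotient.orbit_mk]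
    refine ⟨?_, ?_⟩
    · rw [card_orbit_stabilizer_eq]
      exact subdegree_dvd f hf a b hb
    · haveI : Nonempty (MulAction.orbit (MulAction.stabilizer G a) b) :=
        ⟨⟨b, MulAction.mem_orbit_self b⟩⟩
      exact Nat.card_pos

end Rank

end Cfsg.Agent.Helper2
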