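import Mathlib
import Cfsg.Agent.Helper2.Hecke2

/-!
# Moments of Hecke operators on multiplicity-one constituents (helper2)
-/

set_option autoImplicit false

namespace Cfsg.Agent.Helper2

open Cfsg
open scoped ComplexConjugate

section RankOne

/-- For an idempotent complex matrix `P` of trace one, `P X P` is a multiple of `P`. -/
theorem rank_one_mul {k : ℕ} (P X : Matrix (Fin k) (Fin k) ℂ) (hP : P * P = P)
    (ht : P.trace = 1) : P * X * P = (P * X).trace • P := by
  have hidem : IsIdempotentElem (Matrix.toLin' P) := by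
    show Matrix.toLin' P * Matrix.toLin' P = Matrix.toLin' P
    rw [Module.End.mul_eq_comp, ← Matrix.toLin'_mul, hP]
  have hproj := LinearMap.IsIdempotentElem.isProj_range _ hidem
  have htr := hproj.trace
  rw [Matrix.trace_toLin'_eq, ht] at htr
  have hfr : Module.finrank ℂ (LinearMap.range (Matrix.toLin' P)) = 1 := by
    exact_mod_cast htr.symm
  obtain ⟨u, hu0, hu⟩ := finrank_eq_one_iff'.mp hfr
  have hPu : Matrix.toLin' P (u : Fin k → ℂ) = (u : Fin k → ℂ) := hproj.map_id _ u.2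
  have hPv : ∀ v : Fin k → ℂ, ∃ c : ℂ, Matrix.toLin' P v = c • (u : Fin k → ℂ) := by
    intro v
    obtain ⟨c, hc⟩ := hu ⟨Matrix.toLin' P v, LinearMap.mem_range_self _ v⟩
    exact ⟨c, by rw [← Submodule.coe_smul, hc]⟩
  obtain ⟨lam, hlam⟩ := hPv (Matrix.toLin' X (u : Fin k → ℂ))
  have key : P * X * P = lam • P := by
    apply Matrix.toLin'.injective
    apply LinearMap.ext
    intro v
    obtain ⟨c, hc⟩ := hPv v
    rw [Matrix.toLin'_mul, Matrix.toLin'_mul, LinearMap.comp_apply, LinearMap.comp_apply, hc,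
      map_smul, map_smul, hlam, map_smul, LinearMap.smul_apply, hc, smul_comm]
  have h1 : (P * X * P).trace = lam := by
    rw [key, Matrix.trace_smul, ht, smul_eq_mul, mul_one]
  have h2 : (P * X * P).trace = (P * X).trace := by
    rw [Matrix.trace_mul_comm, ← Matrix.mul_assoc, hP]
  rw [key, ← h1, h2]

/-- A matrix absorbed on both sides by an idempotent of trace one has multiplicative traces. -/
theorem rank_one_moments {k : ℕ} (P T : Matrix (Fin k) (Fin k) ℂ) (hP : P * P = P)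
    (ht : P.trace = 1) (h1 : P * T = T) (h2 : T * P = T) :
    (T * T).trace = T.trace ^ 2 ∧ (T * T * T).trace = T.trace ^ 3 := by
  have hT : T = T.trace • P := by
    have := rank_one_mul P T hP ht
    rw [h1, h2] at this
    exact this
  have hTT : T * T = T.trace • T := by
    calc T * T = (T.trace • P) * T := by rw [← hT]
      _ = T.trace • T := by rw [Matrix.smul_mul, h1]
  constructor
  · rw [hTT, Matrix.trace_smul, smul_eq_mul, pow_two]
  · rw [hTT, Matrix.smul_mul, hTT, Matrix.trace_smul, Matrix.trace_smul, smul_eq_mul, smul_eq_mul]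
    ring

end RankOne

section Moments

variable {G : Type*} [Group G] [Fintype G] {Ω : Type*} [Fintype Ω] [MulAction G Ω]
  [MulAction.IsPretransitive G Ω]

omit [MulAction.IsPretransitive G Ω] in
theorem heckeSet_mul_right {a b : Ω} {h d : G} (hh : h • a = a) :
    d * h ∈ heckeSet G a b ↔ d ∈ heckeSet G a b := by
  simp only [heckeSet, Finset.mem_filter, Finset.mem_univ, true_and]
  rw [mul_smul, hh]

omit [MulAction.IsPretransitive G Ω] in
theorem hecke_mul_stab {k : ℕ} (R : G → Matrix (Fin k) (Fin k) ℂ)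
    (hRm : ∀ g h, R (g * h) = R g * R h) (a b : Ω) {h : G} (hh : h • a = a) :
    (∑ d ∈ heckeSet G a b, R d) * R h = ∑ d ∈ heckeSet G a b, R d := by
  rw [Finset.sum_mul]
  apply Finset.sum_equiv (Equiv.mulRight h)
  · intro d
    exact (heckeSet_mul_right hh).symm
  · intro d _
    rw [← hRm]
    rfl

theorem stabProj_idem {k : ℕ} (R : G → Matrix (Fin k) (Fin k) ℂ)
    (hRm : ∀ g h, R (g * h) = R g * R h) (a : Ω) :
    (((stabF G a).card : ℂ)⁻¹ • ∑ h ∈ stabF G a, R h)
        * (((stabF G a).card : ℂ)⁻¹ • ∑ h ∈ stabF G a, R h)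
      = ((stabF G a).card : ℂ)⁻¹ • ∑ h ∈ stabF G a, R h := by
  have hc := stabF_card_ne_zero (G := G) a
  rw [Matrix.smul_mul, Matrix.mul_smul, Finset.sum_mul,
    Finset.sum_congr rfl (fun h hh => stab_stab_mul R hRm a (mem_stabF.mp hh)),
    Finset.sum_const, ← Nat.cast_smul_eq_nsmul ℂ, smul_smul, smul_smul]
  congr 1
  field_simp

theorem stabProj_mul_hecke {k : ℕ} (R : G → Matrix (Fin k) (Fin k) ℂ)
    (hRm : ∀ g h, R (g * h) = R g * R h) (a b : Ω) :
    (((stabF G a).card : ℂ)⁻¹ • ∑ h ∈ stabF G a, R h) * ∑ d ∈ heckeSet G a b, R d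
      = ∑ d ∈ heckeSet G a b, R d := by
  have hc := stabF_card_ne_zero (G := G) a
  rw [Matrix.smul_mul, Finset.sum_mul,
    Finset.sum_congr rfl (fun h hh => hecke_stab_mul R hRm a b (mem_stabF.mp hh)),
    Finset.sum_const, ← Nat.cast_smul_eq_nsmul ℂ, smul_smul, inv_mul_cancel₀ hc, one_smul]

theorem hecke_mul_stabProj {k : ℕ} (R : G → Matrix (Fin k) (Fin k) ℂ)
    (hRm : ∀ g h, R (g * h) = R g * R h) (a b : Ω) :
    (∑ d ∈ heckeSet G a b, R d) * (((stabF G a).card : ℂ)⁻¹ • ∑ h ∈ stabF G a, R h)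
      = ∑ d ∈ heckeSet G a b, R d := by
  have hc := stabF_card_ne_zero (G := G) a
  rw [Matrix.mul_smul, Finset.mul_sum,
    Finset.sum_congr rfl (fun h hh => hecke_mul_stab R hRm a b (mem_stabF.mp hh)),
    Finset.sum_const, ← Nat.cast_smul_eq_nsmul ℂ, smul_smul, inv_mul_cancel₀ hc, one_smul]

/-- Second and third moments of the Hecke operator on a character which restricts to the point
stabilizer with trivial multiplicity zero or one. -/
theorem hecke_char_moments {χ : G → ℂ} (hχ : IsCharacter G χ) (a b : Ω) :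
    (∑ h ∈ stabF G a, χ h = 0 →
      (∑ d ∈ heckeSet G a b, ∑ d' ∈ heckeSet G a b, χ (d * d') = 0) ∧
      (∑ d ∈ heckeSet G a b, ∑ d' ∈ heckeSet G a b, ∑ d'' ∈ heckeSet G a b,
        χ (d * d' * d'') = 0)) ∧
    (∑ h ∈ stabF G a, χ h = ((stabF G a).card : ℂ) →
      (∑ d ∈ heckeSet G a b, ∑ d' ∈ heckeSet G a b, χ (d * d')
        = (∑ d ∈ heckeSet G a b, χ d) ^ 2) ∧
      (∑ d ∈ heckeSet G a b, ∑ d' ∈ heckeSet G a b, ∑ d'' ∈ heckeSet G a b,
        χ (d * d' * d'') = (∑ d ∈ heckeSet G a b, χ d) ^ 3)) := by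
  obtain ⟨k, R, hR1, hRm, htr⟩ := exists_matrix_rep hχ
  obtain ⟨T, hT⟩ : ∃ T, T = ∑ d ∈ heckeSet G a b, R d := ⟨_, rfl⟩
  obtain ⟨P, hPdef⟩ : ∃ P, P = ((stabF G a).card : ℂ)⁻¹ • ∑ h ∈ stabF G a, R h := ⟨_, rfl⟩
  have hc := stabF_card_ne_zero (G := G) a
  have hPP : P * P = P := by rw [hPdef]; exact stabProj_idem R hRm a
  have hPT : P * T = T := by rw [hPdef, hT]; exact stabProj_mul_hecke R hRm a b
  have hTP : T * P = T := by rw [hPdef, hT]; exact hecke_mul_stabProj R hRm a b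
  have hPtr : P.trace = ((stabF G a).card : ℂ)⁻¹ * ∑ h ∈ stabF G a, χ h := by
    rw [hPdef, Matrix.trace_smul, Matrix.trace_sum, smul_eq_mul,
      Finset.sum_congr rfl (fun h _ => htr h)]
  have hTtr : T.trace = ∑ d ∈ heckeSet G a b, χ d := by
    rw [hT, Matrix.trace_sum, Finset.sum_congr rfl (fun d _ => htr d)]
  have hTT : (T * T).trace = ∑ d ∈ heckeSet G a b, ∑ d' ∈ heckeSet G a b, χ (d * d') := by
    rw [hT, Finset.sum_mul_sum, Matrix.trace_sum]
    apply Finset.sum_congr rfl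
    intro d _
    rw [Matrix.trace_sum]
    apply Finset.sum_congr rfl
    intro d' _
    rw [← hRm, htr]
  have hTTT : (T * T * T).trace = ∑ d ∈ heckeSet G a b, ∑ d' ∈ heckeSet G a b,
      ∑ d'' ∈ heckeSet G a b, χ (d * d' * d'') := by
    rw [hT, Finset.sum_mul_sum, Finset.sum_mul, Matrix.trace_sum]
    apply Finset.sum_congr rfl
    intro d _
    rw [Finset.sum_mul, Matrix.trace_sum]
    apply Finset.sum_congr rfl
    intro d' _
    rw [Finset.mul_sum, Matrix.trace_sum]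
    apply Finset.sum_congr rfl
    intro d'' _
    rw [← hRm, ← hRm, htr]
  constructor
  · intro h0
    have hP0 : P = 0 := idempotent_trace_zero P hPP (by rw [hPtr, h0, mul_zero])
    have hT0 : T = 0 := by rw [← hPT, hP0, Matrix.zero_mul]
    rw [← hTT, ← hTTT, hT0]
    simp
  · intro h1
    have hP1 : P.trace = 1 := by rw [hPtr, h1, inv_mul_cancel₀ hc]
    obtain ⟨e1, e2⟩ := rank_one_moments P T hPP hP1 hPT hTP
    rw [← hTT, ← hTTT, ← hTtr]
    exact ⟨e1, e2⟩

omit [Fintype Ω] [MulAction G Ω] [MulAction.IsPretransitive G Ω] in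
open Classical in
theorem sum_irr_deg_mul (x : G) :
    ∑ χ : IrrCharacter G, (χ : G → ℂ) 1 * (χ : G → ℂ) x
      = if x = 1 then (Fintype.card G : ℂ) else 0 := by
  have h1 := Helper25.second_orthogonality x (1 : G)
  rw [inv_one] at h1
  rw [Finset.sum_congr rfl (fun χ _ => mul_comm _ _), h1]
  by_cases hx : x = 1
  · rw [if_pos hx, if_pos (by rw [hx])]
    have hcent : Subgroup.centralizer ({1} : Set G) = ⊤ := by
      rw [Subgroup.centralizer_eq_top_iff_subset]
      simp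
    rw [hcent, Subgroup.card_top, Nat.card_eq_fintype_card]
  · rw [if_neg hx, if_neg (fun h => hx (isConj_one_left.mp h))]

omit [Fintype Ω] [MulAction G Ω] [MulAction.IsPretransitive G Ω] in
open Classical in
theorem sum_irr_deg_sum {ι : Type*} (I : Finset ι) (w : ι → G) :
    ∑ χ : IrrCharacter G, (χ : G → ℂ) 1 * ∑ i ∈ I, (χ : G → ℂ) (w i)
      = (Fintype.card G : ℂ) * ((I.filter (fun i => w i = 1)).card : ℂ) := by
  simp_rw [Finset.mul_sum]
  rw [Finset.sum_comm, Finset.sum_congr rfl (fun i _ => sum_irr_deg_mul (w i)),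
    Finset.sum_ite, Finset.sum_const, Finset.sum_const_zero, add_zero, nsmul_eq_mul, mul_comm]

end Moments

section Rank3

variable {G : Type*} [Group G] [Fintype G] {Ω : Type*} [Fintype Ω] [MulAction G Ω]

theorem self_mem_subOrb (a b : Ω) : b ∈ subOrb G a b :=
  mem_subOrb.mpr ⟨1, one_smul _ _, one_smul _ _⟩

theorem subOrb_eq_of_mem {a b b' : Ω} (h : b' ∈ subOrb G a b) :
    subOrb G a b' = subOrb G a b := by
  obtain ⟨h0, h0a, h0b⟩ := mem_subOrb.mp h
  ext c
  rw [mem_subOrb, mem_subOrb]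
  constructor
  · rintro ⟨h1, h1a, h1b⟩
    exact ⟨h1 * h0, by rw [mul_smul, h0a, h1a], by rw [mul_smul, h0b, h1b]⟩
  · rintro ⟨h1, h1a, h1b⟩
    refine ⟨h1 * h0⁻¹, ?_, ?_⟩
    · rw [mul_smul, inv_smul_eq_iff.mpr h0a.symm, h1a]
    · rw [mul_smul, inv_smul_eq_iff.mpr h0b.symm, h1b]

theorem heckeSet_eq_of_mem {a b b' : Ω} (h : b' ∈ subOrb G a b) :
    heckeSet G a b' = heckeSet G a b := by
  unfold heckeSet
  rw [subOrb_eq_of_mem h]

theorem inv_mem_heckeSet {a b : Ω} {x : G} (hx : x • a = b) {d : G} :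
    d ∈ heckeSet G a (x⁻¹ • a) ↔ d⁻¹ ∈ heckeSet G a b := by
  rw [mem_heckeSet, mem_heckeSet]
  constructor
  · rintro ⟨h, ha, hb⟩
    refine ⟨d⁻¹ * h * x⁻¹, ?_, ?_⟩
    · rw [mul_smul, mul_smul, hb, inv_smul_smul]
    · rw [← hx, mul_smul, mul_smul, inv_smul_smul, ha]
  · rintro ⟨h, ha, hb⟩
    refine ⟨d * h * x, ?_, ?_⟩
    · rw [mul_smul, mul_smul, hx, hb, smul_inv_smul]
    · rw [mul_smul, mul_smul, smul_inv_smul, ha]

theorem card_heckeSet_inv {a b : Ω} {x : G} (hx : x • a = b) :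
    (heckeSet G a (x⁻¹ • a)).card = (heckeSet G a b).card := by
  apply Finset.card_bij (fun d _ => d⁻¹)
  · intro d hd
    exact (inv_mem_heckeSet hx).mp hd
  · intro d _ d' _ h
    exact inv_injective h
  · intro d hd
    exact ⟨d⁻¹, (inv_mem_heckeSet hx).mpr (by rwa [inv_inv]), inv_inv d⟩

theorem card_subOrb_inv [MulAction.IsPretransitive G Ω] {a b : Ω} {x : G} (hx : x • a = b) :
    (subOrb G a (x⁻¹ • a)).card = (subOrb G a b).card := by
  have h := card_heckeSet_inv (G := G) hx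
  rw [card_heckeSet, card_heckeSet] at h
  have hpos : 0 < (stabF G a).card := Finset.card_pos.mpr ⟨1, one_mem_stabF a⟩
  exact Nat.eq_of_mul_eq_mul_left hpos h

theorem quot_eq_iff (a b c : Ω) :
    (Quotient.mk'' c : MulAction.orbitRel.Quotient (MulAction.stabilizer G a) Ω)
      = Quotient.mk'' b ↔ c ∈ subOrb G a b := by
  rw [Quotient.eq'', MulAction.orbitRel_apply, MulAction.mem_orbit_iff, mem_subOrb]
  constructor
  · rintro ⟨⟨h, hh⟩, e⟩
    exact ⟨h, MulAction.mem_stabilizer_iff.mp hh, e⟩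
  · rintro ⟨h, hh, e⟩
    exact ⟨⟨h, MulAction.mem_stabilizer_iff.mpr hh⟩, e⟩

theorem mem_subOrb_self {a u : Ω} : u ∈ subOrb G a a ↔ u = a := by
  rw [mem_subOrb]
  constructor
  · rintro ⟨h, hh, e⟩
    rw [← e, hh]
  · rintro rfl
    exact ⟨1, one_smul _ _, one_smul _ _⟩

theorem rank3_cover {a b b' : Ω}
    (hrank : Nat.card (MulAction.orbitRel.Quotient (MulAction.stabilizer G a) Ω) = 3)
    (hb : b ≠ a) (hb' : b' ≠ a) (hbb' : b' ∉ subOrb G a b) (c : Ω) :
    c = a ∨ c ∈ subOrb G a b ∨ c ∈ subOrb G a b' := by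
  classical
  by_contra hcon
  push_neg at hcon
  obtain ⟨h1, h2, h3⟩ := hcon
  haveI : Finite (MulAction.orbitRel.Quotient (MulAction.stabilizer G a) Ω) :=
    Nat.finite_of_card_ne_zero (by rw [hrank]; norm_num)
  haveI := Fintype.ofFinite (MulAction.orbitRel.Quotient (MulAction.stabilizer G a) Ω)
  have key : ∀ u v : Ω,
      (Quotient.mk'' u : MulAction.orbitRel.Quotient (MulAction.stabilizer G a) Ω)
        = Quotient.mk'' v ↔ u ∈ subOrb G a v := fun u v => quot_eq_iff a v u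
  have e1 : (Quotient.mk'' a : MulAction.orbitRel.Quotient (MulAction.stabilizer G a) Ω)
      ≠ Quotient.mk'' b := fun h => hb (mem_subOrb_self.mp ((key b a).mp h.symm))
  have e2 : (Quotient.mk'' a : MulAction.orbitRel.Quotient (MulAction.stabilizer G a) Ω)
      ≠ Quotient.mk'' b' := fun h => hb' (mem_subOrb_self.mp ((key b' a).mp h.symm))
  have e3 : (Quotient.mk'' a : MulAction.orbitRel.Quotient (MulAction.stabilizer G a) Ω)
      ≠ Quotient.mk'' c := fun h => h1 (mem_subOrb_self.mp ((key c a).mp h.symm))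
  have e4 : (Quotient.mk'' b : MulAction.orbitRel.Quotient (MulAction.stabilizer G a) Ω)
      ≠ Quotient.mk'' b' := fun h => hbb' ((key b' b).mp h.symm)
  have e5 : (Quotient.mk'' b : MulAction.orbitRel.Quotient (MulAction.stabilizer G a) Ω)
      ≠ Quotient.mk'' c := fun h => h2 ((key c b).mp h.symm)
  have e6 : (Quotient.mk'' b' : MulAction.orbitRel.Quotient (MulAction.stabilizer G a) Ω)
      ≠ Quotient.mk'' c := fun h => h3 ((key c b').mp h.symm)
  have hcard : ({Quotient.mk'' a, Quotient.mk'' b, Quotient.mk'' b', Quotient.mk'' c} :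
      Finset (MulAction.orbitRel.Quotient (MulAction.stabilizer G a) Ω)).card = 4 := by
    rw [Finset.card_insert_of_notMem (by simp [e1, e2, e3]),
      Finset.card_insert_of_notMem (by simp [e4, e5]),
      Finset.card_insert_of_notMem (by simp [e6]), Finset.card_singleton]
  have hle := Finset.card_le_univ ({Quotient.mk'' a, Quotient.mk'' b, Quotient.mk'' b',
    Quotient.mk'' c} : Finset (MulAction.orbitRel.Quotient (MulAction.stabilizer G a) Ω))
  rw [hcard, ← Nat.card_eq_fintype_card, hrank] at hle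
  omega

theorem rank3_exists_third {a b : Ω}
    (hrank : Nat.card (MulAction.orbitRel.Quotient (MulAction.stabilizer G a) Ω) = 3) :
    ∃ b' : Ω, b' ≠ a ∧ b' ∉ subOrb G a b := by
  classical
  haveI : Finite (MulAction.orbitRel.Quotient (MulAction.stabilizer G a) Ω) :=
    Nat.finite_of_card_ne_zero (by rw [hrank]; norm_num)
  haveI := Fintype.ofFinite (MulAction.orbitRel.Quotient (MulAction.stabilizer G a) Ω)
  have hlt : ({Quotient.mk'' a, Quotient.mk'' b} :
      Finset (MulAction.orbitRel.Quotient (MulAction.stabilizer G a) Ω)).card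
      < (Finset.univ : Finset (MulAction.orbitRel.Quotient (MulAction.stabilizer G a) Ω)).card := by
    rw [Finset.card_univ, ← Nat.card_eq_fintype_card, hrank]
    exact lt_of_le_of_lt (Finset.card_insert_le _ _) (by rw [Finset.card_singleton]; norm_num)
  obtain ⟨q, -, hq⟩ := Finset.exists_mem_notMem_of_card_lt_card hlt
  induction q using Quotient.inductionOn' with
  | h b' =>
    rw [Finset.mem_insert, Finset.mem_singleton, not_or] at hq
    refine ⟨b', ?_, ?_⟩
    · rintro rfl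
      exact hq.1 rfl
    · intro h
      exact hq.2 ((quot_eq_iff a b b').mpr h)

theorem rank3_card {a b b' : Ω}
    (hrank : Nat.card (MulAction.orbitRel.Quotient (MulAction.stabilizer G a) Ω) = 3)
    (hb : b ≠ a) (hb' : b' ≠ a) (hbb' : b' ∉ subOrb G a b) :
    Fintype.card Ω = 1 + (subOrb G a b).card + (subOrb G a b').card := by
  classical
  have hu : (Finset.univ : Finset Ω) = insert a (subOrb G a b ∪ subOrb G a b') := by
    ext c
    simp only [Finset.mem_univ, true_iff, Finset.mem_insert, Finset.mem_union]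
    exact rank3_cover hrank hb hb' hbb' c
  have hnot : ∀ v : Ω, v ≠ a → a ∉ subOrb G a v := by
    intro v hv h
    obtain ⟨g, hg, e⟩ := mem_subOrb.mp h
    apply hv
    have : g • v = g • a := by rw [e, hg]
    exact smul_left_cancel g this
  have hdisj : Disjoint (subOrb G a b) (subOrb G a b') := by
    rw [Finset.disjoint_left]
    intro c hc hc'
    apply hbb'
    rw [← subOrb_eq_of_mem hc, subOrb_eq_of_mem hc']
    exact self_mem_subOrb a b'
  rw [← Finset.card_univ, hu, Finset.card_insert_of_notMem, Finset.card_union_of_disjoint hdisj]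
  · ring
  · rw [Finset.mem_union, not_or]
    exact ⟨hnot b hb, hnot b' hb'⟩

/-- In a rank 3 group of even degree every double coset of the stabilizer is closed under
inversion. -/
theorem rank3_inv_mem [MulAction.IsPretransitive G Ω] {m : ℕ} (hm : Fintype.card Ω = 2 * m)
    {a b : Ω}
    (hrank : Nat.card (MulAction.orbitRel.Quotient (MulAction.stabilizer G a) Ω) = 3)
    (hb : b ≠ a) {d : G} (hd : d ∈ heckeSet G a b) : d⁻¹ ∈ heckeSet G a b := by
  obtain ⟨x, hx⟩ := MulAction.exists_smul_eq G a b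
  have hb' : x⁻¹ • a ≠ a := by
    intro h
    apply hb
    rw [← hx]
    exact (inv_smul_eq_iff.mp h).symm
  have hmem : x⁻¹ • a ∈ subOrb G a b := by
    by_contra hcon
    have h1 := rank3_card hrank hb hb' hcon
    rw [card_subOrb_inv hx, hm] at h1
    omega
  rw [← heckeSet_eq_of_mem hmem] at hd
  exact (inv_mem_heckeSet hx).mp hd

omit [Fintype G] [Fintype Ω] [MulAction G Ω] in
theorem card_pairs_inv [DecidableEq G] (D : Finset G) (hD : ∀ d ∈ D, d⁻¹ ∈ D) :
    ((D ×ˢ D).filter (fun p : G × G => p.1 * p.2 = 1)).card = D.card := by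
  symm
  apply Finset.card_bij (fun d _ => (d, d⁻¹))
  · intro d hd
    simp [hd, hD d hd]
  · intro d _ d' _ h
    exact (Prod.ext_iff.mp h).1
  · rintro ⟨d, d'⟩ hp
    simp only [Finset.mem_filter, Finset.mem_product] at hp
    exact ⟨d, hp.1.1, by rw [Prod.mk.injEq]; exact ⟨rfl, (eq_inv_of_mul_eq_one_right hp.2).symm⟩⟩

/-- In a primitive group, if the stabilizer of `a` fixes another point then it fixes every
point. -/
theorem prim_fix_all (hprim : MulAction.IsPreprimitive G Ω) {a b : Ω} (hb : b ≠ a)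
    (hfix : ∀ h : G, h • a = a → h • b = b) (h : G) (hh : h • a = a) (c : Ω) : h • c = c := by
  classical
  haveI := hprim
  haveI : MulAction.IsPretransitive G Ω := hprim.toIsPretransitive
  haveI : Nontrivial Ω := ⟨⟨b, a, hb⟩⟩
  have hco : IsCoatom (MulAction.stabilizer G a) :=
    MulAction.IsPreprimitive.isCoatom_stabilizer_of_isPreprimitive G a
  -- the two stabilizers coincide
  have hsub : stabF G a ⊆ stabF G b := by
    intro g hg
    rw [mem_stabF] at hg ⊢
    exact hfix g hg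
  have hcards : (stabF G b).card ≤ (stabF G a).card := by
    have h1 := card_eq_card_mul_stabF (G := G) a
    have h2 := card_eq_card_mul_stabF (G := G) b
    rw [h1] at h2
    have hpos : 0 < Fintype.card Ω := Fintype.card_pos
    exact le_of_eq (Nat.eq_of_mul_eq_mul_left hpos h2).symm
  have heq : stabF G a = stabF G b := Finset.eq_of_subset_of_card_le hsub hcards
  have hiff : ∀ g : G, g • b = b ↔ g • a = a := by
    intro g
    rw [← mem_stabF (G := G), ← mem_stabF (G := G), heq]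
  obtain ⟨x, hx⟩ := MulAction.exists_smul_eq G a b
  have hxN : x ∈ Subgroup.normalizer (MulAction.stabilizer G a : Set G) := by
    rw [Subgroup.mem_normalizer_iff]
    intro n
    rw [MulAction.mem_stabilizer_iff, MulAction.mem_stabilizer_iff, ← hiff (x * n * x⁻¹), ← hx,
      mul_smul, mul_smul, inv_smul_smul]
    constructor
    · intro h1
      rw [h1]
    · intro h1
      exact smul_left_cancel x h1
  have hxH : x ∉ MulAction.stabilizer G a := by
    intro h1
    apply hb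
    rw [← hx]
    exact MulAction.mem_stabilizer_iff.mp h1
  have hlt : MulAction.stabilizer G a < Subgroup.normalizer (MulAction.stabilizer G a : Set G) :=
    SetLike.lt_iff_le_and_exists.mpr ⟨Subgroup.le_normalizer, x, hxN, hxH⟩
  have htop := hco.2 _ hlt
  obtain ⟨g, hg⟩ := MulAction.exists_smul_eq G a c
  have hgN : g⁻¹ ∈ Subgroup.normalizer (MulAction.stabilizer G a : Set G) := by
    rw [htop]
    exact Subgroup.mem_top _
  have h2 := (Subgroup.mem_normalizer_iff.mp hgN h).mp (MulAction.mem_stabilizer_iff.mpr hh)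
  rw [MulAction.mem_stabilizer_iff, inv_inv, mul_smul, mul_smul, hg] at h2
  rw [inv_smul_eq_iff.mp h2, hg]

end Rank3

section Arith

/-- A rational algebraic integer is an integer. -/
theorem int_of_rat_isIntegral_h2 (x : ℂ) (hx : IsIntegral ℤ x) (q : ℚ) (hq : x = (q : ℂ)) :
    ∃ k : ℤ, x = (k : ℂ) := by
  have h1 : x = algebraMap ℚ ℂ q := by rw [hq]; rfl
  rw [h1, isIntegral_algebraMap_iff (algebraMap ℚ ℂ).injective] at hx
  obtain ⟨k, hk⟩ := IsIntegrallyClosed.isIntegral_iff.mp hx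
  refine ⟨k, ?_⟩
  rw [hq, ← hk]; simp

theorem wielandt_alg (m k : ℕ) (x y q j : ℂ) (hj : j = -(x + y))
    (E1 : (k : ℂ) + (m - 1) * x + m * y = 0)
    (E2 : (k : ℂ) ^ 2 + (m - 1) * x ^ 2 + m * y ^ 2 = 2 * m * k)
    (E3 : (k : ℂ) ^ 3 + (m - 1) * x ^ 3 + m * y ^ 3 = q) :
    (m : ℂ) * (((m : ℂ) - 1) * (2 * m - 1) * j ^ 2 - 4 * (m - 1) * k * j + 2 * k ^ 2 - 2 * k) = 0
    ∧ 2 * (m : ℂ) * k * (2 * m - 1 - k) * j = 2 * m * k ^ 2 * (k - 1) - q * (2 * m - 1) := by
  have hx : x = k - m * j := by rw [hj]; linear_combination (-1 : ℂ) * E1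
  have hy : y = (m - 1) * j - k := by rw [hj]; linear_combination E1
  have hQ : (m : ℂ) * (((m : ℂ) - 1) * (2 * m - 1) * j ^ 2 - 4 * (m - 1) * k * j + 2 * k ^ 2
      - 2 * k) = 0 := by
    rw [hx, hy] at E2
    linear_combination E2
  have hC : (m : ℂ) * (m - 1) * (3 * k * j ^ 2 - (2 * m - 1) * j ^ 3) = q := by
    rw [hx, hy] at E3
    linear_combination E3
  refine ⟨hQ, ?_⟩
  linear_combination (-(2 * (m : ℂ) - 1)) * hC - ((2 * (m : ℂ) - 1) * j + k) * hQ

theorem wielandt_arith (m k l : ℕ) (hm : 2 ≤ m) (hk : 2 ≤ k) (hl : 2 ≤ l)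
    (hkl : 1 + k + l = 2 * m) (j : ℤ)
    (hQ : ((m : ℤ) - 1) * (2 * m - 1) * j ^ 2 - 4 * (m - 1) * k * j + 2 * k ^ 2 - 2 * k = 0) :
    ∃ a : ℕ, 0 < a ∧ m = 2 * a ^ 2 + 2 * a + 1 ∧
      (k = a * (2 * a + 1) ∨ k = (a + 1) * (2 * a + 1)) := by
  have hm' : (2 : ℤ) ≤ m := by exact_mod_cast hm
  have hk' : (2 : ℤ) ≤ k := by exact_mod_cast hk
  have hl' : (2 : ℤ) ≤ l := by exact_mod_cast hl
  have hkl' : (1 : ℤ) + k + l = 2 * m := by exact_mod_cast hkl
  have hsq : (2 * (k : ℤ) - (2 * (m - 1) * j + 1)) ^ 2 = 2 * (m - 1) * j * (2 - j) + 1 := by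
    linear_combination 2 * hQ
  have hsq0 := sq_nonneg (2 * (k : ℤ) - (2 * (m - 1) * j + 1))
  have hj0 : 0 ≤ j := by
    by_contra hneg
    push_neg at hneg
    have h1 : j * (2 - j) ≤ -3 := by nlinarith
    have h2 : 0 ≤ ((m : ℤ) - 2) * (-(j * (2 - j)) - 3) := mul_nonneg (by linarith) (by linarith)
    nlinarith
  have hj2 : j ≤ 2 := by
    by_contra hneg
    push_neg at hneg
    have h1 : j * (2 - j) ≤ -3 := by nlinarith
    have h2 : 0 ≤ ((m : ℤ) - 2) * (-(j * (2 - j)) - 3) := mul_nonneg (by linarith) (by linarith)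
    nlinarith
  interval_cases j
  · exfalso
    have h1 : 2 * ((k : ℤ) * (k - 1)) = 0 := by linear_combination hQ
    nlinarith
  · have hl2 : (l : ℤ) = 2 * m - 1 - k := by linarith
    have h1 : ((k : ℤ) - l) ^ 2 = k + l := by
      rw [hl2]
      linear_combination 2 * hQ
    rcases le_total l k with hle | hle
    · obtain ⟨d, rfl⟩ := Nat.exists_eq_add_of_le hle
      push_cast at h1
      have h2 : (d : ℤ) ^ 2 = 2 * l + d := by linear_combination h1
      have h3 : d ^ 2 = 2 * l + d := by exact_mod_cast h2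
      rcases Nat.even_or_odd' d with ⟨e, rfl | rfl⟩
      · omega
      · have h4 : (2 * e + 1) ^ 2 = 4 * (e * e) + 4 * e + 1 := by ring
        have h5 : (e + 1) * (2 * e + 1) = 2 * (e * e) + 3 * e + 1 := by ring
        have h6 : e * (2 * e + 1) = 2 * (e * e) + e := by ring
        have h7 : 2 * e ^ 2 + 2 * e + 1 = 2 * (e * e) + 2 * e + 1 := by ring
        have h8 : e ≠ 0 := by
          rintro rfl
          omega
        refine ⟨e, Nat.pos_of_ne_zero h8, ?_, Or.inr ?_⟩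
        · omega
        · omega
    · obtain ⟨d, rfl⟩ := Nat.exists_eq_add_of_le hle
      push_cast at h1
      have h2 : (d : ℤ) ^ 2 = 2 * k + d := by linear_combination h1
      have h3 : d ^ 2 = 2 * k + d := by exact_mod_cast h2
      rcases Nat.even_or_odd' d with ⟨e, rfl | rfl⟩
      · omega
      · have h4 : (2 * e + 1) ^ 2 = 4 * (e * e) + 4 * e + 1 := by ring
        have h5 : (e + 1) * (2 * e + 1) = 2 * (e * e) + 3 * e + 1 := by ring
        have h6 : e * (2 * e + 1) = 2 * (e * e) + e := by ring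
        have h7 : 2 * e ^ 2 + 2 * e + 1 = 2 * (e * e) + 2 * e + 1 := by ring
        have h8 : e ≠ 0 := by
          rintro rfl
          omega
        refine ⟨e, Nat.pos_of_ne_zero h8, ?_, Or.inl ?_⟩
        · omega
        · omega
  · exfalso
    have hkz : (k : ℤ) = 2 * m - 1 - l := by linarith
    rw [hkz] at hQ
    have h1 : 2 * ((l : ℤ) * (l - 1)) = 0 := by linear_combination hQ
    nlinarith

end Arith

section Main

variable {G : Type*} [Group G] [Fintype G] {Ω : Type*} [Fintype Ω] [MulAction G Ω]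

theorem prim_card_one (hprim : MulAction.IsPreprimitive G Ω) {a b : Ω} (hb : b ≠ a)
    (h1 : (subOrb G a b).card = 1) (c : Ω) : (subOrb G a c).card = 1 := by
  have hfix : ∀ h : G, h • a = a → h • b = b := by
    intro h hh
    obtain ⟨u, hu⟩ := Finset.card_eq_one.mp h1
    have e1 : b ∈ subOrb G a b := self_mem_subOrb a b
    have e2 : h • b ∈ subOrb G a b := mem_subOrb.mpr ⟨h, hh, rfl⟩
    rw [hu, Finset.mem_singleton] at e1 e2
    rw [e2, e1]
  have hall := prim_fix_all hprim hb hfix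
  rw [Finset.card_eq_one]
  refine ⟨c, ?_⟩
  ext u
  rw [mem_subOrb, Finset.mem_singleton]
  constructor
  · rintro ⟨h, hh, e⟩
    rw [← e, hall h hh c]
  · rintro rfl
    exact ⟨1, one_smul _ _, one_smul _ _⟩

omit [Group G] [Fintype G] [Fintype Ω] [MulAction G Ω] in
theorem sum_three_h2 {ι : Type*} [Fintype ι] [DecidableEq ι] (t x₁ x₂ : ι) (h1 : x₁ ≠ t)
    (h2 : x₂ ≠ t) (h3 : x₁ ≠ x₂) (f : ι → ℂ) (hf : ∀ i, i ≠ t → i ≠ x₁ → i ≠ x₂ → f i = 0) :
    ∑ i, f i = f t + f x₁ + f x₂ := by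
  rw [← Finset.sum_subset (Finset.subset_univ ({t, x₁, x₂} : Finset ι))
    (fun i _ hi => by
      simp only [Finset.mem_insert, Finset.mem_singleton, not_or] at hi
      exact hf i hi.1 hi.2.1 hi.2.2),
    Finset.sum_insert (by simp [Ne.symm h1, Ne.symm h2]), Finset.sum_insert (by simp [h3]),
    Finset.sum_singleton]
  ring

/-- Groups of Wielandt type, for one nontrivial suborbit. -/
theorem wielandt_type_aux (hprim : MulAction.IsPreprimitive G Ω) {m : ℕ}
    (hm : Fintype.card Ω = 2 * m) (a₀ : Ω)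
    (hrank : Nat.card (MulAction.orbitRel.Quotient (MulAction.stabilizer G a₀) Ω) = 3)
    (χ₁ χ₂ : G → ℂ) (h₁ : IsIrrCharacter G χ₁) (h₂ : IsIrrCharacter G χ₂)
    (hπ : (fun g : G => (Nat.card (MulAction.fixedBy Ω g) : ℂ)) = fun g => 1 + χ₁ g + χ₂ g)
    (hd₁ : χ₁ 1 = (m : ℂ) - 1) (hd₂ : χ₂ 1 = m) (b : Ω) (hb : b ≠ a₀) :
    ∃ a : ℕ, 0 < a ∧ m = 2 * a ^ 2 + 2 * a + 1 ∧
      ((subOrb G a₀ b).card = a * (2 * a + 1) ∨
        (subOrb G a₀ b).card = (a + 1) * (2 * a + 1)) := by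
  classical
  haveI : MulAction.IsPretransitive G Ω := hprim.toIsPretransitive
  obtain ⟨X₁, hX₁⟩ : ∃ X : IrrCharacter G, (X : G → ℂ) = χ₁ := ⟨⟨χ₁, h₁⟩, rfl⟩
  obtain ⟨X₂, hX₂⟩ : ∃ X : IrrCharacter G, (X : G → ℂ) = χ₂ := ⟨⟨χ₂, h₂⟩, rfl⟩
  subst hX₁ hX₂
  obtain ⟨t, ht⟩ : ∃ t : IrrCharacter G, t = Helper25.trivChar G := ⟨_, rfl⟩
  have ht1 : ∀ g, (t : G → ℂ) g = 1 := by
    intro g
    rw [ht]
    rfl
  have hm2 : 2 ≤ m := by
    have e1 := Helper25.irr_one_eq_degree X₁
    have e2 := Helper25.irr_degree_pos X₁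
    rw [hd₁] at e1
    have e3 : (m : ℂ) = ((charDegree (X₁ : G → ℂ) + 1 : ℕ) : ℂ) := by
      push_cast
      linear_combination e1
    have e4 : m = charDegree (X₁ : G → ℂ) + 1 := by exact_mod_cast e3
    omega
  have hm0 : (m : ℂ) ≠ 0 := Nat.cast_ne_zero.mpr (by omega)
  have hμ : ∀ χ : IrrCharacter G,
      classInner (fun g : G => (Nat.card (MulAction.fixedBy Ω g) : ℂ)) (χ : G → ℂ)
      = (if t = χ then (1 : ℂ) else 0) + (if X₁ = χ then 1 else 0)
        + (if X₂ = χ then 1 else 0) := by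
    intro χ
    have e : (fun g : G => 1 + (X₁ : G → ℂ) g + (X₂ : G → ℂ) g)
        = (t : G → ℂ) + (X₁ : G → ℂ) + (X₂ : G → ℂ) := by
      funext g
      simp only [Pi.add_apply, ht1]
    rw [hπ, e, classInner_add_left, classInner_add_left, classInner_irr_irr, classInner_irr_irr,
      classInner_irr_irr]
  have htt := permChar_inner_triv (G := G) a₀
  rw [← ht, hμ t, if_pos rfl] at htt
  have hne1 : X₁ ≠ t := by
    intro h
    rw [if_pos h] at htt
    split_ifs at htt <;> norm_num at htt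
  have hne2 : X₂ ≠ t := by
    intro h
    rw [if_pos h] at htt
    split_ifs at htt <;> norm_num at htt
  have hne3 : X₁ ≠ X₂ := by
    intro h
    rw [h, hd₂] at hd₁
    have : (1 : ℂ) = 0 := by linear_combination hd₁
    exact one_ne_zero this
  obtain ⟨c, hc⟩ : ∃ c : ℕ, c = (stabF G a₀).card := ⟨_, rfl⟩
  have hc0 : (c : ℂ) ≠ 0 := by
    rw [hc]
    exact stabF_card_ne_zero a₀
  have hF : ∀ χ : IrrCharacter G, ∑ h ∈ stabF G a₀, (χ : G → ℂ) h
      = (c : ℂ) * ((if t = χ then (1 : ℂ) else 0) + (if X₁ = χ then 1 else 0)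
          + (if X₂ = χ then 1 else 0)) := by
    intro χ
    have e := classInner_permChar_eq (Ω := Ω) (χ : G → ℂ)
      (fun g x => Helper25.irr_conj χ g x) a₀
    rw [hμ χ, ← hc] at e
    have e2 : ∑ h ∈ stabF G a₀, conj ((χ : G → ℂ) h)
        = (c : ℂ) * ((if t = χ then (1 : ℂ) else 0) + (if X₁ = χ then 1 else 0)
          + (if X₂ = χ then 1 else 0)) := by
      rw [e]
      field_simp
    have e3 := congrArg (starRingEnd ℂ) e2
    rw [map_sum] at e3
    simp only [Complex.conj_conj] at e3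
    rw [e3, map_mul, Complex.conj_natCast, map_add, map_add]
    simp only [apply_ite (starRingEnd ℂ), map_one, map_zero]
  have hF0 : ∀ χ : IrrCharacter G, χ ≠ t → χ ≠ X₁ → χ ≠ X₂ →
      ∑ h ∈ stabF G a₀, (χ : G → ℂ) h = 0 := by
    intro χ n1 n2 n3
    rw [hF χ, if_neg (Ne.symm n1), if_neg (Ne.symm n2), if_neg (Ne.symm n3)]
    ring
  have hFt : ∑ h ∈ stabF G a₀, (t : G → ℂ) h = ((stabF G a₀).card : ℂ) := by
    rw [hF t, if_pos rfl, if_neg hne1, if_neg hne2, hc]
    ring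
  have hF1 : ∑ h ∈ stabF G a₀, (X₁ : G → ℂ) h = ((stabF G a₀).card : ℂ) := by
    rw [hF X₁, if_neg (Ne.symm hne1), if_pos rfl, if_neg (Ne.symm hne3), hc]
    ring
  have hF2 : ∑ h ∈ stabF G a₀, (X₂ : G → ℂ) h = ((stabF G a₀).card : ℂ) := by
    rw [hF X₂, if_neg (Ne.symm hne2), if_neg hne3, if_pos rfl, hc]
    ring
  -- the suborbits
  obtain ⟨b', hb', hbb'⟩ := rank3_exists_third (b := b) hrank
  obtain ⟨k, hk⟩ : ∃ k : ℕ, k = (subOrb G a₀ b).card := ⟨_, rfl⟩
  obtain ⟨l, hl⟩ : ∃ l : ℕ, l = (subOrb G a₀ b').card := ⟨_, rfl⟩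
  have hkl : 1 + k + l = 2 * m := by
    rw [hk, hl, ← hm]
    exact (rank3_card hrank hb hb' hbb').symm
  have hk1 : 0 < k := by
    rw [hk]
    exact Finset.card_pos.mpr ⟨b, self_mem_subOrb a₀ b⟩
  have hl1 : 0 < l := by
    rw [hl]
    exact Finset.card_pos.mpr ⟨b', self_mem_subOrb a₀ b'⟩
  have hk2 : 2 ≤ k := by
    by_contra hcon
    have hk' : (subOrb G a₀ b).card = 1 := by omega
    have := prim_card_one hprim hb hk' b'
    omega
  have hl2 : 2 ≤ l := by
    by_contra hcon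
    have hl' : (subOrb G a₀ b').card = 1 := by omega
    have := prim_card_one hprim hb' hl' b
    omega
  -- the double coset
  obtain ⟨D, hD⟩ : ∃ D, D = heckeSet G a₀ b := ⟨_, rfl⟩
  have h1D : (1 : G) ∉ D := by
    rw [hD]
    exact one_notMem_heckeSet hb
  have hDinv : ∀ d ∈ D, d⁻¹ ∈ D := by
    intro d hd
    rw [hD] at hd ⊢
    exact rank3_inv_mem hm hrank hb hd
  have hDcard : D.card = c * k := by
    rw [hD, hc, hk]
    exact card_heckeSet a₀ b
  have hGcard : Fintype.card G = 2 * m * c := by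
    rw [card_eq_card_mul_stabF (G := G) a₀, hm, hc]
  have hint : ∀ χ : IrrCharacter G, IsIntegral ℤ ((c : ℂ)⁻¹ * ∑ d ∈ D, (χ : G → ℂ) d) := by
    intro χ
    rw [hD, hc]
    exact hecke_char_integral (Helper25.irr_isCharacter χ) a₀ b
  have hzero1 : ∀ χ : IrrCharacter G, ∑ h ∈ stabF G a₀, (χ : G → ℂ) h = 0 →
      ∑ d ∈ D, (χ : G → ℂ) d = 0 := by
    intro χ h0
    rw [hD]
    exact hecke_char_zero (Helper25.irr_isCharacter χ) a₀ b h0
  have hmo := fun χ : IrrCharacter G => hecke_char_moments (Helper25.irr_isCharacter χ) a₀ b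
  rw [← hD] at hmo
  obtain ⟨S₁, hS₁⟩ : ∃ S : ℂ, S = ∑ d ∈ D, (X₁ : G → ℂ) d := ⟨_, rfl⟩
  obtain ⟨S₂, hS₂⟩ : ∃ S : ℂ, S = ∑ d ∈ D, (X₂ : G → ℂ) d := ⟨_, rfl⟩
  have hSt : ∑ d ∈ D, (t : G → ℂ) d = (c : ℂ) * k := by
    simp only [ht1, Finset.sum_const, nsmul_eq_mul, mul_one]
    rw [hDcard]
    push_cast
    ring
  -- first moment
  have E1 : (c : ℂ) * k + ((m : ℂ) - 1) * S₁ + m * S₂ = 0 := by
    have h := sum_irr_deg_sum D (fun d : G => d)
    have hz : ∀ inst : DecidablePred fun d : G => d = 1,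
        (@Finset.filter G (fun d => d = 1) inst D).card = 0 := by
      intro inst
      rw [Finset.card_eq_zero, Finset.filter_eq_empty_iff]
      intro d hd h
      exact h1D (h ▸ hd)
    rw [hz, Nat.cast_zero, mul_zero,
      sum_three_h2 t X₁ X₂ hne1 hne2 hne3 _ (fun χ n1 n2 n3 => by
        rw [hzero1 χ (hF0 χ n1 n2 n3), mul_zero]),
      ht1, hd₁, hd₂, hSt, ← hS₁, ← hS₂] at h
    linear_combination h
  -- second moment
  have E2 : ((c : ℂ) * k) ^ 2 + ((m : ℂ) - 1) * S₁ ^ 2 + m * S₂ ^ 2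
      = (2 * m * c) * ((c : ℂ) * k) := by
    have h := sum_irr_deg_sum (D ×ˢ D) (fun p : G × G => p.1 * p.2)
    have hz : ∀ inst : DecidablePred fun p : G × G => p.1 * p.2 = 1,
        (@Finset.filter (G × G) (fun p => p.1 * p.2 = 1) inst (D ×ˢ D)).card = D.card := by
      intro inst
      convert card_pairs_inv D hDinv
    simp only [Finset.sum_product] at h
    rw [hz, sum_three_h2 t X₁ X₂ hne1 hne2 hne3 _ (fun χ n1 n2 n3 => by
        rw [((hmo χ).1 (hF0 χ n1 n2 n3)).1, mul_zero]),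
      ((hmo t).2 hFt).1, ((hmo X₁).2 hF1).1, ((hmo X₂).2 hF2).1,
      ht1, hd₁, hd₂, hSt, ← hS₁, ← hS₂, hGcard, hDcard] at h
    push_cast at h
    linear_combination h
  -- third moment
  obtain ⟨N₃, hN₃⟩ : ∃ N : ℕ, ∑ χ : IrrCharacter G, (χ : G → ℂ) 1 *
      ∑ p ∈ D ×ˢ D ×ˢ D, (χ : G → ℂ) (p.1 * p.2.1 * p.2.2) = (Fintype.card G : ℂ) * (N : ℂ) :=
    ⟨_, sum_irr_deg_sum (D ×ˢ D ×ˢ D) (fun p : G × G × G => p.1 * p.2.1 * p.2.2)⟩
  have E3 : ((c : ℂ) * k) ^ 3 + ((m : ℂ) - 1) * S₁ ^ 3 + m * S₂ ^ 3 = (2 * m * c) * N₃ := by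
    simp only [Finset.sum_product] at hN₃
    rw [sum_three_h2 t X₁ X₂ hne1 hne2 hne3 _ (fun χ n1 n2 n3 => by
        rw [((hmo χ).1 (hF0 χ n1 n2 n3)).2, mul_zero]),
      ((hmo t).2 hFt).2, ((hmo X₁).2 hF1).2, ((hmo X₂).2 hF2).2,
      ht1, hd₁, hd₂, hSt, ← hS₁, ← hS₂, hGcard] at hN₃
    push_cast at hN₃
    linear_combination hN₃
  -- normalise
  obtain ⟨x, hxdef⟩ : ∃ x : ℂ, x = (c : ℂ)⁻¹ * S₁ := ⟨_, rfl⟩
  obtain ⟨y, hydef⟩ : ∃ y : ℂ, y = (c : ℂ)⁻¹ * S₂ := ⟨_, rfl⟩
  have hSx : S₁ = c * x := by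
    rw [hxdef]
    field_simp
  have hSy : S₂ = c * y := by
    rw [hydef]
    field_simp
  have hxi : IsIntegral ℤ x := by
    rw [hxdef, hS₁]
    exact hint X₁
  have hyi : IsIntegral ℤ y := by
    rw [hydef, hS₂]
    exact hint X₂
  rw [hSx, hSy] at E1 E2 E3
  obtain ⟨q, hqdef⟩ : ∃ q : ℂ, q = (2 * m * N₃ : ℂ) / (c : ℂ) ^ 2 := ⟨_, rfl⟩
  have hq : (c : ℂ) ^ 3 * q = 2 * m * c * N₃ := by
    rw [hqdef]
    field_simp
  have E1' : (k : ℂ) + (m - 1) * x + m * y = 0 := by
    apply mul_left_cancel₀ hc0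
    linear_combination E1
  have E2' : (k : ℂ) ^ 2 + (m - 1) * x ^ 2 + m * y ^ 2 = 2 * m * k := by
    apply mul_left_cancel₀ (pow_ne_zero 2 hc0)
    linear_combination E2
  have E3' : (k : ℂ) ^ 3 + (m - 1) * x ^ 3 + m * y ^ 3 = q := by
    apply mul_left_cancel₀ (pow_ne_zero 3 hc0)
    linear_combination E3 - hq
  obtain ⟨j, hj⟩ : ∃ j : ℂ, j = -(x + y) := ⟨_, rfl⟩
  have hji : IsIntegral ℤ j := by
    rw [hj]
    exact (hxi.add hyi).neg
  obtain ⟨hQ, hlin⟩ := wielandt_alg m k x y q j hj E1' E2' E3'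
  have hlC : (2 * (m : ℂ) - 1 - k) = l := by
    have := congrArg (Nat.cast : ℕ → ℂ) hkl
    push_cast at this
    linear_combination -this
  have hk0 : (k : ℂ) ≠ 0 := Nat.cast_ne_zero.mpr (by omega)
  have hl0 : (l : ℂ) ≠ 0 := Nat.cast_ne_zero.mpr (by omega)
  have hA : (2 * (m : ℂ) * k * (2 * m - 1 - k)) ≠ 0 := by
    rw [hlC]
    exact mul_ne_zero (mul_ne_zero (mul_ne_zero two_ne_zero hm0) hk0) hl0
  have hjq : j = ((((2 * m * k ^ 2 * (k - 1) : ℚ) - (2 * m * N₃ / (c : ℚ) ^ 2) * (2 * m - 1))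
      / (2 * m * k * (2 * m - 1 - k)) : ℚ) : ℂ) := by
    push_cast
    rw [eq_div_iff hA, ← hqdef]
    linear_combination hlin
  obtain ⟨z, hz⟩ := int_of_rat_isIntegral_h2 j hji _ hjq
  rw [hz] at hQ
  have hQ' := (mul_eq_zero.mp hQ).resolve_left hm0
  have hQz : ((m : ℤ) - 1) * (2 * m - 1) * z ^ 2 - 4 * (m - 1) * k * z + 2 * k ^ 2 - 2 * k
      = 0 := by exact_mod_cast hQ'
  obtain ⟨a, ha, hma, hka⟩ := wielandt_arith m k l hm2 hk2 hl2 hkl z hQz
  exact ⟨a, ha, hma, by rw [← hk]; exact hka⟩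

end Main

end Cfsg.Agent.Helper2
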