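import Mathlib
import Cfsg.Agent.Helper2.CentProd4

/-!
# Blocks with a normal defect group: heights and constituents on the defect group (helper2)

* `value_centralizer_dvd_gen`: `χ(x)` is divisible by a common divisor of the degrees of the
  constituents of `χ_P`, for `x ∈ C_G(P)`.
* `degree_val_ge_of_normal_defect`: for a block with normal defect group `P`, a member `χ` and a
  constituent `ζ` of `χ_P`: `ν(χ(1)) ≥ ν[G:P] + ν(ζ(1))`.
-/

set_option autoImplicit false

namespace Cfsg.Agent.Helper2

open Cfsg Cfsg.Agent.Helper25 Cfsg.Agent.Helper7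
open scoped ComplexConjugate

universe u

variable {G : Type u} [Group G] {p : ℕ} {M : Ideal AlgInt}

/-- If every constituent of `χ_P` has degree divisible by `d₀` and `x` centralizes `P`, then
`χ(x)` is `d₀` times an algebraic integer. -/
theorem value_centralizer_dvd_gen [Fintype G] (P : Subgroup G) [hPn : P.Normal] [Fintype P]
    (x : G) (hx : x ∈ Subgroup.centralizer (P : Set G)) (χ : IrrCharacter G) (d₀ : ℕ)
    (hd₀ : 0 < d₀)
    (hζ : ∀ ζ' : IrrCharacter P,
      classInner (fun y : P => (χ : G → ℂ) y) (ζ' : P → ℂ) ≠ 0 →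
        d₀ ∣ charDegree (ζ' : P → ℂ)) :
    ∃ κ : ℂ, IsIntegral ℤ κ ∧ (χ : G → ℂ) x = (d₀ : ℂ) * κ := by
  classical
  obtain ⟨H, hHdef⟩ : ∃ H : Subgroup G, H = P ⊔ Subgroup.zpowers x := ⟨_, rfl⟩
  have hPH : P ≤ H := by
    rw [hHdef]
    exact le_sup_left
  have hxH : x ∈ H := by
    rw [hHdef]
    exact (le_sup_right : Subgroup.zpowers x ≤ P ⊔ Subgroup.zpowers x) (Subgroup.mem_zpowers x)
  haveI : Fintype H := Fintype.ofFinite H
  haveI : Fintype (P.subgroupOf H) := Fintype.ofFinite _
  haveI : (P.subgroupOf H).Normal := inferInstance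
  have hHC : H ≤ Subgroup.centralizer ({x} : Set G) := by
    rw [hHdef]
    apply sup_le
    · intro y hy
      rw [Subgroup.mem_centralizer_iff]
      intro z hz
      rw [Set.mem_singleton_iff.mp hz]
      exact (hx y hy).symm
    · rw [Subgroup.zpowers_le, Subgroup.mem_centralizer_iff]
      intro z hz
      rw [Set.mem_singleton_iff.mp hz]
  have hcent : ∀ η : IrrCharacter H, (η : H → ℂ) ⟨x, hxH⟩
      = centralChar (η : H → ℂ) ⟨x, hxH⟩ * (η : H → ℂ) 1 := by
    intro η
    unfold centralChar
    have htop : Subgroup.centralizer ({(⟨x, hxH⟩ : H)} : Set H) = ⊤ := by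
      rw [eq_top_iff]
      intro h _
      rw [Subgroup.mem_centralizer_iff]
      intro z hz
      rw [Set.mem_singleton_iff.mp hz]
      apply Subtype.ext
      have h1 := hHC h.2
      rw [Subgroup.mem_centralizer_iff] at h1
      exact h1 x rfl
    rw [htop, Subgroup.index_top, Nat.cast_one, one_mul, div_mul_cancel₀ _ (irr_one_ne_zero η)]
  have hχH : IsCharacter H (fun h : H => (χ : G → ℂ) h) :=
    isCharacter_restrict H (isCharacter_of_isIrrCharacter χ.2)
  have hn : ∀ η : IrrCharacter H, ∃ n : ℕ,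
      classInner (fun h : H => (χ : G → ℂ) h) (η : H → ℂ) = n :=
    fun η => classInner_char_nat hχH (isCharacter_of_isIrrCharacter η.2)
  choose n hn using hn
  have hexp := classFun_eq_sum_classInner (isClassFunction_of_isCharacter hχH)
  have hval : ∀ h : H, (χ : G → ℂ) h = ∑ η : IrrCharacter H, (n η : ℂ) * (η : H → ℂ) h := by
    intro h
    have h1 := congrFun hexp h
    simp only [Finset.sum_apply, Pi.smul_apply, smul_eq_mul, hn] at h1
    exact h1
  have hdvd : ∀ η : IrrCharacter H, n η ≠ 0 → d₀ ∣ charDegree (η : H → ℂ) := by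
    intro η hnη
    obtain ⟨ξ, hξ⟩ := Cfsg.Agent.Helper24.exists_constituent
      (isCharacter_restrict (P.subgroupOf H) (isCharacter_of_isIrrCharacter η.2))
      (by simpa using irr_one_ne_zero η)
    have hdv := constituent_degree_dvd (P.subgroupOf H) η ξ hξ
    have hne : classInner (fun y : P => (χ : G → ℂ) y)
        (irrEquiv (Subgroup.subgroupOfEquivOfLe hPH).symm ξ : P → ℂ) ≠ 0 := by
      intro h0
      -- transport the inner product to `P.subgroupOf H`
      have h1 : classInner (fun y : P => (χ : G → ℂ) y)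
          (irrEquiv (Subgroup.subgroupOfEquivOfLe hPH).symm ξ : P → ℂ)
          = classInner (fun y' : P.subgroupOf H => (χ : G → ℂ) ((y' : H) : G))
            (ξ : P.subgroupOf H → ℂ) := by
        unfold classInner
        rw [Nat.card_congr (Subgroup.subgroupOfEquivOfLe hPH).toEquiv]
        congr 1
        rw [← Equiv.sum_comp (Subgroup.subgroupOfEquivOfLe hPH).toEquiv]
        apply Finset.sum_congr rfl
        intro y' _
        rw [irrEquiv_apply]
        have e1 : (Subgroup.subgroupOfEquivOfLe hPH).symm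
            ((Subgroup.subgroupOfEquivOfLe hPH).toEquiv y') = y' :=
          (Subgroup.subgroupOfEquivOfLe hPH).symm_apply_apply y'
        rw [e1]
        rfl
      have h2 : (fun y' : P.subgroupOf H => (χ : G → ℂ) ((y' : H) : G))
          = ∑ η' : IrrCharacter H, (n η' : ℂ) •
            (fun y' : P.subgroupOf H => (η' : H → ℂ) (y' : H)) := by
        funext y'
        rw [hval (y' : H), Finset.sum_apply]
        rfl
      rw [h1, h2, classInner_sum_left] at h0
      have hm : ∀ η' : IrrCharacter H, ∃ m : ℕ,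
          classInner (fun y' : P.subgroupOf H => (η' : H → ℂ) (y' : H))
            (ξ : P.subgroupOf H → ℂ) = m :=
        fun η' => classInner_char_nat
          (isCharacter_restrict (P.subgroupOf H) (isCharacter_of_isIrrCharacter η'.2))
          (isCharacter_of_isIrrCharacter ξ.2)
      choose m hm using hm
      have h3 : ∑ η' : IrrCharacter H, n η' * m η' = 0 := by
        have h4 : ∑ η' : IrrCharacter H, classInner ((n η' : ℂ) •
            (fun y' : P.subgroupOf H => (η' : H → ℂ) (y' : H))) (ξ : P.subgroupOf H → ℂ)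
            = ((∑ η' : IrrCharacter H, n η' * m η' : ℕ) : ℂ) := by
          push_cast
          apply Finset.sum_congr rfl
          intro η' _
          rw [classInner_smul_left, hm η']
        rw [h4] at h0
        exact_mod_cast h0
      have h5 := (Finset.sum_eq_zero_iff.mp h3) η (Finset.mem_univ η)
      rcases Nat.mul_eq_zero.mp h5 with h6 | h6
      · exact hnη h6
      · apply hξ
        rw [hm η, h6, Nat.cast_zero]
    have h7 := hζ _ hne
    rw [charDegree_irrEquiv] at h7
    exact h7.trans hdv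
  have hnat : ∀ k : ℕ, IsIntegral ℤ (k : ℂ) := fun k => by
    have h1 := isIntegral_algebraMap (R := ℤ) (A := ℂ) (x := (k : ℤ))
    simpa using h1
  refine ⟨∑ η : IrrCharacter H, (n η : ℂ) * centralChar (η : H → ℂ) ⟨x, hxH⟩ *
    ((charDegree (η : H → ℂ) / d₀ : ℕ) : ℂ), ?_, ?_⟩
  · apply IsIntegral.sum
    intro η _
    exact ((hnat _).mul (centralChar_isIntegral η _)).mul (hnat _)
  · have h1 := hval ⟨x, hxH⟩
    rw [h1, Finset.mul_sum]
    apply Finset.sum_congr rfl
    intro η _
    by_cases h0 : n η = 0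
    · rw [h0]
      simp
    · rw [hcent η, irr_one_eq_degree]
      obtain ⟨q, hq⟩ := hdvd η h0
      rw [hq, Nat.mul_div_cancel_left q hd₀]
      push_cast
      ring

/-- The `p`-part of the degree of a member of the block lying over `ζ`. -/
theorem degree_val_ge_of_normal_defect [Fintype G] [Fact p.Prime] (hM : IsPModular p M)
    (P : Subgroup G) [hPn : P.Normal] [Fintype P] {B : Set (IrrCharacter G)}
    (hB : IsPBlock M B) (hD : IsDefectGroup p M B P) (χ : IrrCharacter G) (hχ : χ ∈ B)
    (ζ : IrrCharacter P)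
    (hζ : classInner (fun y : P => (χ : G → ℂ) y) (ζ : P → ℂ) ≠ 0) :
    P.index.factorization p + (charDegree (ζ : P → ℂ)).factorization p
      ≤ (charDegree (χ : G → ℂ)).factorization p := by
  have hp : p.Prime := Fact.out
  obtain ⟨g₀, hg₀, Q, hQ⟩ := hD
  have hg₀C : g₀ ∈ Subgroup.centralizer (P : Set G) := by
    rw [Subgroup.mem_centralizer_iff]
    intro y hy
    have hy' : y ∈ (Q : Subgroup (Subgroup.centralizer ({g₀} : Set G))).map
        (Subgroup.centralizer ({g₀} : Set G)).subtype := hQ ▸ hy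
    obtain ⟨q, -, rfl⟩ := Subgroup.mem_map.mp hy'
    have h1 := q.2
    rw [Subgroup.mem_centralizer_iff] at h1
    exact (h1 g₀ rfl).symm
  have hconj : ∀ ζ' : IrrCharacter P,
      classInner (fun y : P => (χ : G → ℂ) y) (ζ' : P → ℂ) ≠ 0 →
        charDegree (ζ : P → ℂ) ∣ charDegree (ζ' : P → ℂ) := by
    intro ζ' hζ'
    obtain ⟨k, hk⟩ := Cfsg.Agent.Helper24.clifford_conj P (χ : G → ℂ) χ.2 (ζ : P → ℂ) ζ.2 hζ ζ' hζ'
    have h1 : (ζ' : P → ℂ) 1 = (ζ : P → ℂ) 1 := by
      rw [hk, conjChar_apply]
      have e : (⟨k * ((1 : P) : G) * k⁻¹, hPn.conj_mem _ (1 : P).2 k⟩ : P) = 1 :=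
        Subtype.ext (by simp)
      rw [e]
    rw [irr_one_eq_degree, irr_one_eq_degree] at h1
    rw [Nat.cast_injective h1]
  obtain ⟨κ, hκ, hval⟩ := value_centralizer_dvd_gen P g₀ hg₀C χ (charDegree (ζ : P → ℂ))
    (irr_degree_pos ζ) hconj
  have hnli := hg₀.2.2 χ hχ
  unfold centralChar at hnli
  rw [hval, irr_one_eq_degree] at hnli
  have hidx0 : (Subgroup.centralizer ({g₀} : Set G)).index ≠ 0 := Subgroup.index_ne_zero_of_finite
  have hPidx0 : P.index ≠ 0 := Subgroup.index_ne_zero_of_finite
  have hcardP : Nat.card P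
      = p ^ (Nat.card (Subgroup.centralizer ({g₀} : Set G))).factorization p := by
    have h1 : Nat.card P = Nat.card (Q : Subgroup (Subgroup.centralizer ({g₀} : Set G))) := by
      rw [hQ]
      exact Subgroup.card_map_of_injective (Subgroup.subtype_injective _)
    rw [h1]
    exact Sylow.card_eq_multiplicity Q
  have ha : (Nat.card P).factorization p + P.index.factorization p
      = (Nat.card G).factorization p := by
    rw [← Subgroup.card_mul_index P, Nat.factorization_mul Nat.card_pos.ne' hPidx0]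
    rfl
  have hb : (Nat.card (Subgroup.centralizer ({g₀} : Set G))).factorization p
      + (Subgroup.centralizer ({g₀} : Set G)).index.factorization p
      = (Nat.card G).factorization p := by
    rw [← Subgroup.card_mul_index (Subgroup.centralizer ({g₀} : Set G)),
      Nat.factorization_mul Nat.card_pos.ne' hidx0]
    rfl
  have hc : (Nat.card P).factorization p
      = (Nat.card (Subgroup.centralizer ({g₀} : Set G))).factorization p := by
    rw [hcardP, hp.factorization_pow, Finsupp.single_eq_same]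
  by_contra hlt
  push Not at hlt
  apply hnli
  obtain ⟨h, u, hu, hdχ⟩ :=
    Nat.exists_eq_pow_mul_and_not_dvd (irr_degree_pos χ).ne' p hp.ne_one
  have hu0 : u ≠ 0 := by
    rintro rfl
    exact hu (dvd_zero p)
  have hh : (charDegree (χ : G → ℂ)).factorization p = h := by
    rw [hdχ, Nat.factorization_mul (pow_ne_zero _ hp.pos.ne') hu0, hp.factorization_pow]
    simp [Nat.factorization_eq_zero_of_not_dvd hu]
  have hN : p ^ (h + 1)
      ∣ (Subgroup.centralizer ({g₀} : Set G)).index * charDegree (ζ : P → ℂ) := by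
    rw [hp.pow_dvd_iff_le_factorization (Nat.mul_ne_zero hidx0 (irr_degree_pos ζ).ne'),
      Nat.factorization_mul hidx0 (irr_degree_pos ζ).ne']
    simp only [Finsupp.coe_add, Pi.add_apply]
    omega
  obtain ⟨t, ht⟩ := hN
  have h1 : (((Subgroup.centralizer ({g₀} : Set G)).index : ℕ) : ℂ)
      * (charDegree (ζ : P → ℂ) : ℂ) = (p : ℂ) ^ (h + 1) * t := by
    exact_mod_cast ht
  have h1' : (((Subgroup.centralizer ({g₀} : Set G)).index : ℕ) : ℂ)
      * ((charDegree (ζ : P → ℂ) : ℂ) * κ) = (p : ℂ) ^ (h + 1) * t * κ := by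
    rw [← mul_assoc, h1]
  have hp0 : (p : ℂ) ≠ 0 := Nat.cast_ne_zero.mpr hp.pos.ne'
  have hu0' : (u : ℂ) ≠ 0 := Nat.cast_ne_zero.mpr hu0
  have e : (((Subgroup.centralizer ({g₀} : Set G)).index : ℕ) : ℂ)
      * ((charDegree (ζ : P → ℂ) : ℂ) * κ) / (charDegree (χ : G → ℂ) : ℂ)
      = (p : ℂ) * ((t : ℂ) * κ * ((u : ℕ) : ℂ)⁻¹) := by
    rw [h1', hdχ]
    push_cast
    field_simp
    ring
  rw [e]
  exact li_mul_lr hM (li_prime hM)
    (lr_mul hM (lr_mul hM (lr_natCast hM t) (lr_of_isIntegral hM hκ)) (lr_natCast_inv hM hu))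

end Cfsg.Agent.Helper2
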