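import Mathlib
import Cfsg.Agent.Lead.Quat
import Cfsg.Agent.Lead.Cyc

/-!
# Normal four-subgroups of 2-groups of rank at least 3 (helper2)

* `exists_prod_sub`: internal direct product of two commuting subgroups with trivial intersection.
* `two_pow_dvd_cases`: `2^n ∣ u² - 1 → 2^(n-1) ∣ u - 1 ∨ 2^(n-1) ∣ u + 1`.
* `pair_of_elem`, `pair_of_cyclic`, `exists_pair`: a finite 2-group containing an elementary
  abelian subgroup of order 8 has a central involution `z` and an involution `v ∉ ⟨z⟩` whose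
  conjugates are `v` and `v z` (so `{1, z, v, vz}` is a normal four-group).
-/

set_option autoImplicit false

namespace Cfsg.Agent.Helper2

section Basic

variable {G : Type*} [Group G]

theorem pow_of_sq_one {z : G} (hz : z * z = 1) (t : ℕ) : z ^ t = 1 ∨ z ^ t = z := by
  induction t with
  | zero => left; simp
  | succ t ih =>
    rcases ih with h | h
    · right; rw [pow_succ, h, one_mul]
    · left; rw [pow_succ, h, hz]

theorem mem_zpowers_of_sq_one {z c : G} (hz : z * z = 1) (hc : c ∈ Subgroup.zpowers z) :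
    c = 1 ∨ c = z := by
  have hfin : IsOfFinOrder z := isOfFinOrder_iff_pow_eq_one.mpr ⟨2, by norm_num, by
    rw [pow_two]; exact hz⟩
  obtain ⟨k, rfl⟩ := (hfin.mem_powers_iff_mem_zpowers).mpr hc
  exact pow_of_sq_one hz k

theorem inv_eq_self_of_sq_one {z : G} (hz : z * z = 1) : z⁻¹ = z :=
  inv_eq_of_mul_eq_one_left hz

theorem comm_of_sq_one {a b : G} (ha : a * a = 1) (hb : b * b = 1) (hab : (a * b) * (a * b) = 1) :
    a * b = b * a := by
  have h1 : a * b = (a * b)⁻¹ := (inv_eq_self_of_sq_one hab).symm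
  rw [h1, mul_inv_rev, inv_eq_self_of_sq_one ha, inv_eq_self_of_sq_one hb]

/-- internal direct product of two commuting subgroups with trivial intersection. -/
theorem exists_prod_sub (A B : Subgroup G) (hc : ∀ a ∈ A, ∀ b ∈ B, a * b = b * a)
    (hd : ∀ x, x ∈ A → x ∈ B → x = 1) :
    ∃ W : Subgroup G, A ≤ W ∧ B ≤ W ∧ Nat.card W = Nat.card A * Nat.card B ∧
      ∀ w ∈ W, ∃ a ∈ A, ∃ b ∈ B, w = a * b := by
  let f : A × B →* G := MonoidHom.noncommCoprod A.subtype B.subtype (fun a b => hc a a.2 b b.2)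
  have hf : ∀ p : A × B, f p = (p.1 : G) * (p.2 : G) := fun p => rfl
  have hinj : Function.Injective f := by
    rw [injective_iff_map_eq_one]
    rintro ⟨a, b⟩ h
    rw [hf] at h
    have ha : (a : G) = (b : G)⁻¹ := eq_inv_of_mul_eq_one_left h
    have ha1 : (a : G) = 1 := hd _ a.2 (ha ▸ B.inv_mem b.2)
    have hb1 : (b : G) = 1 := by
      have h' : (a : G) * (b : G) = 1 := h
      rw [ha1, one_mul] at h'; exact h'
    exact Prod.ext (Subtype.ext ha1) (Subtype.ext hb1)
  refine ⟨f.range, ?_, ?_, ?_, ?_⟩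
  · intro a ha; exact ⟨(⟨a, ha⟩, 1), by rw [hf]; simp⟩
  · intro b hb; exact ⟨(1, ⟨b, hb⟩), by rw [hf]; simp⟩
  · rw [← Nat.card_prod]; exact (Nat.card_congr (Equiv.ofInjective f hinj)).symm
  · rintro w ⟨p, rfl⟩; exact ⟨p.1, p.1.2, p.2, p.2.2, hf p⟩

theorem card_zpowers_of_sq_one {z : G} (hz : z * z = 1) (hz1 : z ≠ 1) :
    Nat.card (Subgroup.zpowers z) = 2 := by
  haveI : Fact (Nat.Prime 2) := ⟨Nat.prime_two⟩
  rw [Nat.card_zpowers]
  exact orderOf_eq_prime (by rw [pow_two]; exact hz) hz1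

/-- the four-group generated by two distinct commuting involutions. -/
theorem exists_four (z v : G) (hz : z * z = 1) (hv : v * v = 1) (hzv : z * v = v * z)
    (hz1 : z ≠ 1) (hv1 : v ≠ 1) (hvz : v ≠ z) :
    ∃ V : Subgroup G, Nat.card V = 4 ∧ z ∈ V ∧ v ∈ V ∧
      ∀ x, x ∈ V ↔ (x = 1 ∨ x = z ∨ x = v ∨ x = v * z) := by
  obtain ⟨V, hzV, hvV, hcard, hmem⟩ := exists_prod_sub (Subgroup.zpowers z) (Subgroup.zpowers v)
    (by
      intro a ha b hb
      rcases mem_zpowers_of_sq_one hz ha with rfl | rfl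
      · simp
      · rcases mem_zpowers_of_sq_one hv hb with rfl | rfl
        · simp
        · exact hzv)
    (by
      intro x hx hx'
      rcases mem_zpowers_of_sq_one hz hx with rfl | rfl
      · rfl
      · rcases mem_zpowers_of_sq_one hv hx' with h | h
        · exact h
        · exact absurd h.symm hvz)
  refine ⟨V, ?_, hzV (Subgroup.mem_zpowers z), hvV (Subgroup.mem_zpowers v), ?_⟩
  · rw [hcard, card_zpowers_of_sq_one hz hz1, card_zpowers_of_sq_one hv hv1]
  · intro x
    constructor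
    · intro hx
      obtain ⟨a, ha, b, hb, rfl⟩ := hmem x hx
      rcases mem_zpowers_of_sq_one hz ha with rfl | rfl
      · rcases mem_zpowers_of_sq_one hv hb with rfl | rfl
        · left; simp
        · right; right; left; simp
      · rcases mem_zpowers_of_sq_one hv hb with rfl | rfl
        · right; left; simp
        · right; right; right; exact hzv
    · rintro (rfl | rfl | rfl | rfl)
      · exact V.one_mem
      · exact hzV (Subgroup.mem_zpowers _)
      · exact hvV (Subgroup.mem_zpowers _)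
      · exact V.mul_mem (hvV (Subgroup.mem_zpowers _)) (hzV (Subgroup.mem_zpowers _))

theorem two_pow_dvd_cases (n u : ℕ) (hn : 1 ≤ n) (hu : 1 ≤ u) (h : 2 ^ n ∣ u * u - 1) :
    2 ^ (n - 1) ∣ u - 1 ∨ 2 ^ (n - 1) ∣ u + 1 := by
  obtain ⟨m, rfl⟩ : ∃ m, n = m + 1 := ⟨n - 1, by omega⟩
  simp only [Nat.add_sub_cancel]
  rcases Nat.eq_zero_or_pos m with rfl | hm
  · left; simp
  obtain ⟨k, rfl⟩ : ∃ k, m = k + 1 := ⟨m - 1, by omega⟩
  have hodd : Odd u := by
    by_contra hne
    rw [Nat.not_odd_iff_even] at hne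
    obtain ⟨w, rfl⟩ := hne
    have h2 : 2 ∣ (w + w) * (w + w) - 1 := (dvd_pow_self 2 (by omega)).trans h
    have h3 : (w + w) * (w + w) = 2 * (w * (w + w)) := by ring
    have h4 : 1 ≤ w * (w + w) := Nat.mul_pos (by omega) (by omega)
    rw [h3] at h2
    generalize w * (w + w) = Y at h2 h4
    omega
  obtain ⟨w, rfl⟩ := hodd
  have e1 : (2 * w + 1) * (2 * w + 1) - 1 = 2 ^ 2 * (w * (w + 1)) := by
    have : (2 * w + 1) * (2 * w + 1) = 2 ^ 2 * (w * (w + 1)) + 1 := by ring
    rw [this]; rfl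
  rw [e1, show k + 1 + 1 = 2 + k by ring, pow_add] at h
  have h4 : 2 ^ k ∣ w * (w + 1) := Nat.dvd_of_mul_dvd_mul_left (by norm_num) h
  rcases Nat.even_or_odd w with hw | hw
  · left
    have hc : Nat.Coprime (2 ^ k) (w + 1) :=
      Nat.Coprime.pow_left k (Nat.coprime_two_left.mpr hw.add_one)
    have h5 : 2 ^ k ∣ w := hc.dvd_of_dvd_mul_right h4
    have : 2 * w + 1 - 1 = 2 * w := by omega
    rw [this, pow_succ, mul_comm]
    exact Nat.mul_dvd_mul_left 2 h5
  · right
    have hc : Nat.Coprime (2 ^ k) w := Nat.Coprime.pow_left k (Nat.coprime_two_left.mpr hw)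
    have h5 : 2 ^ k ∣ w + 1 := hc.dvd_of_dvd_mul_left h4
    have : 2 * w + 1 + 1 = 2 * (w + 1) := by ring
    rw [this, pow_succ, mul_comm]
    exact Nat.mul_dvd_mul_left 2 h5

end Basic

section Pair

variable {S : Type*} [Group S] [Finite S]

/-- the conclusion: a central involution `z` and an involution `v ∉ ⟨z⟩` with conjugates in
`{v, v z}`. -/
def FourPair (z v : S) : Prop :=
  (∀ s : S, s * z = z * s) ∧ z ≠ 1 ∧ z * z = 1 ∧ v * v = 1 ∧ v ≠ 1 ∧ v ≠ z ∧
    ∀ s : S, s * v * s⁻¹ = v ∨ s * v * s⁻¹ = v * z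

theorem pair_of_elem (hS : IsPGroup 2 S) (N : Subgroup S) [hNn : N.Normal]
    (hN2 : ∀ x ∈ N, x * x = 1) (hN4 : 4 ≤ Nat.card N) : ∃ z v : S, FourPair z v := by
  haveI : Fact (Nat.Prime 2) := ⟨Nat.prime_two⟩
  have hne : N ≠ ⊥ := by
    rintro rfl
    rw [Subgroup.card_bot] at hN4
    omega
  obtain ⟨z, hzN, hz1, hzc⟩ := Cfsg.Agent.Lead.normal_inf_center_ne_bot' 2 hS N hne
  have hzc' : ∀ s : S, s * z = z * s := fun s => (Subgroup.mem_center_iff.mp hzc s)
  have hz2 : z * z = 1 := hN2 z hzN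
  haveI hZn : (Subgroup.zpowers z).Normal := by
    constructor
    intro n hn g
    rcases mem_zpowers_of_sq_one hz2 hn with rfl | rfl
    · simp
    · rw [hzc' g]; simp [Subgroup.mem_zpowers]
  have hsurj : Function.Surjective (QuotientGroup.mk' (Subgroup.zpowers z)) :=
    QuotientGroup.mk'_surjective _
  haveI : (N.map (QuotientGroup.mk' (Subgroup.zpowers z))).Normal :=
    Subgroup.Normal.map hNn _ hsurj
  have hne' : N.map (QuotientGroup.mk' (Subgroup.zpowers z)) ≠ ⊥ := by
    intro h0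
    rw [Subgroup.map_eq_bot_iff, QuotientGroup.ker_mk'] at h0
    have := Subgroup.card_le_of_le h0
    rw [card_zpowers_of_sq_one hz2 hz1] at this
    omega
  obtain ⟨b, hbN, hb1, hbc⟩ := Cfsg.Agent.Lead.normal_inf_center_ne_bot' 2
    (hS.to_quotient (Subgroup.zpowers z)) _ hne'
  obtain ⟨v, hvN, rfl⟩ := hbN
  have hv2 : v * v = 1 := hN2 v hvN
  have hvZ : v ∉ Subgroup.zpowers z := by
    intro h
    apply hb1
    exact (QuotientGroup.eq_one_iff v).mpr h
  refine ⟨z, v, hzc', hz1, hz2, hv2, ?_, ?_, ?_⟩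
  · rintro rfl; exact hvZ (Subgroup.one_mem _)
  · rintro rfl; exact hvZ (Subgroup.mem_zpowers _)
  · intro s
    have h1 : (QuotientGroup.mk' (Subgroup.zpowers z)) (v⁻¹ * (s * v * s⁻¹)) = 1 := by
      have h2 := Subgroup.mem_center_iff.mp hbc ((QuotientGroup.mk' (Subgroup.zpowers z)) s)
      simp only [map_mul, map_inv]
      rw [h2]
      group
    have h3 : v⁻¹ * (s * v * s⁻¹) ∈ Subgroup.zpowers z := (QuotientGroup.eq_one_iff _).mp h1
    rcases mem_zpowers_of_sq_one hz2 h3 with h | h
    · left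
      have : s * v * s⁻¹ = v * (v⁻¹ * (s * v * s⁻¹)) := by group
      rw [this, h, mul_one]
    · right
      have : s * v * s⁻¹ = v * (v⁻¹ * (s * v * s⁻¹)) := by group
      rw [this, h]

theorem pair_of_cyclic (hS : IsPGroup 2 S) (a : S)
    (hnorm : ∀ s : S, s * a * s⁻¹ ∈ Subgroup.zpowers a)
    (hcent : ∀ s : S, s * a = a * s → s ∈ Subgroup.zpowers a)
    (E : Subgroup S) (hE8 : Nat.card E = 8) (hE2 : ∀ e ∈ E, e * e = 1) :
    ∃ z v : S, FourPair z v := by
  classical
  haveI : Fact (Nat.Prime 2) := ⟨Nat.prime_two⟩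
  obtain ⟨n, hn⟩ := (IsPGroup.iff_orderOf.mp hS) a
  have hnat : ∀ b ∈ Subgroup.zpowers a, ∃ i : ℕ, a ^ i = b := by
    intro b hb
    exact (mem_powers_iff_mem_zpowers.mpr hb)
  have ha1 : a ≠ 1 := by
    rintro rfl
    have hall : ∀ s : S, s = 1 := by
      intro s
      have := hcent s (by simp)
      rw [Subgroup.zpowers_one_eq_bot] at this
      exact Subgroup.mem_bot.mp this
    have hEb : E = ⊥ := (Subgroup.eq_bot_iff_forall E).mpr (fun x _ => hall x)
    rw [hEb, Subgroup.card_bot] at hE8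
    omega
  have hn1 : 1 ≤ n := by
    rcases Nat.eq_zero_or_pos n with rfl | h
    · rw [pow_zero, orderOf_eq_one_iff] at hn; exact absurd hn ha1
    · exact h
  obtain ⟨m, rfl⟩ : ∃ m, n = m + 1 := ⟨n - 1, by omega⟩
  set z := a ^ (2 ^ m) with hzdef
  have hz2 : z * z = 1 := by
    rw [hzdef, ← pow_add, ← two_mul, ← pow_succ', ← hn]; exact pow_orderOf_eq_one a
  have hz1 : z ≠ 1 := by
    intro h
    have h1 := orderOf_dvd_of_pow_eq_one h
    rw [hn] at h1
    have h2 := Nat.le_of_dvd (by positivity) h1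
    have h3 : 2 ^ m < 2 ^ (m + 1) := Nat.pow_lt_pow_right (by norm_num) (by omega)
    omega
  have hzA : z ∈ Subgroup.zpowers a := Subgroup.npow_mem_zpowers a _
  have step1 : ∀ b ∈ Subgroup.zpowers a, b * b = 1 → b = 1 ∨ b = z := by
    intro b hb hb2
    obtain ⟨i, rfl⟩ := hnat b hb
    have h1 : a ^ (2 * i) = 1 := by rw [two_mul, pow_add]; exact hb2
    have h2 := orderOf_dvd_of_pow_eq_one h1
    rw [hn, pow_succ, mul_comm] at h2
    have h3 : 2 ^ m ∣ i := Nat.dvd_of_mul_dvd_mul_left (by norm_num) h2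
    obtain ⟨t, rfl⟩ := h3
    rw [pow_mul]
    exact pow_of_sq_one hz2 t
  have hnormA : ∀ s : S, ∀ b ∈ Subgroup.zpowers a, s * b * s⁻¹ ∈ Subgroup.zpowers a := by
    intro s b hb
    obtain ⟨i, rfl⟩ := hnat b hb
    have : s * a ^ i * s⁻¹ = (s * a * s⁻¹) ^ i := by rw [conj_pow]
    rw [this]; exact Subgroup.pow_mem _ (hnorm s) i
  have hzc : ∀ s : S, s * z = z * s := by
    intro s
    have h1 := hnormA s z hzA
    have h2 : (s * z * s⁻¹) * (s * z * s⁻¹) = 1 := by
      calc (s * z * s⁻¹) * (s * z * s⁻¹) = s * (z * z) * s⁻¹ := by group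
        _ = 1 := by rw [hz2]; group
    rcases step1 _ h1 h2 with h | h
    · exfalso; apply hz1
      have : z = s⁻¹ * (s * z * s⁻¹) * s := by group
      rw [this, h]; group
    · calc s * z = (s * z * s⁻¹) * s := by group
        _ = z * s := by rw [h]
  have hcomA : ∀ b ∈ Subgroup.zpowers a, b * a = a * b := by
    intro b hb
    obtain ⟨i, rfl⟩ := hnat b hb
    rw [← pow_succ, ← pow_succ']
  have fiber : ∀ e ∈ E, ∀ e' ∈ E, e * a * e⁻¹ = e' * a * e'⁻¹ → e' = e ∨ e' = e * z := by
    intro e he e' he' h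
    have hc : (e⁻¹ * e') * a = a * (e⁻¹ * e') := by
      have : a = e⁻¹ * (e' * a * e'⁻¹) * e := by rw [← h]; group
      calc (e⁻¹ * e') * a = e⁻¹ * (e' * a * e'⁻¹) * e' := by group
        _ = (e⁻¹ * (e' * a * e'⁻¹) * e) * (e⁻¹ * e') := by group
        _ = a * (e⁻¹ * e') := by rw [← this]
    have hcA := hcent _ hc
    have hcE : e⁻¹ * e' ∈ E := E.mul_mem (E.inv_mem he) he'
    rcases step1 _ hcA (hE2 _ hcE) with h1 | h1
    · left
      have : e' = e * (e⁻¹ * e') := by group
      rw [this, h1, mul_one]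
    · right
      have : e' = e * (e⁻¹ * e') := by group
      rw [this, h1]
  have value : ∀ e ∈ E, e * a * e⁻¹ = a ∨ e * a * e⁻¹ = a⁻¹ ∨ e * a * e⁻¹ = a * z ∨
      e * a * e⁻¹ = a⁻¹ * z := by
    intro e he
    obtain ⟨u, hu⟩ := hnat _ (hnorm e)
    have he2 := hE2 e he
    have h1 : a ^ (u * u) = a := by
      have h0 : e * (e * a * e⁻¹) * e⁻¹ = a := by
        calc e * (e * a * e⁻¹) * e⁻¹ = (e * e) * a * (e * e)⁻¹ := by group
          _ = a := by rw [he2]; simp
      rw [← hu, ← conj_pow, ← hu, ← pow_mul] at h0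
      exact h0
    have hu1 : 1 ≤ u := by
      rcases Nat.eq_zero_or_pos u with rfl | h
      · rw [pow_zero] at hu
        exfalso; apply ha1
        have : a = e⁻¹ * (e * a * e⁻¹) * e := by group
        rw [this, ← hu]; group
      · exact h
    have h2 : a ^ (u * u - 1) = 1 := by
      have h3 : a ^ (u * u - 1) * a = 1 * a := by
        rw [← pow_succ, Nat.sub_add_cancel (Nat.mul_pos hu1 hu1), one_mul]; exact h1
      exact mul_right_cancel h3
    have h4 := orderOf_dvd_of_pow_eq_one h2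
    rw [hn] at h4
    rcases two_pow_dvd_cases (m + 1) u (by omega) hu1 h4 with h5 | h5
    · simp only [Nat.add_sub_cancel] at h5
      obtain ⟨t, ht⟩ := h5
      have hu' : u = 1 + 2 ^ m * t := by omega
      have : a ^ u = a * z ^ t := by rw [hu', pow_add, pow_one, pow_mul]
      rw [← hu, this]
      rcases pow_of_sq_one hz2 t with h | h
      · left; rw [h, mul_one]
      · right; right; left; rw [h]
    · simp only [Nat.add_sub_cancel] at h5
      obtain ⟨t, ht⟩ := h5
      have : a ^ u * a = z ^ t := by rw [← pow_succ, ht, pow_mul]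
      have h6 : a ^ u = z ^ t * a⁻¹ := eq_mul_inv_of_mul_eq this
      rw [← hu, h6]
      rcases pow_of_sq_one hz2 t with h | h
      · right; left; rw [h, one_mul]
      · right; right; right; rw [h]
        exact (hzc a⁻¹).symm
  haveI : Fintype E := Fintype.ofFinite E
  let f : E → S := fun e => (e : S) * a * (e : S)⁻¹
  let R : Finset S := {a, a⁻¹, a * z, a⁻¹ * z}
  have hsub : (Finset.univ : Finset E).image f ⊆ R := by
    intro b hb
    obtain ⟨e, -, rfl⟩ := Finset.mem_image.mp hb
    simp only [R, Finset.mem_insert, Finset.mem_singleton]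
    exact value e e.2
  have hfib : ∀ b ∈ (Finset.univ : Finset E).image f,
      (Finset.univ.filter (fun e : E => f e = b)).card ≤ 2 := by
    intro b hb
    obtain ⟨e₀, -, rfl⟩ := Finset.mem_image.mp hb
    have hsub2 : (Finset.univ.filter (fun e : E => f e = f e₀)).image (fun e : E => (e : S)) ⊆
        {(e₀ : S), (e₀ : S) * z} := by
      intro x hx
      obtain ⟨e, he, rfl⟩ := Finset.mem_image.mp hx
      rw [Finset.mem_filter] at he
      simp only [Finset.mem_insert, Finset.mem_singleton]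
      exact fiber e₀ e₀.2 e e.2 he.2.symm
    calc (Finset.univ.filter (fun e : E => f e = f e₀)).card
        = ((Finset.univ.filter (fun e : E => f e = f e₀)).image (fun e : E => (e : S))).card :=
          (Finset.card_image_of_injective _ Subtype.val_injective).symm
      _ ≤ ({(e₀ : S), (e₀ : S) * z} : Finset S).card := Finset.card_le_card hsub2
      _ ≤ 2 := Finset.card_le_two
  have hcard8 : (Finset.univ : Finset E).card = 8 := by
    rw [Finset.card_univ, ← Nat.card_eq_fintype_card, hE8]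
  have h8 := Finset.card_le_mul_card_image (f := f) (Finset.univ : Finset E) 2 hfib
  have hR4 : R.card ≤ 4 := Finset.card_le_four
  have hRF := Finset.card_le_card hsub
  have hFR : (Finset.univ : Finset E).image f = R := Finset.eq_of_subset_of_card_le hsub (by omega)
  have hazR : a * z ∈ (Finset.univ : Finset E).image f := by rw [hFR]; simp [R]
  obtain ⟨e, -, he⟩ := Finset.mem_image.mp hazR
  have hne : a * z ≠ a⁻¹ := by
    intro h
    have h3 : R.card ≤ 3 := by
      have hR : R = {a, a⁻¹, a⁻¹ * z} := by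
        simp only [R]; rw [h]; simp
      rw [hR]; exact Finset.card_le_three
    omega
  have hev : (e : S) * a * (e : S)⁻¹ = a * z := he
  obtain ⟨v, hvE⟩ := e
  simp only at hev
  have hv2 : v * v = 1 := hE2 v hvE
  have hvinv : v⁻¹ = v := inv_eq_self_of_sq_one hv2
  have hazne : a * z ≠ a := by
    intro h
    apply hz1
    have : a * z = a * 1 := by rw [h, mul_one]
    exact mul_left_cancel this
  have hvA : v ∉ Subgroup.zpowers a := by
    intro h
    have := hcomA v h
    apply hazne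
    rw [← hev, this]; group
  refine ⟨z, v, hzc, hz1, hz2, hv2, ?_, ?_, ?_⟩
  · intro h; apply hvA; rw [h]; exact Subgroup.one_mem _
  · intro h; apply hvA; rw [h]; exact hzA
  · intro s
    obtain ⟨j, hj⟩ := hnat _ (hnorm s⁻¹)
    rw [inv_inv] at hj
    have h1 : v * a ^ j * v⁻¹ = a ^ j * z ^ j := by
      rw [← conj_pow, hev, (show Commute a z from (hzc a)).mul_pow]
    have h2 : (s * v * s⁻¹) * a * (s * v * s⁻¹)⁻¹ = a * z ^ j := by
      have hzj : s * z ^ j * s⁻¹ = z ^ j := by
        have : Commute s (z ^ j) := (show Commute s z from hzc s).pow_right j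
        rw [this.eq]; group
      calc (s * v * s⁻¹) * a * (s * v * s⁻¹)⁻¹ = s * (v * (s⁻¹ * a * s) * v⁻¹) * s⁻¹ := by group
        _ = s * (a ^ j * z ^ j) * s⁻¹ := by rw [← hj, h1]
        _ = (s * a ^ j * s⁻¹) * (s * z ^ j * s⁻¹) := by group
        _ = a * z ^ j := by rw [hzj, hj]; group
    rcases pow_of_sq_one hz2 j with hzj | hzj
    · exfalso
      rw [hzj, mul_one] at h2
      have hc : (s * v * s⁻¹) * a = a * (s * v * s⁻¹) := by
        calc (s * v * s⁻¹) * a = ((s * v * s⁻¹) * a * (s * v * s⁻¹)⁻¹) * (s * v * s⁻¹) := by group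
          _ = a * (s * v * s⁻¹) := by rw [h2]
      have h3 := hcent _ hc
      have h4 := hnormA s⁻¹ _ h3
      apply hvA
      have : s⁻¹ * (s * v * s⁻¹) * s⁻¹⁻¹ = v := by group
      rwa [this] at h4
    · rw [hzj] at h2
      have hc : (v⁻¹ * (s * v * s⁻¹)) * a = a * (v⁻¹ * (s * v * s⁻¹)) := by
        have h5 : (s * v * s⁻¹) * a = a * z * (s * v * s⁻¹) := by
          calc (s * v * s⁻¹) * a
              = ((s * v * s⁻¹) * a * (s * v * s⁻¹)⁻¹) * (s * v * s⁻¹) := by group
            _ = a * z * (s * v * s⁻¹) := by rw [h2]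
        have h6 : v⁻¹ * (a * z) = a * v⁻¹ := by
          rw [← hev]; group
        calc (v⁻¹ * (s * v * s⁻¹)) * a = v⁻¹ * ((s * v * s⁻¹) * a) := by group
          _ = v⁻¹ * (a * z * (s * v * s⁻¹)) := by rw [h5]
          _ = (v⁻¹ * (a * z)) * (s * v * s⁻¹) := by group
          _ = a * (v⁻¹ * (s * v * s⁻¹)) := by rw [h6]; group
      have hcA := hcent _ hc
      obtain ⟨i, hi⟩ := hnat _ hcA
      obtain ⟨c, hcdef⟩ : ∃ c, c = v⁻¹ * (s * v * s⁻¹) := ⟨_, rfl⟩
      rw [← hcdef] at hi hcA
      have hsv : s * v * s⁻¹ = v * c := by rw [hcdef]; group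
      have h7 : (v * c) * (v * c) = 1 := by
        rw [← hsv]
        calc (s * v * s⁻¹) * (s * v * s⁻¹) = s * (v * v) * s⁻¹ := by group
          _ = 1 := by rw [hv2]; group
      have h8 : v * c * v⁻¹ = c * z ^ i := by
        rw [← hi, ← conj_pow, hev, (show Commute a z from (hzc a)).mul_pow]
      have h9 : c * z ^ i * c = 1 := by
        have h10 : (v * c) * (v * c) = (v * c * v⁻¹) * c := by
          rw [hvinv]; simp only [mul_assoc]
        rw [← h8, ← h10]; exact h7
      rcases Nat.even_or_odd i with ⟨k, hk⟩ | ⟨k, hk⟩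
      · have hzi : z ^ i = 1 := by rw [hk, ← two_mul, pow_mul, pow_two, hz2, one_pow]
        rw [hzi, mul_one] at h9
        rcases step1 c hcA h9 with h | h
        · left; rw [hsv, h, mul_one]
        · right; rw [hsv, h]
      · exfalso
        have hzi : z ^ i = z := by rw [hk, pow_succ, pow_mul, pow_two, hz2, one_pow, one_mul]
        rw [hzi] at h9
        have hcc : c * c = z := by
          have h11 : c * c * z = 1 := by
            calc c * c * z = c * (c * z) := by group
              _ = c * (z * c) := by rw [hzc c]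
              _ = c * z * c := by group
              _ = 1 := h9
          have h12 : c * c = z⁻¹ := eq_inv_of_mul_eq_one_left h11
          rw [h12, inv_eq_self_of_sq_one hz2]
        have h11 : a ^ (2 * i) = z := by rw [two_mul, pow_add, hi]; exact hcc
        have h12 : a ^ (4 * i) = 1 := by
          have : 4 * i = 2 * i + 2 * i := by ring
          rw [this, pow_add, h11, hz2]
        have h13 := orderOf_dvd_of_pow_eq_one h12
        rw [hn] at h13
        have hcop : Nat.Coprime (2 ^ (m + 1)) i :=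
          Nat.Coprime.pow_left _ (Nat.coprime_two_left.mpr ⟨k, hk⟩)
        have h14 : 2 ^ (m + 1) ∣ 4 := hcop.dvd_of_dvd_mul_right h13
        have h15 : a ^ 4 = 1 := by
          rw [← hn] at h14
          exact orderOf_dvd_iff_pow_eq_one.mp h14
        have h16 : a ^ 2 = z := by
          have : 2 * i = 4 * k + 2 := by omega
          rw [this, pow_add, pow_mul, h15, one_pow, one_mul] at h11
          exact h11
        apply hne
        rw [← h16]
        have : a * a ^ 2 * a = 1 := by
          calc a * a ^ 2 * a = a ^ 4 := by group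
            _ = 1 := h15
        exact eq_inv_of_mul_eq_one_left this

/-- a finite 2-group containing an elementary abelian subgroup of order 8 has a normal
four-subgroup, in the form of a `FourPair`. -/
theorem exists_pair (hS : IsPGroup 2 S) (E : Subgroup S) (hE8 : Nat.card E = 8)
    (hE2 : ∀ e ∈ E, e * e = 1) : ∃ z v : S, FourPair z v := by
  classical
  haveI : Fact (Nat.Prime 2) := ⟨Nat.prime_two⟩
  let 𝒜 := {B : Subgroup S // B.Normal ∧ ∀ x ∈ B, ∀ y ∈ B, x * y = y * x}
  haveI : Nonempty 𝒜 := ⟨⟨⊥, inferInstance, by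
    intro x hx y hy
    rw [Subgroup.mem_bot] at hx hy
    rw [hx, hy]⟩⟩
  haveI : Finite 𝒜 := Subtype.finite
  obtain ⟨⟨A, hAn, hAc⟩, hAmax⟩ := Finite.exists_max (fun B : 𝒜 => Nat.card B.1)
  haveI := hAn
  have hmax : ∀ B : Subgroup S, B.Normal → (∀ x ∈ B, ∀ y ∈ B, x * y = y * x) → A ≤ B →
      B = A := by
    intro B hBn hBc hAB
    have := hAmax ⟨B, hBn, hBc⟩
    exact (Subgroup.eq_of_le_of_card_ge hAB this).symm
  have hcent := Cfsg.Agent.Lead.centralizer_le_of_maximal_normal_abelian 2 hS A hAc hmax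
  by_cases hcyc : IsCyclic A
  · obtain ⟨g, hg⟩ := hcyc.exists_generator
    have hA : Subgroup.zpowers (g : S) = A := by
      apply le_antisymm
      · exact Subgroup.zpowers_le.mpr g.2
      · intro x hx
        obtain ⟨k, hk⟩ := Subgroup.mem_zpowers_iff.mp (hg ⟨x, hx⟩)
        refine Subgroup.mem_zpowers_iff.mpr ⟨k, ?_⟩
        have := congrArg Subtype.val hk
        simpa using this
    apply pair_of_cyclic hS (g : S) _ _ E hE8 hE2
    · intro s; rw [hA]; exact hAn.conj_mem _ g.2 s
    · intro s hs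
      rw [hA]
      apply hcent
      rw [Subgroup.mem_centralizer_iff]
      intro x hx
      rw [← hA] at hx
      obtain ⟨k, rfl⟩ := Subgroup.mem_zpowers_iff.mp hx
      have : Commute s (g : S) := hs
      exact (this.zpow_right k).eq.symm
  · have hex : ∃ H K : Subgroup S, H ≤ A ∧ K ≤ A ∧ Nat.card H = 2 ∧ Nat.card K = 2 ∧ H ≠ K := by
      by_contra hno
      apply hcyc
      apply Cfsg.Agent.Lead.isCyclic_subgroup_of_unique 2 A hAc (hS.to_subgroup A)
      intro H K hH hK hH2 hK2
      by_contra hne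
      exact hno ⟨H, K, hH, hK, hH2, hK2, hne⟩
    obtain ⟨H, K, hHA, hKA, hH2, hK2, hHK⟩ := hex
    let N : Subgroup S :=
      { carrier := {x | x ∈ A ∧ x * x = 1}
        one_mem' := ⟨A.one_mem, by simp⟩
        mul_mem' := by
          rintro x y ⟨hx, hx2⟩ ⟨hy, hy2⟩
          refine ⟨A.mul_mem hx hy, ?_⟩
          calc x * y * (x * y) = x * (y * x) * y := by group
            _ = x * (x * y) * y := by rw [hAc y hy x hx]
            _ = (x * x) * (y * y) := by group
            _ = 1 := by rw [hx2, hy2, one_mul]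
        inv_mem' := by
          rintro x ⟨hx, hx2⟩
          refine ⟨A.inv_mem hx, ?_⟩
          rw [inv_eq_self_of_sq_one hx2]; exact hx2 }
    have hNmem : ∀ x, x ∈ N ↔ x ∈ A ∧ x * x = 1 := fun x => Iff.rfl
    haveI hNn : N.Normal := by
      constructor
      intro n hn g
      rw [hNmem] at hn ⊢
      refine ⟨hAn.conj_mem n hn.1 g, ?_⟩
      calc g * n * g⁻¹ * (g * n * g⁻¹) = g * (n * n) * g⁻¹ := by group
        _ = 1 := by rw [hn.2]; group
    have hsq : ∀ (L : Subgroup S), Nat.card L = 2 → ∀ x ∈ L, x * x = 1 := by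
      intro L hL x hx
      have h1 := pow_card_eq_one' (G := L) (x := ⟨x, hx⟩)
      rw [hL] at h1
      have h2 := congrArg Subtype.val h1
      simpa [pow_two] using h2
    have hHN : H ≤ N := fun x hx => ⟨hHA hx, hsq H hH2 x hx⟩
    have hKN : K ≤ N := fun x hx => ⟨hKA hx, hsq K hK2 x hx⟩
    have hN4 : 4 ≤ Nat.card N := by
      obtain ⟨j, hj⟩ := IsPGroup.iff_card.mp (hS.to_subgroup N)
      have h2 : 2 ≤ Nat.card N := hH2 ▸ Subgroup.card_le_of_le hHN
      have hne2 : Nat.card N ≠ 2 := by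
        intro h
        apply hHK
        have e1 : H = N := Subgroup.eq_of_le_of_card_ge hHN (by rw [h, hH2])
        have e2 : K = N := Subgroup.eq_of_le_of_card_ge hKN (by rw [h, hK2])
        rw [e1, e2]
      rw [hj] at h2 hne2 ⊢
      have hj2 : 2 ≤ j := by
        by_contra hlt
        push Not at hlt
        interval_cases j <;> simp at h2 hne2
      calc 4 = 2 ^ 2 := by norm_num
        _ ≤ 2 ^ j := Nat.pow_le_pow_right (by norm_num) hj2
    exact pair_of_elem hS N (fun x hx => hx.2) hN4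

end Pair

end Cfsg.Agent.Helper2
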