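import Mathlib
import Cfsg.Agent.Helper2.CharExtra
import Cfsg.Agent.Helper1.CharEquiv
import Cfsg.Agent.Helper1.CharOrtho
import Cfsg.Agent.Helper25.CharBasic

/-!
# Representations over a subfield of `ℂ` and their complex characters (helper2)

`K` is a field with a ring homomorphism `ι : K →+* ℂ`.

* `kchar ι ρ`: the complex-valued character of a `K`-representation `ρ`.
* `cplx ι ρ`: the complexification (as a matrix representation on `Fin n → ℂ`).
* `classInner_kchar`: the inner product of two such characters is the `K`-dimension of the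
  space of intertwining maps.
* `finrank_end_dvd`: for `σ` irreducible, `dim End(σ)` divides `dim Hom(ρ, σ)`.
* `exists_irr_constituent`: a `K`-representation with `[φ_ρ, χ] ≠ 0` has an irreducible
  subrepresentation with the same property.
-/

set_option autoImplicit false

namespace Cfsg.Agent.Helper2

open Cfsg
open scoped ComplexConjugate

universe u

section KRep

variable {G : Type u} [Group G] {K : Type} [Field K] (ι : K →+* ℂ)

/-- the complex-valued character of a representation over `K`. -/
noncomputable def kchar {V : Type u} [AddCommGroup V] [Module K V] [Module.Finite K V]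
    (ρ : Representation K G V) : G → ℂ :=
  fun g => ι (ρ.character g)

/-- the complexification of a `K`-representation, as a matrix representation. -/
noncomputable def cplx {V : Type u} [AddCommGroup V] [Module K V] [Module.Finite K V]
    (ρ : Representation K G V) : Representation ℂ G (Fin (Module.finrank K V) → ℂ) :=
  ((Matrix.toLinAlgEquiv' : Matrix (Fin (Module.finrank K V)) (Fin (Module.finrank K V)) ℂ
      ≃ₐ[ℂ] _).toAlgHom.toRingHom.toMonoidHom).comp
    ((ι.mapMatrix (m := Fin (Module.finrank K V))).toMonoidHom.comp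
      (((LinearMap.toMatrixAlgEquiv (Module.finBasis K V)).toAlgHom.toRingHom.toMonoidHom).comp ρ))

theorem cplx_apply {V : Type u} [AddCommGroup V] [Module K V] [Module.Finite K V]
    (ρ : Representation K G V) (g : G) :
    cplx ι ρ g = Matrix.toLin' ((LinearMap.toMatrix (Module.finBasis K V) (Module.finBasis K V)
      (ρ g)).map ι) := rfl

theorem cplx_matrix {V : Type u} [AddCommGroup V] [Module K V] [Module.Finite K V]
    (ρ : Representation K G V) (g : G) (i j : Fin (Module.finrank K V)) :
    LinearMap.toMatrix' (cplx ι ρ g) i j =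
      ι (LinearMap.toMatrix (Module.finBasis K V) (Module.finBasis K V) (ρ g) i j) := by
  rw [cplx_apply, LinearMap.toMatrix'_toLin']
  rfl

theorem cplx_character {V : Type u} [AddCommGroup V] [Module K V] [Module.Finite K V]
    (ρ : Representation K G V) : (cplx ι ρ).character = kchar ι ρ := by
  funext g
  show LinearMap.trace ℂ _ (cplx ι ρ g) = ι (LinearMap.trace K V (ρ g))
  rw [cplx_apply, Matrix.trace_toLin'_eq, LinearMap.trace_eq_matrix_trace K (Module.finBasis K V),
    AddMonoidHom.map_trace]

theorem isCharacter_kchar {V : Type u} [AddCommGroup V] [Module K V] [Module.Finite K V]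
    (ρ : Representation K G V) : IsCharacter G (kchar ι ρ) :=
  ⟨_, cplx ι ρ, cplx_character ι ρ⟩

theorem kchar_one {V : Type u} [AddCommGroup V] [Module K V] [Module.Finite K V]
    (ρ : Representation K G V) : kchar ι ρ 1 = (Module.finrank K V : ℂ) := by
  show ι (ρ.character 1) = _
  rw [Representation.char_one, map_natCast]

theorem kchar_prod {V W : Type u} [AddCommGroup V] [Module K V] [Module.Finite K V]
    [AddCommGroup W] [Module K W] [Module.Finite K W]
    (ρ : Representation K G V) (σ : Representation K G W) :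
    kchar ι (ρ.prod σ) = kchar ι ρ + kchar ι σ := by
  funext g
  show ι (LinearMap.trace K _ ((ρ g).prodMap (σ g))) = _
  rw [LinearMap.trace_prodMap', map_add]
  rfl

/-- the inner product of the characters of two `K`-representations is the dimension of the space
of intertwining maps. -/
theorem classInner_kchar [Fintype G] {V W : Type u} [AddCommGroup V] [Module K V]
    [Module.Finite K V] [AddCommGroup W] [Module K W] [Module.Finite K W]
    (ρ : Representation K G V) (σ : Representation K G W) :
    classInner (kchar ι σ) (kchar ι ρ) =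
      (Module.finrank K (Representation.IntertwiningMap ρ σ) : ℂ) := by
  haveI : CharZero K := RingHom.charZero ι
  haveI : Invertible (Nat.card G : K) :=
    invertibleOfNonzero (by exact_mod_cast (Nat.card_pos (α := G)).ne')
  have h := Representation.card_inv_mul_sum_char_mul_char_eq_finrank ρ σ
  have h2 := congrArg ι h
  rw [map_mul, map_inv₀, map_natCast, map_natCast, map_sum] at h2
  unfold classInner
  rw [← h2]
  congr 1
  apply Finset.sum_congr rfl
  intro g _
  rw [map_mul]
  have h3 := Helper25.char_inv (isCharacter_kchar ι ρ) g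
  show ι (σ.character g) * conj (kchar ι ρ g) = _
  rw [← h3]
  rfl

open scoped MonoidAlgebra in
/-- Schur: for `σ` irreducible, `dim_K End(σ)` divides `dim_K Hom(ρ, σ)`. -/
theorem finrank_end_dvd [Finite G] [CharZero K] {V W : Type u} [AddCommGroup V] [Module K V]
    [Module.Finite K V] [AddCommGroup W] [Module K W] [Module.Finite K W]
    (ρ : Representation K G V) (σ : Representation K G W) [σ.IsIrreducible] :
    Module.finrank K (Representation.IntertwiningMap σ σ) ∣
      Module.finrank K (Representation.IntertwiningMap ρ σ) := by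
  classical
  rw [(Representation.IntertwiningMap.equivLinearMapAsModule σ σ).finrank_eq,
    (Representation.IntertwiningMap.equivLinearMapAsModule ρ σ).finrank_eq]
  haveI : IsSimpleModule K[G] σ.asModule := inferInstance
  exact Module.finrank_dvd_finrank_right K (Module.End K[G] σ.asModule)
    (ρ.asModule →ₗ[K[G]] σ.asModule)

theorem kchar_eq_zero_of_subsingleton {V : Type u} [AddCommGroup V] [Module K V]
    [Module.Finite K V] [Subsingleton V] (ρ : Representation K G V) : kchar ι ρ = 0 := by
  funext g
  show ι (LinearMap.trace K V (ρ g)) = 0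
  have : ρ g = 0 := Subsingleton.elim _ _
  rw [this, map_zero, map_zero]

theorem kchar_compl {V : Type u} [AddCommGroup V] [Module K V] [Module.Finite K V]
    (ρ : Representation K G V) (p q : Subrepresentation ρ)
    (hc : IsCompl p.toSubmodule q.toSubmodule) :
    kchar ι ρ = kchar ι p.toRepresentation + kchar ι q.toRepresentation := by
  funext g
  show ι (LinearMap.trace K V (ρ g)) = ι (LinearMap.trace K _ (p.toRepresentation g)) +
    ι (LinearMap.trace K _ (q.toRepresentation g))
  have key : (Submodule.prodEquivOfIsCompl p.toSubmodule q.toSubmodule hc).conj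
      (LinearMap.prodMap (p.toRepresentation g) (q.toRepresentation g)) = ρ g := by
    apply LinearMap.ext
    intro v
    obtain ⟨⟨x, y⟩, rfl⟩ :=
      (Submodule.prodEquivOfIsCompl p.toSubmodule q.toSubmodule hc).surjective v
    rw [LinearEquiv.conj_apply]
    show (Submodule.prodEquivOfIsCompl _ _ hc)
      ((LinearMap.prodMap (p.toRepresentation g) (q.toRepresentation g))
        ((Submodule.prodEquivOfIsCompl _ _ hc).symm
          ((Submodule.prodEquivOfIsCompl _ _ hc) (x, y)))) =
      ρ g ((Submodule.prodEquivOfIsCompl _ _ hc) (x, y))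
    rw [LinearEquiv.symm_apply_apply, LinearMap.prodMap_apply,
      Submodule.coe_prodEquivOfIsCompl', Submodule.coe_prodEquivOfIsCompl', map_add]
    rfl
  rw [← map_add, ← LinearMap.trace_prodMap', ← LinearMap.trace_conj' _
    (Submodule.prodEquivOfIsCompl p.toSubmodule q.toSubmodule hc), key]

/-- a `K`-representation whose character has nonzero inner product with `χ` has an irreducible
subrepresentation with the same property. -/
theorem exists_irr_constituent [Fintype G] (χ : G → ℂ) :
    ∀ (n : ℕ) (V : Type u) [AddCommGroup V] [Module K V] [Module.Finite K V]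
      (ρ : Representation K G V), Module.finrank K V ≤ n → classInner (kchar ι ρ) χ ≠ 0 →
      ∃ (W : Type u) (_ : AddCommGroup W) (_ : Module K W) (_ : Module.Finite K W)
        (σ : Representation K G W), σ.IsIrreducible ∧ classInner (kchar ι σ) χ ≠ 0 := by
  intro n
  induction n with
  | zero =>
    intro V _ _ _ ρ hn hne
    exfalso; apply hne
    haveI : Subsingleton V := (Module.finrank_zero_iff).mp (Nat.le_zero.mp hn)
    rw [kchar_eq_zero_of_subsingleton, classInner_zero_left]
  | succ n ih =>
    intro V _ _ _ ρ hn hne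
    by_cases hirr : ρ.IsIrreducible
    · exact ⟨V, _, _, _, ρ, hirr, hne⟩
    · haveI : CharZero K := RingHom.charZero ι
      haveI : NeZero (Nat.card G : K) := ⟨by exact_mod_cast (Nat.card_pos (α := G)).ne'⟩
      haveI hcl : ComplementedLattice (Subrepresentation ρ) :=
        (Representation.isSemisimpleRepresentation_iff_isSemisimpleModule_asModule ρ).mpr
          inferInstance
      have hVnt : Nontrivial V := by
        by_contra hnt
        rw [not_nontrivial_iff_subsingleton] at hnt
        apply hne
        rw [kchar_eq_zero_of_subsingleton, classInner_zero_left]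
      have hbt : (⊥ : Subrepresentation ρ) ≠ ⊤ := by
        intro h
        obtain ⟨v, hv⟩ := exists_ne (0 : V)
        have h1 : v ∈ (⊤ : Subrepresentation ρ) := Submodule.mem_top
        rw [← h] at h1
        exact hv ((Submodule.mem_bot K).mp h1)
      have hex : ∃ p : Subrepresentation ρ, p ≠ ⊥ ∧ p ≠ ⊤ := by
        by_contra hno
        push Not at hno
        apply hirr
        haveI : Nontrivial (Subrepresentation ρ) := ⟨⟨⊥, ⊤, hbt⟩⟩
        exact ⟨fun p => by
          by_cases h : p = ⊥
          · exact Or.inl h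
          · exact Or.inr (hno p h)⟩
      obtain ⟨p, hp0, hp1⟩ := hex
      obtain ⟨q, hpq⟩ := exists_isCompl p
      have hcompl : IsCompl p.toSubmodule q.toSubmodule := by
        have h1 : p.toSubmodule ⊓ q.toSubmodule = ⊥ := by
          rw [← Subrepresentation.toSubmodule_inf, hpq.inf_eq_bot]; rfl
        have h2 : p.toSubmodule ⊔ q.toSubmodule = ⊤ := by
          rw [← Subrepresentation.toSubmodule_sup, hpq.sup_eq_top]; rfl
        exact IsCompl.of_eq h1 h2
      have hfr := Submodule.finrank_add_eq_of_isCompl hcompl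
      have hp_pos : 0 < Module.finrank K p.toSubmodule := by
        rw [Nat.pos_iff_ne_zero, Ne, Submodule.finrank_eq_zero]
        intro h
        apply hp0
        exact Subrepresentation.toSubmodule_injective h
      have hq0 : q ≠ ⊥ := by
        rintro rfl
        apply hp1
        have := hpq.sup_eq_top
        rwa [sup_bot_eq] at this
      have hq_pos : 0 < Module.finrank K q.toSubmodule := by
        rw [Nat.pos_iff_ne_zero, Ne, Submodule.finrank_eq_zero]
        intro h
        apply hq0
        exact Subrepresentation.toSubmodule_injective h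
      rw [kchar_compl ι ρ p q hcompl, classInner_add_left] at hne
      by_cases h1 : classInner (kchar ι p.toRepresentation) χ = 0
      · have h2 : classInner (kchar ι q.toRepresentation) χ ≠ 0 := by
          intro h2; apply hne; rw [h1, h2, add_zero]
        exact ih _ q.toRepresentation (by omega) h2
      · exact ih _ p.toRepresentation (by omega) h1

/-- the set of complex characters afforded by `K`-representations. -/
def kcharSet (G : Type u) [Group G] : Set (G → ℂ) :=
  {φ | ∃ (V : Type u) (_ : AddCommGroup V) (_ : Module K V) (_ : Module.Finite K V)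
    (ρ : Representation K G V), φ = kchar ι ρ}

theorem zero_mem_kcharSet : (0 : G → ℂ) ∈ kcharSet ι G :=
  ⟨PUnit.{u+1}, inferInstance, inferInstance, inferInstance, Representation.trivial K G PUnit.{u+1},
    (kchar_eq_zero_of_subsingleton ι _).symm⟩

theorem add_mem_kcharSet {φ ψ : G → ℂ} (hφ : φ ∈ kcharSet ι G) (hψ : ψ ∈ kcharSet ι G) :
    φ + ψ ∈ kcharSet ι G := by
  obtain ⟨V, _, _, _, ρ, rfl⟩ := hφ
  obtain ⟨W, _, _, _, σ, rfl⟩ := hψ
  exact ⟨V × W, inferInstance, inferInstance, inferInstance, ρ.prod σ, (kchar_prod ι ρ σ).symm⟩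

theorem nsmul_mem_kcharSet {φ : G → ℂ} (hφ : φ ∈ kcharSet ι G) (m : ℕ) :
    (m : ℂ) • φ ∈ kcharSet ι G := by
  induction m with
  | zero => simpa using zero_mem_kcharSet ι
  | succ m ih =>
    have : ((m + 1 : ℕ) : ℂ) • φ = (m : ℂ) • φ + φ := by
      push_cast
      rw [add_smul, one_smul]
    rw [this]
    exact add_mem_kcharSet ι ih hφ

theorem sum_mem_kcharSet {α : Type*} (s : Finset α) (F : α → G → ℂ)
    (h : ∀ a ∈ s, F a ∈ kcharSet ι G) : ∑ a ∈ s, F a ∈ kcharSet ι G := by
  classical
  induction s using Finset.induction_on with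
  | empty => simpa using zero_mem_kcharSet ι
  | insert a s ha ih =>
    rw [Finset.sum_insert ha]
    exact add_mem_kcharSet ι (h a (Finset.mem_insert_self a s))
      (ih (fun b hb => h b (Finset.mem_insert_of_mem hb)))

/-- if every irreducible complex character is a `ℤ`-combination of characters of
`K`-representations, then every irreducible `K`-representation is absolutely irreducible. -/
theorem irr_of_irr [Fintype G]
    (hB : ∀ χ : IrrCharacter G, (χ : G → ℂ) ∈ Submodule.span ℤ (kcharSet ι G))
    {W : Type u} [AddCommGroup W] [Module K W] [Module.Finite K W]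
    (σ : Representation K G W) [hσ : σ.IsIrreducible] : IsIrrCharacter G (kchar ι σ) := by
  classical
  haveI : CharZero K := RingHom.charZero ι
  set d := Module.finrank K (Representation.IntertwiningMap σ σ) with hd
  have hdd : classInner (kchar ι σ) (kchar ι σ) = (d : ℂ) := classInner_kchar ι σ σ
  have hchar := isCharacter_kchar ι σ
  have hcl := isClassFunction_of_isCharacter hchar
  -- W is nontrivial
  have hWnt : Nontrivial W := by
    by_contra hnt
    rw [not_nontrivial_iff_subsingleton] at hnt
    obtain ⟨p, q, hpq⟩ := (inferInstance : Nontrivial (Subrepresentation σ))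
    apply hpq
    apply Subrepresentation.toSubmodule_injective
    exact Subsingleton.elim _ _
  have hd0 : d ≠ 0 := by
    intro h0
    rw [h0, Nat.cast_zero, classInner_self_eq_zero_iff] at hdd
    have h1 := kchar_one ι σ
    rw [hdd] at h1
    have h2 : Module.finrank K W = 0 := by
      have : ((Module.finrank K W : ℕ) : ℂ) = 0 := h1.symm
      exact_mod_cast this
    have := Module.finrank_pos (R := K) (M := W)
    omega
  -- divisibility of inner products with span elements
  have hdiv : ∀ ψ ∈ Submodule.span ℤ (kcharSet ι G),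
      ∃ k : ℤ, classInner (kchar ι σ) ψ = (d : ℂ) * (k : ℂ) := by
    intro ψ hψ
    induction hψ using Submodule.span_induction with
    | mem ψ hψ =>
      obtain ⟨V, _, _, _, ρ, rfl⟩ := hψ
      obtain ⟨k, hk⟩ := finrank_end_dvd ρ σ
      refine ⟨(k : ℤ), ?_⟩
      rw [classInner_kchar, hk]
      push_cast
      rfl
    | zero => exact ⟨0, by rw [classInner_zero_right]; simp⟩
    | add ψ₁ ψ₂ _ _ h1 h2 =>
      obtain ⟨k1, hk1⟩ := h1
      obtain ⟨k2, hk2⟩ := h2
      refine ⟨k1 + k2, ?_⟩
      rw [classInner_add_right, hk1, hk2]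
      push_cast
      ring
    | smul c ψ _ h1 =>
      obtain ⟨k1, hk1⟩ := h1
      refine ⟨c * k1, ?_⟩
      have : c • ψ = (c : ℂ) • ψ := by
        funext g
        simp
      rw [this, classInner_smul_right, hk1, map_intCast]
      push_cast
      ring
  have hk : ∀ χ : IrrCharacter G, ∃ k : ℤ,
      classInner (kchar ι σ) (χ : G → ℂ) = (d : ℂ) * (k : ℂ) := fun χ => hdiv _ (hB χ)
  choose k hk using hk
  have hpar := classInner_eq_sum_mul hcl (kchar ι σ)
  rw [hdd] at hpar
  have hpar2 : (d : ℂ) = ((d * d * ∑ χ : IrrCharacter G, k χ * k χ : ℤ) : ℂ) := by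
    rw [hpar]
    push_cast
    rw [Finset.mul_sum]
    apply Finset.sum_congr rfl
    intro χ _
    rw [hk χ, map_mul, map_natCast, map_intCast]
    ring
  have hpar3 : (d : ℤ) = d * d * ∑ χ : IrrCharacter G, k χ * k χ := by
    exact_mod_cast hpar2
  have hd1 : (d : ℤ) * ((d : ℤ) * ∑ χ : IrrCharacter G, k χ * k χ) = (d : ℤ) * 1 := by
    rw [mul_one, ← mul_assoc]; exact hpar3.symm
  have hd2 : (d : ℤ) * ∑ χ : IrrCharacter G, k χ * k χ = 1 :=
    mul_left_cancel₀ (by exact_mod_cast hd0) hd1
  have hd3 : (d : ℤ) = 1 := Int.eq_one_of_mul_eq_one_right (by positivity) hd2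
  have hd4 : d = 1 := by exact_mod_cast hd3
  apply isIrrCharacter_of_classInner_self hchar
  rw [hdd, hd4, Nat.cast_one]

/-- if every irreducible complex character is a `ℤ`-combination of characters of
`K`-representations, then every irreducible complex character is afforded by a
`K`-representation. -/
theorem irr_mem_kcharSet [Fintype G]
    (hB : ∀ χ : IrrCharacter G, (χ : G → ℂ) ∈ Submodule.span ℤ (kcharSet ι G))
    (χ : IrrCharacter G) : (χ : G → ℂ) ∈ kcharSet ι G := by
  classical
  have hex : ∃ ψ ∈ kcharSet ι G, classInner ψ (χ : G → ℂ) ≠ 0 := by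
    by_contra hno
    push Not at hno
    have hall : ∀ ψ ∈ Submodule.span ℤ (kcharSet ι G), classInner ψ (χ : G → ℂ) = 0 := by
      intro ψ hψ
      induction hψ using Submodule.span_induction with
      | mem ψ hψ => exact hno ψ hψ
      | zero => exact classInner_zero_left _
      | add ψ₁ ψ₂ _ _ h1 h2 => rw [classInner_add_left, h1, h2, add_zero]
      | smul c ψ _ h1 =>
        have : c • ψ = (c : ℂ) • ψ := by
          funext g
          simp
        rw [this, classInner_smul_left, h1, mul_zero]
    have h1 := hall _ (hB χ)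
    rw [classInner_irr_irr, if_pos rfl] at h1
    exact one_ne_zero h1
  obtain ⟨ψ, ⟨V, _, _, _, ρ, rfl⟩, hne⟩ := hex
  obtain ⟨W, _, _, _, σ, hσ, hne'⟩ :=
    exists_irr_constituent ι (χ : G → ℂ) (Module.finrank K V) V ρ le_rfl hne
  have hirr : IsIrrCharacter G (kchar ι σ) := irr_of_irr ι hB σ
  have h2 := classInner_irr_irr ⟨kchar ι σ, hirr⟩ χ
  by_cases heq : (⟨kchar ι σ, hirr⟩ : IrrCharacter G) = χ
  · exact ⟨W, inferInstance, inferInstance, inferInstance, σ, (congrArg Subtype.val heq).symm⟩
  · rw [if_neg heq] at h2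
    exact absurd h2 hne'

/-- if every irreducible complex character is a `ℤ`-combination of characters of
`K`-representations, then every complex character is afforded by a `K`-representation. -/
theorem char_mem_kcharSet [Fintype G]
    (hB : ∀ χ : IrrCharacter G, (χ : G → ℂ) ∈ Submodule.span ℤ (kcharSet ι G))
    {θ : G → ℂ} (hθ : IsCharacter G θ) : θ ∈ kcharSet ι G := by
  classical
  rw [classFun_eq_sum_classInner (isClassFunction_of_isCharacter hθ)]
  apply sum_mem_kcharSet
  intro χ _
  obtain ⟨m, hm⟩ := classInner_char_nat hθ (isCharacter_of_isIrrCharacter χ.2)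
  rw [hm]
  exact nsmul_mem_kcharSet ι (irr_mem_kcharSet ι hB χ) m

end KRep

section Monomial

variable {G : Type u} [Group G]

/-- a group is in bijection with (cosets) × (subgroup), via the section `Quotient.out`. -/
noncomputable def cosetEquiv (E : Subgroup G) : (G ⧸ E) × E ≃ G where
  toFun p := Quotient.out p.1 * (p.2 : G)
  invFun y := ((y : G ⧸ E), ⟨(Quotient.out (y : G ⧸ E))⁻¹ * y,
    QuotientGroup.eq.mp (QuotientGroup.out_eq' (y : G ⧸ E))⟩)
  left_inv := by
    rintro ⟨x, e⟩
    have h1 : ((Quotient.out x * (e : G) : G) : G ⧸ E) = x := by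
      rw [QuotientGroup.mk_mul_of_mem _ e.2]; exact QuotientGroup.out_eq' x
    apply Prod.ext
    · exact h1
    · apply Subtype.ext
      show (Quotient.out ((Quotient.out x * (e : G) : G) : G ⧸ E))⁻¹ * (Quotient.out x * (e : G))
        = (e : G)
      rw [h1, inv_mul_cancel_left]
  right_inv := by
    intro y
    show Quotient.out (y : G ⧸ E) * ((Quotient.out (y : G ⧸ E))⁻¹ * y) = y
    rw [mul_inv_cancel_left]

theorem cosetEquiv_apply (E : Subgroup G) (x : G ⧸ E) (e : E) :
    cosetEquiv E (x, e) = Quotient.out x * (e : G) := rfl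

variable [Fintype G] {K : Type} [Field K] (ι : K →+* ℂ)

/-- the function induced from a linear character with values in (the image of) `K` is the
character of a (monomial) `K`-representation. -/
theorem ind_mem_kcharSet (E : Subgroup G) (lam : E →* ℂˣ)
    (hlam : ∀ e : E, ∃ k : K, ι k = ((lam e : ℂˣ) : ℂ)) :
    indFun E (fun e => ((lam e : ℂˣ) : ℂ)) ∈ kcharSet ι G := by
  classical
  haveI : Fintype (G ⧸ E) := Fintype.ofFinite _
  haveI : Fintype E := Fintype.ofFinite _
  obtain ⟨f, hf⟩ : ∃ f : E → ℂ, f = fun e => ((lam e : ℂˣ) : ℂ) := ⟨_, rfl⟩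
  rw [← hf]
  obtain ⟨lz, hlz⟩ : ∃ lz : G → ℂ, lz = extendByZero E f := ⟨_, rfl⟩
  have hmu_ex : ∀ g : G, ∃ k : K, ι k = lz g := by
    intro g
    by_cases hg : g ∈ E
    · obtain ⟨k, hk⟩ := hlam ⟨g, hg⟩
      exact ⟨k, by rw [hk, hlz, extendByZero_of_mem E f hg, hf]⟩
    · exact ⟨0, by rw [map_zero, hlz, extendByZero_of_not_mem E f hg]⟩
  choose mu hmu using hmu_ex
  have hinj : Function.Injective ι := ι.injective
  have lz_one : lz 1 = 1 := by
    rw [hlz, extendByZero_of_mem E f E.one_mem, hf]
    show ((lam ⟨1, E.one_mem⟩ : ℂˣ) : ℂ) = 1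
    have : (⟨1, E.one_mem⟩ : E) = 1 := rfl
    rw [this, map_one]; rfl
  have lz_mul : ∀ u w : G, w ∈ E → lz (u * w) = lz u * lz w := by
    intro u w hw
    by_cases hu : u ∈ E
    · rw [hlz, extendByZero_of_mem E f (E.mul_mem hu hw), extendByZero_of_mem E f hu,
        extendByZero_of_mem E f hw, hf]
      show ((lam ⟨u * w, _⟩ : ℂˣ) : ℂ) = ((lam ⟨u, hu⟩ : ℂˣ) : ℂ) * ((lam ⟨w, hw⟩ : ℂˣ) : ℂ)
      have : (⟨u * w, E.mul_mem hu hw⟩ : E) = ⟨u, hu⟩ * ⟨w, hw⟩ := rfl
      rw [this, map_mul]; rfl
    · have huw : u * w ∉ E := fun h => hu (by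
        have := E.mul_mem h (E.inv_mem hw)
        simpa using this)
      rw [hlz, extendByZero_of_not_mem E f huw, extendByZero_of_not_mem E f hu, zero_mul]
  have lz_conj : ∀ (u : G) (e : G), e ∈ E → lz (e⁻¹ * u * e) = lz u := by
    intro u e he
    by_cases hu : u ∈ E
    · have h1 : e⁻¹ * u * e ∈ E := E.mul_mem (E.mul_mem (E.inv_mem he) hu) he
      rw [hlz, extendByZero_of_mem E f h1, extendByZero_of_mem E f hu, hf]
      show ((lam ⟨e⁻¹ * u * e, h1⟩ : ℂˣ) : ℂ) = ((lam ⟨u, hu⟩ : ℂˣ) : ℂ)
      have : (⟨e⁻¹ * u * e, h1⟩ : E) = (⟨e, he⟩ : E)⁻¹ * ⟨u, hu⟩ * ⟨e, he⟩ := rfl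
      rw [this, map_mul, map_mul, map_inv, mul_comm, ← mul_assoc, mul_inv_cancel, one_mul]
    · have h1 : e⁻¹ * u * e ∉ E := fun h => hu (by
        have := E.mul_mem (E.mul_mem he h) (E.inv_mem he)
        simpa [mul_assoc] using this)
      rw [hlz, extendByZero_of_not_mem E f h1, extendByZero_of_not_mem E f hu]
  have hout : ∀ x : G ⧸ E, ((Quotient.out x : G) : G ⧸ E) = x := fun x => QuotientGroup.out_eq' x
  have hmemE : ∀ (y : G ⧸ E) (a : G), (Quotient.out y)⁻¹ * a ∈ E ↔ y = (a : G ⧸ E) := by
    intro y a
    rw [← QuotientGroup.eq, hout]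
  let A : G → Matrix (G ⧸ E) (G ⧸ E) K := fun g =>
    Matrix.of (fun y x => mu ((Quotient.out y)⁻¹ * g * Quotient.out x))
  have hA_one : A 1 = 1 := by
    ext y x
    show mu ((Quotient.out y)⁻¹ * 1 * Quotient.out x) = (1 : Matrix _ _ K) y x
    apply hinj
    rw [hmu, mul_one, Matrix.one_apply]
    by_cases hyx : y = x
    · subst hyx
      rw [if_pos rfl, inv_mul_cancel, lz_one, map_one]
    · rw [if_neg hyx, map_zero, hlz]
      apply extendByZero_of_not_mem
      intro h
      apply hyx
      rw [(hmemE y _).mp h, hout]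
  have hA_mul : ∀ g g' : G, A (g * g') = A g * A g' := by
    intro g g'
    ext z x
    rw [Matrix.mul_apply]
    show mu ((Quotient.out z)⁻¹ * (g * g') * Quotient.out x) =
      ∑ y : G ⧸ E, mu ((Quotient.out z)⁻¹ * g * Quotient.out y) *
        mu ((Quotient.out y)⁻¹ * g' * Quotient.out x)
    obtain ⟨y₀, hy₀⟩ : ∃ y₀ : G ⧸ E, y₀ = ((g' * Quotient.out x : G) : G ⧸ E) := ⟨_, rfl⟩
    have hw : (Quotient.out y₀)⁻¹ * g' * Quotient.out x ∈ E := by
      rw [mul_assoc, hmemE]; exact hy₀
    have hsum : ∑ y : G ⧸ E, mu ((Quotient.out z)⁻¹ * g * Quotient.out y) *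
        mu ((Quotient.out y)⁻¹ * g' * Quotient.out x) =
        mu ((Quotient.out z)⁻¹ * g * Quotient.out y₀) *
          mu ((Quotient.out y₀)⁻¹ * g' * Quotient.out x) := by
      apply Finset.sum_eq_single y₀
      · intro y _ hy
        have : mu ((Quotient.out y)⁻¹ * g' * Quotient.out x) = 0 := by
          apply hinj
          rw [hmu, map_zero, hlz]
          apply extendByZero_of_not_mem
          intro h
          apply hy
          rw [mul_assoc, hmemE] at h
          rw [h, hy₀]
        rw [this, mul_zero]
      · intro h; exact absurd (Finset.mem_univ _) h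
    rw [hsum]
    apply hinj
    rw [map_mul, hmu, hmu, hmu, ← lz_mul _ _ hw]
    congr 1
    group
  let Ahom : G →* Matrix (G ⧸ E) (G ⧸ E) K :=
    { toFun := A, map_one' := hA_one, map_mul' := hA_mul }
  let ρ : Representation K G ((G ⧸ E) → K) :=
    ((Matrix.toLinAlgEquiv' : Matrix (G ⧸ E) (G ⧸ E) K ≃ₐ[K] _).toAlgHom.toRingHom.toMonoidHom).comp
      Ahom
  refine ⟨(G ⧸ E) → K, inferInstance, inferInstance, inferInstance, ρ, ?_⟩
  funext g
  show indFun E f g = ι (LinearMap.trace K _ (Matrix.toLin' (A g)))
  rw [Matrix.trace_toLin'_eq, Matrix.trace, map_sum, indFun_apply]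
  rw [← (cosetEquiv E).sum_comp, Fintype.sum_prod_type]
  have h1 : ∀ x : G ⧸ E, ∑ e : E, extendByZero E f
      (((cosetEquiv E) (x, e))⁻¹ * g * (cosetEquiv E) (x, e)) =
        (Nat.card E : ℂ) * lz ((Quotient.out x)⁻¹ * g * Quotient.out x) := by
    intro x
    have h2 : ∀ e : E, extendByZero E f
        (((cosetEquiv E) (x, e))⁻¹ * g * (cosetEquiv E) (x, e)) =
          lz ((Quotient.out x)⁻¹ * g * Quotient.out x) := by
      intro e
      have : ((cosetEquiv E) (x, e))⁻¹ * g * (cosetEquiv E) (x, e) =
          (e : G)⁻¹ * ((Quotient.out x)⁻¹ * g * Quotient.out x) * (e : G) := by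
        rw [cosetEquiv_apply]
        group
      rw [this, ← hlz]
      exact lz_conj _ _ e.2
    rw [Finset.sum_congr rfl (fun e _ => h2 e), Finset.sum_const, Finset.card_univ,
      nsmul_eq_mul, Nat.card_eq_fintype_card]
  rw [Finset.sum_congr rfl (fun x _ => h1 x), ← Finset.mul_sum, ← mul_assoc,
    inv_mul_cancel₀ (by exact_mod_cast (Nat.card_pos (α := E)).ne'), one_mul]
  apply Finset.sum_congr rfl
  intro x _
  rw [Matrix.diag_apply]
  exact (hmu _).symm

end Monomial

end Cfsg.Agent.Helper2
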