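import Mathlib
import Cfsg.Agent.Helper2.Conj

set_option autoImplicit false

open scoped Pointwise

namespace Cfsg.Agent.Helper2

variable {G : Type*} [Group G]

theorem mem_conj_smul_subgroup_iff (h x : G) (H : Subgroup G) :
    x ∈ MulAut.conj h • H ↔ h⁻¹ * x * h ∈ H := by
  rw [Subgroup.mem_pointwise_smul_iff_inv_smul_mem]
  simp [MulAut.smul_def]

theorem mem_smul_sylow_iff {p : ℕ} (h x : G) (P : Sylow p G) :
    x ∈ h • P ↔ h⁻¹ * x * h ∈ P := by
  have : x ∈ h • P ↔ x ∈ MulAut.conj h • (P : Subgroup G) := Iff.rfl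
  rw [this, mem_conj_smul_subgroup_iff]
  rfl

/-- the group generated by two involutions whose product has 2-power order is a 2-group -/
theorem isPGroup_closure_pair (x y : G) (hx : orderOf x = 2) (hy : orderOf y = 2) (k : ℕ)
    (hk : (x * y) ^ (2 ^ k) = 1) : IsPGroup 2 (Subgroup.closure ({x, y} : Set G)) := by
  intro d
  obtain ⟨i, hi | hi⟩ := mem_closure_pair x y hx hy d.1 d.2
  · refine ⟨k, ?_⟩
    apply Subtype.ext
    rw [Subgroup.coe_pow, hi, ← zpow_natCast, ← zpow_mul, mul_comm, zpow_mul, zpow_natCast, hk,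
      Subgroup.coe_one, one_zpow]
  · refine ⟨1, ?_⟩
    apply Subtype.ext
    rw [Subgroup.coe_pow, hi, pow_one, pow_two, Subgroup.coe_one]
    calc (x * y) ^ i * x * ((x * y) ^ i * x) = (x * y) ^ i * (x * (x * y) ^ i) * x := by
          simp [mul_assoc]
      _ = (x * y) ^ i * ((x * y) ^ (-i) * x) * x := by rw [invol_mul_zpow x y hx hy i]
      _ = (x * y) ^ i * (x * y) ^ (-i) * (x * x) := by simp [mul_assoc]
      _ = 1 := by rw [sq_of_orderOf_two hx, mul_one, ← zpow_add, add_neg_cancel, zpow_zero]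

/-- two commuting involutions lie in a common Sylow 2-subgroup -/
theorem exists_sylow_of_commute [Finite G] (x y : G) (hx : orderOf x = 2) (hy : orderOf y = 2)
    (hc : Commute x y) : ∃ Q : Sylow 2 G, x ∈ Q ∧ y ∈ Q := by
  have hk : (x * y) ^ (2 ^ 1) = 1 := by
    rw [pow_one, pow_two]
    calc x * y * (x * y) = x * (y * x) * y := by simp [mul_assoc]
      _ = x * (x * y) * y := by rw [hc.eq]
      _ = (x * x) * (y * y) := by simp [mul_assoc]
      _ = 1 := by rw [sq_of_orderOf_two hx, sq_of_orderOf_two hy, one_mul]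
  obtain ⟨Q, hQ⟩ := (isPGroup_closure_pair x y hx hy 1 hk).exists_le_sylow
  exact ⟨Q, hQ (x_mem_closure_pair x y), hQ (y_mem_closure_pair x y)⟩

/-- an involution `u` that is the only conjugate of itself in a Sylow 2-subgroup `P` is the only
conjugate of itself commuting with `u`. -/
theorem eq_of_isolated [Finite G] (P : Sylow 2 G) (u : G) (hu : orderOf u = 2)
    (hiso : ∀ g : G, g * u * g⁻¹ ∈ P → g * u * g⁻¹ = u) (w : G)
    (hconj : IsConj u w) (hcomm : Commute u w) : w = u := by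
  haveI : Fact (Nat.Prime 2) := ⟨Nat.prime_two⟩
  have hw : orderOf w = 2 := by rw [IsConj.orderOf_eq' hconj, hu]
  obtain ⟨Q, huQ, hwQ⟩ := exists_sylow_of_commute u w hu hw hcomm
  obtain ⟨h, hh⟩ := MulAction.exists_smul_eq G P Q
  rw [← hh, mem_smul_sylow_iff] at huQ hwQ
  obtain ⟨c, hc⟩ := isConj_iff.mp hconj
  have h1 : h⁻¹ * u * h = u := by
    have := hiso h⁻¹
    rw [inv_inv] at this
    exact this huQ
  have h2 : h⁻¹ * w * h = u := by
    have := hiso (h⁻¹ * c)
    have e : h⁻¹ * c * u * (h⁻¹ * c)⁻¹ = h⁻¹ * w * h := by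
      rw [← hc]; simp [mul_assoc]
    rw [e] at this
    exact this hwQ
  have h3 : h⁻¹ * w * h = h⁻¹ * u * h := by rw [h1, h2]
  exact mul_left_cancel (mul_right_cancel h3)

end Cfsg.Agent.Helper2
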