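import Mathlib

/-!
# Unipotent elements and Sylow `p`-subgroups of `GL₂(F)` and `SL₂(F)` in characteristic `p`
(helper2)

The Sylow `p`-subgroups are exactly the groups `glFix v` (resp. `slFix v`) of determinant-one
matrices fixing a nonzero vector `v`.
-/

set_option autoImplicit false

namespace Cfsg.Agent.Helper2

open Matrix

variable {F : Type*} [Field F]

/-- a determinant one `2 × 2` matrix fixing a nonzero vector is unipotent. -/
lemma unip_sq_zero (M : Matrix (Fin 2) (Fin 2) F) (hdet : M.det = 1) (v : Fin 2 → F)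
    (hv : v ≠ 0) (hMv : M *ᵥ v = v) : (M - 1) * (M - 1) = 0 := by
  have h0 : (M - 1).det = 0 := by
    rw [← Matrix.exists_mulVec_eq_zero_iff]
    exact ⟨v, hv, by rw [Matrix.sub_mulVec, hMv, Matrix.one_mulVec, sub_self]⟩
  rw [Matrix.det_fin_two] at hdet h0
  simp only [Matrix.sub_apply, Matrix.one_apply_eq, Matrix.one_apply_ne, ne_eq, Fin.isValue,
    zero_ne_one, one_ne_zero, not_false_eq_true, sub_zero] at h0
  ext i j
  fin_cases i <;> fin_cases j <;>
    simp [Matrix.mul_apply, Fin.sum_univ_two]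
  · linear_combination (M 0 0) * (hdet - h0) - hdet
  · linear_combination (M 0 1) * (hdet - h0)
  · linear_combination (M 1 0) * (hdet - h0)
  · linear_combination (M 1 1) * (hdet - h0) - hdet

/-- a unipotent matrix in characteristic `p` has order dividing `p`. -/
lemma unip_pow_char (p : ℕ) [Fact p.Prime] [CharP F p] (M : Matrix (Fin 2) (Fin 2) F)
    (h : (M - 1) * (M - 1) = 0) : M ^ p = 1 := by
  have h1 : M = (M - 1) + 1 := by abel
  have h2 : (M - 1) ^ p = 0 := by
    apply pow_eq_zero_of_le (Fact.out : p.Prime).two_le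
    rw [pow_two]; exact h
  rw [h1, add_pow_char_of_commute p (Commute.one_right _), h2, one_pow, zero_add]

/-- a finite `p`-group of `2 × 2` matrices in characteristic `p` fixes a nonzero vector. -/
lemma exists_fixed_vec [Finite F] (p : ℕ) [Fact p.Prime] [CharP F p] {P : Type*} [Group P]
    [Finite P] (hP : IsPGroup p P) (φ : P →* Matrix (Fin 2) (Fin 2) F) :
    ∃ v : Fin 2 → F, v ≠ 0 ∧ ∀ g, φ g *ᵥ v = v := by
  classical
  letI : MulAction P (Fin 2 → F) :=
    { smul := fun g v => φ g *ᵥ v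
      one_smul := fun v => by show φ 1 *ᵥ v = v; rw [map_one, Matrix.one_mulVec]
      mul_smul := fun g h v => by
        show φ (g * h) *ᵥ v = φ g *ᵥ (φ h *ᵥ v)
        rw [map_mul, Matrix.mulVec_mulVec] }
  have hcard : p ∣ Nat.card (Fin 2 → F) := by
    haveI := Fintype.ofFinite F
    obtain ⟨n, -, hn⟩ := FiniteField.card F p
    rw [Nat.card_eq_fintype_card, Fintype.card_fun, hn, Fintype.card_fin]
    exact dvd_pow (dvd_pow_self p n.ne_zero) two_ne_zero
  have h0 : (0 : Fin 2 → F) ∈ MulAction.fixedPoints P (Fin 2 → F) := by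
    intro g
    show φ g *ᵥ 0 = 0
    exact Matrix.mulVec_zero _
  obtain ⟨b, hb, hb0⟩ := hP.exists_fixed_point_of_prime_dvd_card_of_fixed_point _ hcard h0
  exact ⟨b, fun h => hb0 h.symm, fun g => hb g⟩

/-- in characteristic `p`, an element of `p`-power order is `1`. -/
lemma eq_one_of_pow_char_pow (p : ℕ) [Fact p.Prime] [CharP F p] (x : F) (k : ℕ)
    (h : x ^ p ^ k = 1) : x = 1 := by
  have h1 : (x - 1) ^ p ^ k = 0 := by
    rw [sub_pow_char_pow, h, one_pow, sub_self]
  exact sub_eq_zero.mp (pow_eq_zero_iff (pow_ne_zero _ (Fact.out : p.Prime).ne_zero) |>.mp h1)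

/-- proportional vectors in the plane -/
lemma exists_smul_eq_of_det (v w : Fin 2 → F) (hw : w ≠ 0) (h : v 0 * w 1 = v 1 * w 0) :
    ∃ a : F, a • w = v := by
  by_cases hw0 : w 0 = 0
  · have hw1 : w 1 ≠ 0 := by
      intro h1; apply hw; ext i; fin_cases i <;> simp [hw0, h1]
    have hv0 : v 0 = 0 := by
      rw [hw0, mul_zero] at h
      exact (mul_eq_zero.mp h).resolve_right hw1
    refine ⟨v 1 / w 1, ?_⟩
    ext i; fin_cases i
    · simp [hw0, hv0]
    · simp; field_simp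
  · refine ⟨v 0 / w 0, ?_⟩
    ext i; fin_cases i
    · simp; field_simp
    · simp; field_simp; linear_combination h

/-! ### `GL₂` -/

/-- the subgroup of `GL₂(F)` of determinant one matrices fixing `v`. -/
def glFix (v : Fin 2 → F) : Subgroup (GL (Fin 2) F) where
  carrier := {g | (g : Matrix (Fin 2) (Fin 2) F) *ᵥ v = v ∧
    (g : Matrix (Fin 2) (Fin 2) F).det = 1}
  mul_mem' := by
    rintro a b ⟨ha, ha'⟩ ⟨hb, hb'⟩
    refine ⟨?_, ?_⟩
    · rw [Units.val_mul, ← Matrix.mulVec_mulVec, hb, ha]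
    · rw [Units.val_mul, Matrix.det_mul, ha', hb', one_mul]
  one_mem' := ⟨by simp, by simp⟩
  inv_mem' := by
    rintro a ⟨ha, ha'⟩
    refine ⟨?_, ?_⟩
    · conv_lhs => rw [← ha]
      rw [Matrix.mulVec_mulVec, ← Units.val_mul, inv_mul_cancel, Units.val_one,
        Matrix.one_mulVec]
    · have : (a⁻¹ : GL (Fin 2) F).val.det * a.val.det = 1 := by
        rw [← Matrix.det_mul, ← Units.val_mul, inv_mul_cancel, Units.val_one, Matrix.det_one]
      rw [ha', mul_one] at this; exact this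

lemma mem_glFix {v : Fin 2 → F} {g : GL (Fin 2) F} :
    g ∈ glFix v ↔ (g : Matrix (Fin 2) (Fin 2) F) *ᵥ v = v ∧
      (g : Matrix (Fin 2) (Fin 2) F).det = 1 := Iff.rfl

lemma glFix_isPGroup (p : ℕ) [Fact p.Prime] [CharP F p] (v : Fin 2 → F) (hv : v ≠ 0) :
    IsPGroup p (glFix v) := by
  rintro ⟨g, hg⟩
  refine ⟨1, ?_⟩
  apply Subtype.ext
  apply Units.ext
  simp only [pow_one, SubmonoidClass.mk_pow, Units.val_pow_eq_pow_val, OneMemClass.coe_one,
    Units.val_one]
  exact unip_pow_char p _ (unip_sq_zero _ hg.2 v hv hg.1)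

lemma glFix_smul (v : Fin 2 → F) (a : F) (ha : a ≠ 0) : glFix (a • v) = glFix v := by
  ext g
  simp only [mem_glFix, Matrix.mulVec_smul]
  constructor
  · rintro ⟨h1, h2⟩
    exact ⟨smul_right_injective _ ha h1, h2⟩
  · rintro ⟨h1, h2⟩
    exact ⟨by rw [h1], h2⟩

/-- every Sylow `p`-subgroup of `GL₂(F)` is some `glFix v`. -/
lemma sylow_eq_glFix [Finite F] (p : ℕ) [Fact p.Prime] [CharP F p]
    (P : Sylow p (GL (Fin 2) F)) : ∃ v : Fin 2 → F, v ≠ 0 ∧ (P : Subgroup (GL (Fin 2) F)) = glFix v := by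
  haveI := Fintype.ofFinite F
  obtain ⟨v, hv, hfix⟩ := exists_fixed_vec p P.isPGroup'
    ((Units.coeHom (Matrix (Fin 2) (Fin 2) F)).comp (P : Subgroup (GL (Fin 2) F)).subtype)
  refine ⟨v, hv, ?_⟩
  have hle : (P : Subgroup (GL (Fin 2) F)) ≤ glFix v := by
    intro g hg
    refine ⟨hfix ⟨g, hg⟩, ?_⟩
    obtain ⟨k, hk⟩ := P.isPGroup' ⟨g, hg⟩
    have hk' : g ^ p ^ k = 1 := by
      have := congrArg Subtype.val hk
      simpa using this
    apply eq_one_of_pow_char_pow p _ k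
    rw [← Matrix.det_pow, ← Units.val_pow_eq_pow_val, hk', Units.val_one, Matrix.det_one]
  exact (P.is_maximal' (glFix_isPGroup p v hv) hle).symm

/-- a nontrivial element of `GL₂` fixing two vectors forces them to be proportional. -/
lemma det_eq_of_fix_two (g : GL (Fin 2) F) (hg : g ≠ 1) (v w : Fin 2 → F)
    (hv : (g : Matrix (Fin 2) (Fin 2) F) *ᵥ v = v)
    (hw : (g : Matrix (Fin 2) (Fin 2) F) *ᵥ w = w) : v 0 * w 1 = v 1 * w 0 := by
  by_contra hD
  have hD' : v 0 * w 1 - v 1 * w 0 ≠ 0 := sub_ne_zero.mpr hD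
  apply hg
  have hv0 := congrFun hv 0
  have hv1 := congrFun hv 1
  have hw0 := congrFun hw 0
  have hw1 := congrFun hw 1
  simp only [Matrix.mulVec, dotProduct, Fin.sum_univ_two] at hv0 hv1 hw0 hw1
  apply Matrix.GeneralLinearGroup.ext
  intro i j
  have e00 : ((g : Matrix (Fin 2) (Fin 2) F) 0 0 - 1) * (v 0 * w 1 - v 1 * w 0) = 0 := by
    linear_combination (w 1) * hv0 - (v 1) * hw0
  have e01 : ((g : Matrix (Fin 2) (Fin 2) F) 0 1) * (v 0 * w 1 - v 1 * w 0) = 0 := by
    linear_combination (v 0) * hw0 - (w 0) * hv0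
  have e10 : ((g : Matrix (Fin 2) (Fin 2) F) 1 0) * (v 0 * w 1 - v 1 * w 0) = 0 := by
    linear_combination (w 1) * hv1 - (v 1) * hw1
  have e11 : ((g : Matrix (Fin 2) (Fin 2) F) 1 1 - 1) * (v 0 * w 1 - v 1 * w 0) = 0 := by
    linear_combination (v 0) * hw1 - (w 0) * hv1
  have f00 := (mul_eq_zero.mp e00).resolve_right hD'
  have f01 := (mul_eq_zero.mp e01).resolve_right hD'
  have f10 := (mul_eq_zero.mp e10).resolve_right hD'
  have f11 := (mul_eq_zero.mp e11).resolve_right hD'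
  fin_cases i <;> fin_cases j
  · simpa using sub_eq_zero.mp f00
  · simpa using f01
  · simpa using f10
  · simpa using sub_eq_zero.mp f11

/-- the standard nontrivial element of `glFix v`. -/
lemma glFix_le_det [DecidableEq F] (v w : Fin 2 → F) (hv : v ≠ 0) (h : glFix v ≤ glFix w) :
    v 0 * w 1 = v 1 * w 0 := by
  have hdet : (!![1 - v 0 * v 1, v 0 * v 0; -(v 1 * v 1), 1 + v 1 * v 0] :
      Matrix (Fin 2) (Fin 2) F).det = 1 := by
    rw [Matrix.det_fin_two_of]; ring
  have hne : (!![1 - v 0 * v 1, v 0 * v 0; -(v 1 * v 1), 1 + v 1 * v 0] :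
      Matrix (Fin 2) (Fin 2) F).det ≠ 0 := by rw [hdet]; exact one_ne_zero
  have hmem : Matrix.GeneralLinearGroup.mkOfDetNeZero _ hne ∈ glFix v := by
    refine ⟨?_, hdet⟩
    ext i; fin_cases i
    · simp [Matrix.mulVec, dotProduct, Fin.sum_univ_two]; ring
    · simp [Matrix.mulVec, dotProduct, Fin.sum_univ_two]; ring
  have hw := (h hmem).1
  have hw0 := congrFun hw 0
  have hw1 := congrFun hw 1
  simp [Matrix.mulVec, dotProduct, Fin.sum_univ_two] at hw0 hw1
  have e0 : v 0 * (v 0 * w 1 - v 1 * w 0) = 0 := by linear_combination hw0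
  have e1 : v 1 * (v 0 * w 1 - v 1 * w 0) = 0 := by linear_combination hw1
  by_contra hD
  have hD' : v 0 * w 1 - v 1 * w 0 ≠ 0 := sub_ne_zero.mpr hD
  apply hv
  ext i; fin_cases i
  · exact (mul_eq_zero.mp e0).resolve_right hD'
  · exact (mul_eq_zero.mp e1).resolve_right hD'

/-! ### `SL₂` -/

/-- the subgroup of `SL₂(F)` fixing `v`. -/
def slFix (v : Fin 2 → F) : Subgroup (Matrix.SpecialLinearGroup (Fin 2) F) where
  carrier := {g | (g : Matrix (Fin 2) (Fin 2) F) *ᵥ v = v}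
  mul_mem' := by
    intro a b ha hb
    show ((a * b : Matrix.SpecialLinearGroup (Fin 2) F) : Matrix (Fin 2) (Fin 2) F) *ᵥ v = v
    rw [Matrix.SpecialLinearGroup.coe_mul, ← Matrix.mulVec_mulVec]
    rw [show (b : Matrix (Fin 2) (Fin 2) F) *ᵥ v = v from hb]
    exact ha
  one_mem' := by
    show ((1 : Matrix.SpecialLinearGroup (Fin 2) F) : Matrix (Fin 2) (Fin 2) F) *ᵥ v = v
    simp
  inv_mem' := by
    intro a ha
    show ((a⁻¹ : Matrix.SpecialLinearGroup (Fin 2) F) : Matrix (Fin 2) (Fin 2) F) *ᵥ v = v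
    have ha' : (a : Matrix (Fin 2) (Fin 2) F) *ᵥ v = v := ha
    conv_lhs => rw [← ha']
    rw [Matrix.mulVec_mulVec, ← Matrix.SpecialLinearGroup.coe_mul, inv_mul_cancel,
      Matrix.SpecialLinearGroup.coe_one, Matrix.one_mulVec]

lemma mem_slFix {v : Fin 2 → F} {g : Matrix.SpecialLinearGroup (Fin 2) F} :
    g ∈ slFix v ↔ (g : Matrix (Fin 2) (Fin 2) F) *ᵥ v = v := Iff.rfl

lemma slFix_isPGroup (p : ℕ) [Fact p.Prime] [CharP F p] (v : Fin 2 → F) (hv : v ≠ 0) :
    IsPGroup p (slFix v) := by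
  rintro ⟨g, hg⟩
  refine ⟨1, ?_⟩
  apply Subtype.ext
  apply Subtype.ext
  simp only [pow_one, SubmonoidClass.mk_pow, Matrix.SpecialLinearGroup.coe_pow,
    OneMemClass.coe_one, Matrix.SpecialLinearGroup.coe_one]
  exact unip_pow_char p _ (unip_sq_zero _ g.2 v hv hg)

lemma slFix_smul (v : Fin 2 → F) (a : F) (ha : a ≠ 0) : slFix (a • v) = slFix v := by
  ext g
  simp only [mem_slFix, Matrix.mulVec_smul]
  constructor
  · intro h1
    exact smul_right_injective _ ha h1
  · intro h1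
    rw [h1]

/-- every Sylow `p`-subgroup of `SL₂(F)` is some `slFix v`. -/
lemma sylow_eq_slFix [Finite F] (p : ℕ) [Fact p.Prime] [CharP F p]
    (P : Sylow p (Matrix.SpecialLinearGroup (Fin 2) F)) :
    ∃ v : Fin 2 → F, v ≠ 0 ∧
      (P : Subgroup (Matrix.SpecialLinearGroup (Fin 2) F)) = slFix v := by
  haveI := Fintype.ofFinite F
  let φ : (P : Subgroup (Matrix.SpecialLinearGroup (Fin 2) F)) →* Matrix (Fin 2) (Fin 2) F :=
    { toFun := fun g => ((g : Matrix.SpecialLinearGroup (Fin 2) F) : Matrix (Fin 2) (Fin 2) F)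
      map_one' := by simp
      map_mul' := fun a b => by simp }
  obtain ⟨v, hv, hfix⟩ := exists_fixed_vec p P.isPGroup' φ
  refine ⟨v, hv, ?_⟩
  have hle : (P : Subgroup (Matrix.SpecialLinearGroup (Fin 2) F)) ≤ slFix v := by
    intro g hg
    exact hfix ⟨g, hg⟩
  exact (P.is_maximal' (slFix_isPGroup p v hv) hle).symm

/-! ### the standard transvection of `slFix v` (appended) -/

/-- the standard nontrivial element of `slFix v`. -/
def slTv (v : Fin 2 → F) : Matrix.SpecialLinearGroup (Fin 2) F :=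
  ⟨!![1 - v 0 * v 1, v 0 * v 0; -(v 1 * v 1), 1 + v 1 * v 0], by
    rw [Matrix.det_fin_two_of]; ring⟩

lemma slTv_mem (v : Fin 2 → F) : slTv v ∈ slFix v := by
  rw [mem_slFix]
  ext i; fin_cases i
  · simp [slTv, Matrix.mulVec, dotProduct, Fin.sum_univ_two]; ring
  · simp [slTv, Matrix.mulVec, dotProduct, Fin.sum_univ_two]; ring

lemma det_eq_of_slTv_fix (v w : Fin 2 → F) (hv : v ≠ 0)
    (h : (slTv v : Matrix (Fin 2) (Fin 2) F) *ᵥ w = w) : v 0 * w 1 = v 1 * w 0 := by
  have hw0 := congrFun h 0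
  have hw1 := congrFun h 1
  simp [slTv, Matrix.mulVec, dotProduct, Fin.sum_univ_two] at hw0 hw1
  have e0 : v 0 * (v 0 * w 1 - v 1 * w 0) = 0 := by linear_combination hw0
  have e1 : v 1 * (v 0 * w 1 - v 1 * w 0) = 0 := by linear_combination hw1
  by_contra hD
  have hD' : v 0 * w 1 - v 1 * w 0 ≠ 0 := sub_ne_zero.mpr hD
  apply hv
  ext i; fin_cases i
  · exact (mul_eq_zero.mp e0).resolve_right hD'
  · exact (mul_eq_zero.mp e1).resolve_right hD'

lemma slFix_le_det (v w : Fin 2 → F) (hv : v ≠ 0) (h : slFix v ≤ slFix w) :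
    v 0 * w 1 = v 1 * w 0 :=
  det_eq_of_slTv_fix v w hv (h (slTv_mem v))

end Cfsg.Agent.Helper2
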