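import Cfsg.Agent.Helper17.Zsig

set_option autoImplicit false

namespace Cfsg.Agent.Helper2

open Polynomial Cfsg.Agent.Helper17.Zsig

lemma zl_prim_of_not_dvd {q e r : ℕ} (hq : 1 < q) (he : 0 < e) (hr : r.Prime)
    (hdvd : r ∣ cycVal q e) (hre : ¬ r ∣ e) :
    e ∣ r - 1 ∧ ∀ k, r ∣ q ^ k - 1 → e ∣ k := by
  obtain ⟨j, m, hjm, hm, hm0, hmr, hk⟩ := prim_root_of_dvd hq he hr hdvd
  have hj : j = 0 := by
    by_contra hj
    apply hre
    rw [hjm]
    exact Dvd.dvd.mul_right (dvd_pow_self r hj) m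
  subst hj
  simp only [pow_zero, one_mul] at hjm
  subst hjm
  exact ⟨hmr, hk⟩

lemma zl_special {q e r r' : ℕ} (hq : 1 < q) (he : 0 < e) (hr : r.Prime)
    (hdvd : r ∣ cycVal q e) (hr' : r'.Prime) (hr'e : r' ∣ e) : r' ≤ r := by
  obtain ⟨j, m, hjm, hm, hm0, hmr, hk⟩ := prim_root_of_dvd hq he hr hdvd
  rw [hjm] at hr'e
  rcases (Nat.Prime.dvd_mul hr').mp hr'e with h | h
  · have := (Nat.prime_dvd_prime_iff_eq hr' hr).mp (hr'.dvd_of_dvd_pow h)
    omega
  · have h2 : r' ∣ r - 1 := h.trans hmr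
    have h3 := Nat.le_of_dvd (by have := hr.two_le; omega) h2
    omega

lemma zl_two_special {q e : ℕ} (hq : 1 < q) (he : 0 < e)
    (hdvd : 2 ∣ cycVal q e) : ∃ j, e = 2 ^ j := by
  obtain ⟨j, m, hjm, hm, hm0, hmr, hk⟩ := prim_root_of_dvd hq he Nat.prime_two hdvd
  have hm1 : m = 1 := by simpa using hmr
  subst hm1
  exact ⟨j, by simpa using hjm⟩

lemma zl_cycVal_two (q : ℕ) : cycVal q 2 = q + 1 := by
  unfold cycVal
  rw [cyclotomic_two]
  simp only [eval_add, eval_X, eval_one]
  omega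

lemma zl_cycVal_two_pow (j : ℕ) : ∀ q : ℕ, cycVal q (2 ^ (j + 1)) = q ^ (2 ^ j) + 1 := by
  induction j with
  | zero => intro q; simpa using zl_cycVal_two q
  | succ j ih =>
    intro q
    have h1 : (2 : ℕ) ^ (j + 1 + 1) = 2 ^ (j + 1) * 2 := by ring
    rw [h1, cycVal_expand Nat.prime_two (dvd_pow_self 2 (by omega)), ih (q ^ 2)]
    congr 1
    rw [← pow_mul]
    congr 1
    ring

lemma zl_cycVal_pos {q : ℕ} (hq : 1 < q) {e : ℕ} (he : 0 < e) : 0 < cycVal q e := by
  have h := le_cycVal hq he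
  have h2 : 0 < (q - 1) ^ e.totient := pow_pos (by omega) _
  omega

lemma zl_struct {q e : ℕ} (hq : 1 < q) (he : 3 ≤ e) :
    ∃ P t, cycVal q e = t * P ∧
      (t = 1 ∨ (t.Prime ∧ t ∣ e ∧ ∀ r', r'.Prime → r' ∣ e → r' ≤ t)) ∧
      ∀ r, r.Prime → r ∣ P → ¬ r ∣ e := by
  have he0 : 0 < e := by omega
  by_cases hex : ∃ r0, r0.Prime ∧ r0 ∣ cycVal q e ∧ r0 ∣ e
  · obtain ⟨r0, hr0, hr0C, hr0e⟩ := hex
    obtain ⟨P, hP⟩ := hr0C
    have hmax : ∀ r', r'.Prime → r' ∣ e → r' ≤ r0 := fun r' hr' hr'e =>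
      zl_special hq he0 hr0 ⟨P, hP⟩ hr' hr'e
    have hsq : ¬ r0 ∣ P := by
      intro hdP
      have hsq2 : r0 ^ 2 ∣ cycVal q e := by
        rw [hP, pow_two]
        exact mul_dvd_mul_left r0 hdP
      by_cases h2 : r0 = 2
      · subst h2
        obtain ⟨j, hj⟩ := zl_two_special hq he0 ⟨P, hP⟩
        have hj2 : 2 ≤ j := by
          by_contra hlt
          have : j = 0 ∨ j = 1 := by omega
          rcases this with rfl | rfl <;> simp at hj <;> omega
        obtain ⟨i, rfl⟩ : ∃ i, j = i + 1 + 1 := ⟨j - 2, by omega⟩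
        rw [hj, zl_cycVal_two_pow] at hsq2
        have h3 : q ^ 2 ^ (i + 1) = (q ^ 2 ^ i) ^ 2 := by
          rw [← pow_mul]; congr 1
        rw [h3] at hsq2
        obtain ⟨x, hx⟩ : ∃ x, x = q ^ 2 ^ i := ⟨_, rfl⟩
        rw [← hx] at hsq2
        have h4 : (x ^ 2 + 1) % 4 = 0 := Nat.mod_eq_zero_of_dvd (by simpa using hsq2)
        have h5 : x % 4 < 4 := Nat.mod_lt _ (by norm_num)
        have h6 : (x ^ 2 + 1) % 4 = ((x % 4) ^ 2 + 1) % 4 := by
          simp [Nat.add_mod, Nat.pow_mod]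
        rw [h6] at h4
        interval_cases (x % 4) <;> simp at h4
      · exact not_sq_dvd hq hr0 h2 hr0e he0 ⟨P, hP⟩ hsq2
    refine ⟨P, r0, hP, Or.inr ⟨hr0, hr0e, hmax⟩, ?_⟩
    intro r hr hrP hre
    have hrC : r ∣ cycVal q e := by rw [hP]; exact Dvd.dvd.mul_left hrP r0
    have h1 : r0 ≤ r := zl_special hq he0 hr hrC hr0 hr0e
    have h2 : r ≤ r0 := hmax r hr hre
    have h3 : r = r0 := le_antisymm h2 h1
    subst h3
    exact hsq hrP
  · refine ⟨cycVal q e, 1, by simp, Or.inl rfl, ?_⟩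
    intro r hr hrP hre
    exact hex ⟨r, hr, hrP, hre⟩

lemma zl_modEq_one (e : ℕ) : ∀ P : ℕ, 0 < P → (∀ r, r.Prime → r ∣ P → r ≡ 1 [MOD e]) →
    P ≡ 1 [MOD e] := by
  intro P
  induction P using Nat.recOnMul with
  | zero => intro h; omega
  | one => intro _ _; rfl
  | prime p hp => intro _ h; exact h p hp dvd_rfl
  | mul a b iha ihb =>
    intro hpos h
    have ha : 0 < a := Nat.pos_of_ne_zero (fun h0 => by simp [h0] at hpos)
    have hb : 0 < b := Nat.pos_of_ne_zero (fun h0 => by simp [h0] at hpos)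
    have h1 := iha ha (fun r hr hra => h r hr (Dvd.dvd.mul_right hra b))
    have h2 := ihb hb (fun r hr hrb => h r hr (Dvd.dvd.mul_left hrb a))
    simpa using h1.mul h2

lemma zl_totient_sq (m : ℕ) : (Odd m → m ≤ m.totient ^ 2) ∧ m ≤ 2 * m.totient ^ 2 := by
  induction m using Nat.recOnPosPrimePosCoprime with
  | prime_pow p n hp hn =>
    obtain ⟨k, rfl⟩ : ∃ k, n = k + 1 := ⟨n - 1, by omega⟩
    rw [Nat.totient_prime_pow_succ hp]
    have hp2 := hp.two_le
    have hpk : 0 < p ^ k := pow_pos (by omega) _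
    have key : p ≥ 3 → p ^ (k + 1) ≤ (p ^ k * (p - 1)) ^ 2 := by
      intro h3
      obtain ⟨c, rfl⟩ : ∃ c, p = c + 3 := ⟨p - 3, by omega⟩
      have e1 : c + 3 - 1 = c + 2 := by omega
      rw [e1, pow_succ]
      have : (c + 3) ^ k * (c + 3) ≤ (c + 3) ^ k * ((c + 3) ^ k * (c + 2) ^ 2) := by
        apply Nat.mul_le_mul_left
        calc c + 3 ≤ 1 * (c + 2) ^ 2 := by nlinarith
          _ ≤ (c + 3) ^ k * (c + 2) ^ 2 := Nat.mul_le_mul_right _ hpk
      calc (c + 3) ^ k * (c + 3) ≤ (c + 3) ^ k * ((c + 3) ^ k * (c + 2) ^ 2) := this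
        _ = ((c + 3) ^ k * (c + 2)) ^ 2 := by ring
    constructor
    · intro hodd
      apply key
      by_contra hlt
      have hp2' : p = 2 := by omega
      subst hp2'
      obtain ⟨c, hc⟩ := hodd
      rw [pow_succ] at hc
      omega
    · rcases Nat.lt_or_ge p 3 with h | h
      · have hp2' : p = 2 := by omega
        subst hp2'
        simp only [Nat.add_one_sub_one, mul_one]
        have : 2 * (2 ^ k) ^ 2 = 2 ^ (k + 1) * 2 ^ k := by ring
        rw [this]
        exact Nat.le_mul_of_pos_right _ hpk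
      · exact (key h).trans (Nat.le_mul_of_pos_left _ (by norm_num))
  | zero => simp
  | one => simp
  | coprime a b ha hb hab iha ihb =>
    rw [Nat.totient_mul hab]
    constructor
    · intro hodd
      rw [Nat.odd_mul] at hodd
      have h1 := iha.1 hodd.1
      have h2 := ihb.1 hodd.2
      calc a * b ≤ a.totient ^ 2 * b.totient ^ 2 := Nat.mul_le_mul h1 h2
        _ = (a.totient * b.totient) ^ 2 := by ring
    · rcases Nat.even_or_odd b with hbe | hbo
      · have hao : Odd a := by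
          rcases Nat.even_or_odd a with hae | hao
          · exfalso
            have h2a : 2 ∣ a := hae.two_dvd
            have h2b : 2 ∣ b := hbe.two_dvd
            have := Nat.dvd_gcd h2a h2b
            rw [hab] at this
            omega
          · exact hao
        have h1 := iha.1 hao
        have h2 := ihb.2
        calc a * b ≤ a.totient ^ 2 * (2 * b.totient ^ 2) := Nat.mul_le_mul h1 h2
          _ = 2 * (a.totient * b.totient) ^ 2 := by ring
      · have h1 := iha.2
        have h2 := ihb.1 hbo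
        calc a * b ≤ (2 * a.totient ^ 2) * b.totient ^ 2 := Nat.mul_le_mul h1 h2
          _ = 2 * (a.totient * b.totient) ^ 2 := by ring

lemma zl_lb {q p m : ℕ} (hq : 1 < q) (hp : p.Prime) (hm : 0 < m) :
    q ^ ((p - 1) * m.totient) ≤ cycVal q (m * p) * 2 ^ m.totient := by
  have hp2 := hp.two_le
  have hqp : 1 < q ^ p := Nat.one_lt_pow (by omega) hq
  have hpow : q ^ p = q * q ^ (p - 1) := by
    obtain ⟨c, rfl⟩ : ∃ c, p = c + 1 := ⟨p - 1, by omega⟩
    simp [pow_succ, mul_comm]
  have hq1 : 2 ≤ q ^ (p - 1) := by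
    calc 2 ≤ q := hq
      _ = q ^ 1 := (pow_one q).symm
      _ ≤ q ^ (p - 1) := Nat.pow_le_pow_right (by omega) (by omega)
  by_cases hdiv : p ∣ m
  · rw [cycVal_expand hp hdiv]
    have h1 := le_cycVal hqp hm
    have h2 : q ^ (p - 1) ≤ (q ^ p - 1) * 2 := by
      rw [hpow]
      have : 2 * q ^ (p - 1) ≤ q * q ^ (p - 1) := Nat.mul_le_mul_right _ hq
      omega
    calc q ^ ((p - 1) * m.totient) = (q ^ (p - 1)) ^ m.totient := by rw [pow_mul]
      _ ≤ ((q ^ p - 1) * 2) ^ m.totient := Nat.pow_le_pow_left h2 _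
      _ = (q ^ p - 1) ^ m.totient * 2 ^ m.totient := by rw [mul_pow]
      _ ≤ cycVal (q ^ p) m * 2 ^ m.totient := Nat.mul_le_mul_right _ h1
  · have h0 := cycVal_expand_mul (a := q) hp hdiv
    have h1 := le_cycVal hqp hm
    have h3 := cycVal_le hq m
    have h2 : q ^ (p - 1) * (q + 1) ≤ 2 * (q ^ p - 1) := by
      rw [hpow]
      have h5 : 2 * q ^ (p - 1) ≤ q * q ^ (p - 1) := Nat.mul_le_mul_right _ hq
      have h6 : q ^ (p - 1) * (q + 1) = q * q ^ (p - 1) + q ^ (p - 1) := by ring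
      omega
    have hpos : 0 < (q + 1) ^ m.totient := pow_pos (by omega) _
    apply Nat.le_of_mul_le_mul_right _ hpos
    calc q ^ ((p - 1) * m.totient) * (q + 1) ^ m.totient
        = (q ^ (p - 1) * (q + 1)) ^ m.totient := by rw [pow_mul, mul_pow]
      _ ≤ (2 * (q ^ p - 1)) ^ m.totient := Nat.pow_le_pow_left h2 _
      _ = 2 ^ m.totient * (q ^ p - 1) ^ m.totient := by rw [mul_pow]
      _ ≤ 2 ^ m.totient * cycVal (q ^ p) m := Nat.mul_le_mul_left _ h1
      _ = 2 ^ m.totient * (cycVal q (m * p) * cycVal q m) := by rw [h0]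
      _ ≤ 2 ^ m.totient * (cycVal q (m * p) * (q + 1) ^ m.totient) :=
          Nat.mul_le_mul_left _ (Nat.mul_le_mul_left _ h3)
      _ = cycVal q (m * p) * 2 ^ m.totient * (q + 1) ^ m.totient := by ring

lemma zl_pow_gt {t : ℕ} (ht : 13 ≤ t) : 36 * t ^ 2 + 3 * t < 2 ^ t := by
  induction t, ht using Nat.le_induction with
  | base => norm_num
  | succ n hn ih =>
    have h1 : 13 * n ≤ n * n := Nat.mul_le_mul_right n hn
    have h2 : 36 * (n + 1) ^ 2 + 3 * (n + 1) = 36 * (n * n) + 75 * n + 39 := by ring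
    have h3 : 36 * n ^ 2 + 3 * n = 36 * (n * n) + 3 * n := by ring
    rw [h2, pow_succ]
    rw [h3] at ih
    omega

lemma zl_case {q C K F X Q : ℕ} (hLB : q ^ K ≤ C * F) (hQ : Q ≤ q) (hnum : F * X < Q ^ K) :
    X < C := by
  by_contra hlt
  have h1 : C * F ≤ X * F := Nat.mul_le_mul_right _ (by omega)
  have h2 : Q ^ K ≤ q ^ K := Nat.pow_le_pow_left hQ _
  have h3 : X * F = F * X := mul_comm _ _
  omega

/-- The pairs `(q, e)` not covered by the generic estimate. -/
def zlList : List (ℕ × ℕ) :=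
  [(2,3),(3,3),(4,3),(5,3),(6,3),(2,4),(3,4),(4,4),(2,5),(3,5),(2,6),(3,6),(4,6),(5,6),(6,6),
   (7,6),(8,6),(2,7),(2,8),(2,9),(3,9),(2,10),(3,10),(2,12),(3,12),(4,12),(2,14),(2,15),(2,18),
   (3,18),(4,18),(2,20),(2,24),(2,27),(2,30),(2,36),(2,48),(2,54),(2,72)]

set_option maxRecDepth 100000 in
lemma zl_tot_small : ∀ m, m ≤ 288 → m.totient ≤ 12 →
    (m, m.totient) ∈ [(0,0),(1,1),(2,1),(3,2),(4,2),(5,4),(6,2),(7,6),(8,4),(9,6),(10,4),(11,10),
      (12,4),(13,12),(14,6),(15,8),(16,8),(18,6),(20,8),(21,12),(22,10),(24,8),(26,12),(28,12),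
      (30,8),(36,12),(42,12)] := by
  decide

set_option maxHeartbeats 1600000 in
lemma zl_main_odd {q p m : ℕ} (hq : 1 < q) (hp : p.Prime) (hp3 : 3 ≤ p) (hm : 0 < m)
    (hmax : ∀ r', r'.Prime → r' ∣ m → r' ≤ p) (hL : (q, m * p) ∉ zlList) :
    p * (2 * (m * p) + 1) < cycVal q (m * p) := by
  have hLB := zl_lb hq hp hm
  have hphi : 0 < m.totient := Nat.totient_pos.mpr hm
  have hqt : q ^ ((p - 2) * m.totient) ≤ cycVal q (m * p) := by
    have h1 : q ^ ((p - 1) * m.totient) = q ^ ((p - 2) * m.totient) * q ^ m.totient := by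
      rw [← pow_add]; congr 1
      obtain ⟨c, rfl⟩ : ∃ c, p = c + 2 := ⟨p - 2, by omega⟩
      have e1 : c + 2 - 1 = c + 1 := by omega
      have e2 : c + 2 - 2 = c := by omega
      rw [e1, e2]
      ring
    have h2 : 2 ^ m.totient ≤ q ^ m.totient := Nat.pow_le_pow_left hq _
    have h3 : q ^ ((p - 2) * m.totient) * 2 ^ m.totient ≤ cycVal q (m * p) * 2 ^ m.totient := by
      calc q ^ ((p - 2) * m.totient) * 2 ^ m.totient
          ≤ q ^ ((p - 2) * m.totient) * q ^ m.totient := Nat.mul_le_mul_left _ h2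
        _ = q ^ ((p - 1) * m.totient) := h1.symm
        _ ≤ cycVal q (m * p) * 2 ^ m.totient := hLB
    exact Nat.le_of_mul_le_mul_right h3 (pow_pos (by norm_num) _)
  rcases Nat.lt_or_ge ((p - 2) * m.totient) 13 with hsmall | hbig
  · have hp14 : p ≤ 14 := by
      by_contra h
      have : 13 * 1 ≤ (p - 2) * m.totient := Nat.mul_le_mul (by omega) hphi
      omega
    have hphi12 : m.totient ≤ 12 := by
      by_contra h
      have : 1 * 13 ≤ (p - 2) * m.totient := Nat.mul_le_mul (by omega) (by omega)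
      omega
    have hm288 : m ≤ 288 := by
      have h3 := (zl_totient_sq m).2
      have : m.totient ^ 2 ≤ 12 ^ 2 := Nat.pow_le_pow_left hphi12 2
      omega
    have hmem := zl_tot_small m hm288 hphi12
    obtain ⟨f, hf⟩ : ∃ f, f = m.totient := ⟨_, rfl⟩
    rw [← hf] at hmem hsmall hLB
    clear hqt hphi12 hm288 hphi hf
    simp only [List.mem_cons, Prod.mk.injEq, List.mem_nil_iff, or_false] at hmem
    interval_cases p
    · rcases hmem with ⟨rfl, rfl⟩ | ⟨rfl, rfl⟩ | ⟨rfl, rfl⟩ | ⟨rfl, rfl⟩ | ⟨rfl, rfl⟩ | ⟨rfl, rfl⟩ | ⟨rfl, rfl⟩ | ⟨rfl, rfl⟩ | ⟨rfl, rfl⟩ | ⟨rfl, rfl⟩ | ⟨rfl, rfl⟩ | ⟨rfl, rfl⟩ | ⟨rfl, rfl⟩ | ⟨rfl, rfl⟩ | ⟨rfl, rfl⟩ | ⟨rfl, rfl⟩ | ⟨rfl, rfl⟩ | ⟨rfl, rfl⟩ | ⟨rfl, rfl⟩ | ⟨rfl, rfl⟩ | ⟨rfl, rfl⟩ | ⟨rfl, rfl⟩ | ⟨rfl, rfl⟩ | ⟨rfl, rfl⟩ | ⟨rfl, rfl⟩ | ⟨rfl, rfl⟩ | ⟨rfl, rfl⟩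
      · omega
      · rcases Nat.lt_or_ge q 7 with h | h
        · interval_cases q <;> exact absurd (by decide) hL
        · exact zl_case hLB h (by norm_num)
      · rcases Nat.lt_or_ge q 9 with h | h
        · interval_cases q <;> exact absurd (by decide) hL
        · exact zl_case hLB h (by norm_num)
      · rcases Nat.lt_or_ge q 4 with h | h
        · interval_cases q <;> exact absurd (by decide) hL
        · exact zl_case hLB h (by norm_num)
      · rcases Nat.lt_or_ge q 5 with h | h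
        · interval_cases q <;> exact absurd (by decide) hL
        · exact zl_case hLB h (by norm_num)
      · exact absurd (hmax 5 (by norm_num) (by norm_num)) (by norm_num)
      · rcases Nat.lt_or_ge q 5 with h | h
        · interval_cases q <;> exact absurd (by decide) hL
        · exact zl_case hLB h (by norm_num)
      · exact absurd (hmax 7 (by norm_num) (by norm_num)) (by norm_num)
      · rcases Nat.lt_or_ge q 3 with h | h
        · interval_cases q <;> exact absurd (by decide) hL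
        · exact zl_case hLB h (by norm_num)
      · rcases Nat.lt_or_ge q 3 with h | h
        · interval_cases q <;> exact absurd (by decide) hL
        · exact zl_case hLB h (by norm_num)
      · exact absurd (hmax 5 (by norm_num) (by norm_num)) (by norm_num)
      · exact absurd (hmax 11 (by norm_num) (by norm_num)) (by norm_num)
      · rcases Nat.lt_or_ge q 3 with h | h
        · interval_cases q <;> exact absurd (by decide) hL
        · exact zl_case hLB h (by norm_num)
      · exact absurd (hmax 13 (by norm_num) (by norm_num)) (by norm_num)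
      · exact absurd (hmax 7 (by norm_num) (by norm_num)) (by norm_num)
      · exact absurd (hmax 5 (by norm_num) (by norm_num)) (by norm_num)
      · rcases Nat.lt_or_ge q 3 with h | h
        · interval_cases q <;> exact absurd (by decide) hL
        · exact zl_case hLB h (by norm_num)
      · rcases Nat.lt_or_ge q 3 with h | h
        · interval_cases q <;> exact absurd (by decide) hL
        · exact zl_case hLB h (by norm_num)
      · exact absurd (hmax 5 (by norm_num) (by norm_num)) (by norm_num)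
      · exact absurd (hmax 7 (by norm_num) (by norm_num)) (by norm_num)
      · exact absurd (hmax 11 (by norm_num) (by norm_num)) (by norm_num)
      · rcases Nat.lt_or_ge q 3 with h | h
        · interval_cases q <;> exact absurd (by decide) hL
        · exact zl_case hLB h (by norm_num)
      · exact absurd (hmax 13 (by norm_num) (by norm_num)) (by norm_num)
      · exact absurd (hmax 7 (by norm_num) (by norm_num)) (by norm_num)
      · exact absurd (hmax 5 (by norm_num) (by norm_num)) (by norm_num)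
      · rcases Nat.lt_or_ge q 2 with h | h
        · interval_cases q <;> exact absurd (by decide) hL
        · exact zl_case hLB h (by norm_num)
      · exact absurd (hmax 7 (by norm_num) (by norm_num)) (by norm_num)
    · exact absurd hp (by norm_num)
    · rcases hmem with ⟨rfl, rfl⟩ | ⟨rfl, rfl⟩ | ⟨rfl, rfl⟩ | ⟨rfl, rfl⟩ | ⟨rfl, rfl⟩ | ⟨rfl, rfl⟩ | ⟨rfl, rfl⟩ | ⟨rfl, rfl⟩ | ⟨rfl, rfl⟩ | ⟨rfl, rfl⟩ | ⟨rfl, rfl⟩ | ⟨rfl, rfl⟩ | ⟨rfl, rfl⟩ | ⟨rfl, rfl⟩ | ⟨rfl, rfl⟩ | ⟨rfl, rfl⟩ | ⟨rfl, rfl⟩ | ⟨rfl, rfl⟩ | ⟨rfl, rfl⟩ | ⟨rfl, rfl⟩ | ⟨rfl, rfl⟩ | ⟨rfl, rfl⟩ | ⟨rfl, rfl⟩ | ⟨rfl, rfl⟩ | ⟨rfl, rfl⟩ | ⟨rfl, rfl⟩ | ⟨rfl, rfl⟩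
      · omega
      · rcases Nat.lt_or_ge q 4 with h | h
        · interval_cases q <;> exact absurd (by decide) hL
        · exact zl_case hLB h (by norm_num)
      · rcases Nat.lt_or_ge q 4 with h | h
        · interval_cases q <;> exact absurd (by decide) hL
        · exact zl_case hLB h (by norm_num)
      · rcases Nat.lt_or_ge q 3 with h | h
        · interval_cases q <;> exact absurd (by decide) hL
        · exact zl_case hLB h (by norm_num)
      · rcases Nat.lt_or_ge q 3 with h | h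
        · interval_cases q <;> exact absurd (by decide) hL
        · exact zl_case hLB h (by norm_num)
      · rcases Nat.lt_or_ge q 2 with h | h
        · interval_cases q <;> exact absurd (by decide) hL
        · exact zl_case hLB h (by norm_num)
      · rcases Nat.lt_or_ge q 3 with h | h
        · interval_cases q <;> exact absurd (by decide) hL
        · exact zl_case hLB h (by norm_num)
      · exact absurd hsmall (by norm_num)
      · rcases Nat.lt_or_ge q 2 with h | h
        · interval_cases q <;> exact absurd (by decide) hL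
        · exact zl_case hLB h (by norm_num)
      · exact absurd hsmall (by norm_num)
      · rcases Nat.lt_or_ge q 2 with h | h
        · interval_cases q <;> exact absurd (by decide) hL
        · exact zl_case hLB h (by norm_num)
      · exact absurd hsmall (by norm_num)
      · rcases Nat.lt_or_ge q 2 with h | h
        · interval_cases q <;> exact absurd (by decide) hL
        · exact zl_case hLB h (by norm_num)
      · exact absurd hsmall (by norm_num)
      · exact absurd hsmall (by norm_num)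
      · exact absurd hsmall (by norm_num)
      · exact absurd hsmall (by norm_num)
      · exact absurd hsmall (by norm_num)
      · exact absurd hsmall (by norm_num)
      · exact absurd hsmall (by norm_num)
      · exact absurd hsmall (by norm_num)
      · exact absurd hsmall (by norm_num)
      · exact absurd hsmall (by norm_num)
      · exact absurd hsmall (by norm_num)
      · exact absurd hsmall (by norm_num)
      · exact absurd hsmall (by norm_num)
      · exact absurd hsmall (by norm_num)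
    · exact absurd hp (by norm_num)
    · rcases hmem with ⟨rfl, rfl⟩ | ⟨rfl, rfl⟩ | ⟨rfl, rfl⟩ | ⟨rfl, rfl⟩ | ⟨rfl, rfl⟩ | ⟨rfl, rfl⟩ | ⟨rfl, rfl⟩ | ⟨rfl, rfl⟩ | ⟨rfl, rfl⟩ | ⟨rfl, rfl⟩ | ⟨rfl, rfl⟩ | ⟨rfl, rfl⟩ | ⟨rfl, rfl⟩ | ⟨rfl, rfl⟩ | ⟨rfl, rfl⟩ | ⟨rfl, rfl⟩ | ⟨rfl, rfl⟩ | ⟨rfl, rfl⟩ | ⟨rfl, rfl⟩ | ⟨rfl, rfl⟩ | ⟨rfl, rfl⟩ | ⟨rfl, rfl⟩ | ⟨rfl, rfl⟩ | ⟨rfl, rfl⟩ | ⟨rfl, rfl⟩ | ⟨rfl, rfl⟩ | ⟨rfl, rfl⟩
      · omega
      · rcases Nat.lt_or_ge q 3 with h | h
        · interval_cases q <;> exact absurd (by decide) hL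
        · exact zl_case hLB h (by norm_num)
      · rcases Nat.lt_or_ge q 3 with h | h
        · interval_cases q <;> exact absurd (by decide) hL
        · exact zl_case hLB h (by norm_num)
      · rcases Nat.lt_or_ge q 2 with h | h
        · interval_cases q <;> exact absurd (by decide) hL
        · exact zl_case hLB h (by norm_num)
      · rcases Nat.lt_or_ge q 2 with h | h
        · interval_cases q <;> exact absurd (by decide) hL
        · exact zl_case hLB h (by norm_num)
      · exact absurd hsmall (by norm_num)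
      · rcases Nat.lt_or_ge q 2 with h | h
        · interval_cases q <;> exact absurd (by decide) hL
        · exact zl_case hLB h (by norm_num)
      · exact absurd hsmall (by norm_num)
      · exact absurd hsmall (by norm_num)
      · exact absurd hsmall (by norm_num)
      · exact absurd hsmall (by norm_num)
      · exact absurd hsmall (by norm_num)
      · exact absurd hsmall (by norm_num)
      · exact absurd hsmall (by norm_num)
      · exact absurd hsmall (by norm_num)
      · exact absurd hsmall (by norm_num)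
      · exact absurd hsmall (by norm_num)
      · exact absurd hsmall (by norm_num)
      · exact absurd hsmall (by norm_num)
      · exact absurd hsmall (by norm_num)
      · exact absurd hsmall (by norm_num)
      · exact absurd hsmall (by norm_num)
      · exact absurd hsmall (by norm_num)
      · exact absurd hsmall (by norm_num)
      · exact absurd hsmall (by norm_num)
      · exact absurd hsmall (by norm_num)
      · exact absurd hsmall (by norm_num)
    · exact absurd hp (by norm_num)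
    · exact absurd hp (by norm_num)
    · exact absurd hp (by norm_num)
    · rcases hmem with ⟨rfl, rfl⟩ | ⟨rfl, rfl⟩ | ⟨rfl, rfl⟩ | ⟨rfl, rfl⟩ | ⟨rfl, rfl⟩ | ⟨rfl, rfl⟩ | ⟨rfl, rfl⟩ | ⟨rfl, rfl⟩ | ⟨rfl, rfl⟩ | ⟨rfl, rfl⟩ | ⟨rfl, rfl⟩ | ⟨rfl, rfl⟩ | ⟨rfl, rfl⟩ | ⟨rfl, rfl⟩ | ⟨rfl, rfl⟩ | ⟨rfl, rfl⟩ | ⟨rfl, rfl⟩ | ⟨rfl, rfl⟩ | ⟨rfl, rfl⟩ | ⟨rfl, rfl⟩ | ⟨rfl, rfl⟩ | ⟨rfl, rfl⟩ | ⟨rfl, rfl⟩ | ⟨rfl, rfl⟩ | ⟨rfl, rfl⟩ | ⟨rfl, rfl⟩ | ⟨rfl, rfl⟩
      · omega
      · rcases Nat.lt_or_ge q 2 with h | h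
        · interval_cases q <;> exact absurd (by decide) hL
        · exact zl_case hLB h (by norm_num)
      · rcases Nat.lt_or_ge q 2 with h | h
        · interval_cases q <;> exact absurd (by decide) hL
        · exact zl_case hLB h (by norm_num)
      · exact absurd hsmall (by norm_num)
      · exact absurd hsmall (by norm_num)
      · exact absurd hsmall (by norm_num)
      · exact absurd hsmall (by norm_num)
      · exact absurd hsmall (by norm_num)
      · exact absurd hsmall (by norm_num)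
      · exact absurd hsmall (by norm_num)
      · exact absurd hsmall (by norm_num)
      · exact absurd hsmall (by norm_num)
      · exact absurd hsmall (by norm_num)
      · exact absurd hsmall (by norm_num)
      · exact absurd hsmall (by norm_num)
      · exact absurd hsmall (by norm_num)
      · exact absurd hsmall (by norm_num)
      · exact absurd hsmall (by norm_num)
      · exact absurd hsmall (by norm_num)
      · exact absurd hsmall (by norm_num)
      · exact absurd hsmall (by norm_num)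
      · exact absurd hsmall (by norm_num)
      · exact absurd hsmall (by norm_num)
      · exact absurd hsmall (by norm_num)
      · exact absurd hsmall (by norm_num)
      · exact absurd hsmall (by norm_num)
      · exact absurd hsmall (by norm_num)
    · exact absurd hp (by norm_num)
    · rcases hmem with ⟨rfl, rfl⟩ | ⟨rfl, rfl⟩ | ⟨rfl, rfl⟩ | ⟨rfl, rfl⟩ | ⟨rfl, rfl⟩ | ⟨rfl, rfl⟩ | ⟨rfl, rfl⟩ | ⟨rfl, rfl⟩ | ⟨rfl, rfl⟩ | ⟨rfl, rfl⟩ | ⟨rfl, rfl⟩ | ⟨rfl, rfl⟩ | ⟨rfl, rfl⟩ | ⟨rfl, rfl⟩ | ⟨rfl, rfl⟩ | ⟨rfl, rfl⟩ | ⟨rfl, rfl⟩ | ⟨rfl, rfl⟩ | ⟨rfl, rfl⟩ | ⟨rfl, rfl⟩ | ⟨rfl, rfl⟩ | ⟨rfl, rfl⟩ | ⟨rfl, rfl⟩ | ⟨rfl, rfl⟩ | ⟨rfl, rfl⟩ | ⟨rfl, rfl⟩ | ⟨rfl, rfl⟩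
      · omega
      · rcases Nat.lt_or_ge q 2 with h | h
        · interval_cases q <;> exact absurd (by decide) hL
        · exact zl_case hLB h (by norm_num)
      · rcases Nat.lt_or_ge q 2 with h | h
        · interval_cases q <;> exact absurd (by decide) hL
        · exact zl_case hLB h (by norm_num)
      · exact absurd hsmall (by norm_num)
      · exact absurd hsmall (by norm_num)
      · exact absurd hsmall (by norm_num)
      · exact absurd hsmall (by norm_num)
      · exact absurd hsmall (by norm_num)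
      · exact absurd hsmall (by norm_num)
      · exact absurd hsmall (by norm_num)
      · exact absurd hsmall (by norm_num)
      · exact absurd hsmall (by norm_num)
      · exact absurd hsmall (by norm_num)
      · exact absurd hsmall (by norm_num)
      · exact absurd hsmall (by norm_num)
      · exact absurd hsmall (by norm_num)
      · exact absurd hsmall (by norm_num)
      · exact absurd hsmall (by norm_num)
      · exact absurd hsmall (by norm_num)
      · exact absurd hsmall (by norm_num)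
      · exact absurd hsmall (by norm_num)
      · exact absurd hsmall (by norm_num)
      · exact absurd hsmall (by norm_num)
      · exact absurd hsmall (by norm_num)
      · exact absurd hsmall (by norm_num)
      · exact absurd hsmall (by norm_num)
      · exact absurd hsmall (by norm_num)
    · exact absurd hp (by norm_num)
  · obtain ⟨t, ht⟩ : ∃ t, t = (p - 2) * m.totient := ⟨_, rfl⟩
    rw [← ht] at hqt hbig
    have h1 := zl_pow_gt hbig
    have h2 : 2 ^ t ≤ q ^ t := Nat.pow_le_pow_left hq _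
    have h3 := (zl_totient_sq m).2
    have h5 : p * (2 * (m * p) + 1) ≤ 36 * t ^ 2 + 3 * t := by
      obtain ⟨c, rfl⟩ : ∃ c, p = c + 2 := ⟨p - 2, by omega⟩
      have e2 : c + 2 - 2 = c := by omega
      rw [e2] at ht
      obtain ⟨f, hf⟩ : ∃ f, f = m.totient := ⟨_, rfl⟩
      rw [← hf] at ht h3 hphi
      subst ht
      have hc1 : 1 ≤ c := by omega
      have h6 : (c + 2) * (2 * (m * (c + 2)) + 1) ≤ (3 * c) * (2 * ((2 * f ^ 2) * (3 * c)) + 1) := by
        apply Nat.mul_le_mul (by omega)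
        have := Nat.mul_le_mul h3 (show c + 2 ≤ 3 * c by omega)
        omega
      have h7 : (3 * c) * (2 * ((2 * f ^ 2) * (3 * c)) + 1) = 36 * (c * f) ^ 2 + 3 * c := by ring
      have h8 : 3 * c ≤ 3 * (c * f) := by
        apply Nat.mul_le_mul_left; exact Nat.le_mul_of_pos_right _ hphi
      omega
    omega

lemma zl_main_two {q j : ℕ} (hq : 1 < q) (hj : 1 ≤ j) (hL : (q, 2 ^ (j + 1)) ∉ zlList) :
    2 * (2 * 2 ^ (j + 1) + 1) < q ^ (2 ^ j) + 1 := by
  rcases Nat.lt_or_ge j 3 with h | h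
  · interval_cases j
    · rcases Nat.lt_or_ge q 5 with h5 | h5
      · interval_cases q <;> exact absurd (by decide) hL
      · have : 5 ^ 2 ≤ q ^ 2 := Nat.pow_le_pow_left h5 2
        norm_num at this ⊢
        omega
    · rcases Nat.lt_or_ge q 3 with h3 | h3
      · interval_cases q <;> exact absurd (by decide) hL
      · have : 3 ^ 4 ≤ q ^ 4 := Nat.pow_le_pow_left h3 4
        norm_num at this ⊢
        omega
  · have h1' : ∀ i, 3 ≤ i → i + 4 ≤ 2 ^ i := by
      intro i hi
      induction i, hi using Nat.le_induction with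
      | base => norm_num
      | succ n hn ih => rw [pow_succ]; omega
    have h1 : j + 4 ≤ 2 ^ j := h1' j h
    have h2 : 2 ^ (j + 4) ≤ q ^ (2 ^ j) := by
      calc 2 ^ (j + 4) ≤ 2 ^ (2 ^ j) := Nat.pow_le_pow_right (by norm_num) h1
        _ ≤ q ^ (2 ^ j) := Nat.pow_le_pow_left hq _
    have h3 : 2 ^ (j + 4) = 8 * 2 ^ (j + 1) := by ring
    have h4 : 0 < 2 ^ (j + 1) := pow_pos (by norm_num) _
    omega

lemma zl_core (q e : ℕ) (hq : 1 < q) (he : 3 ≤ e) (hL : (q, e) ∉ zlList) :
    ∃ P, P ∣ q ^ e - 1 ∧ 0 < P ∧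
      (∀ r, r.Prime → r ∣ P → e ∣ r - 1 ∧ ∀ k, 0 < k → k < e → ¬ r ∣ q ^ k - 1) ∧
      2 * e + 1 < P := by
  have he0 : 0 < e := by omega
  obtain ⟨P, t, hC, ht, hP⟩ := zl_struct hq he
  have hCpos := zl_cycVal_pos hq he0
  have hPpos : 0 < P := by
    rcases Nat.eq_zero_or_pos P with h | h
    · rw [h, mul_zero] at hC; omega
    · exact h
  refine ⟨P, ?_, hPpos, ?_, ?_⟩
  · exact (Dvd.intro_left t hC.symm).trans (cycVal_dvd hq (by omega))
  · intro r hr hrP
    have hrC : r ∣ cycVal q e := by rw [hC]; exact Dvd.dvd.mul_left hrP t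
    obtain ⟨h1, h2⟩ := zl_prim_of_not_dvd hq he0 hr hrC (hP r hr hrP)
    refine ⟨h1, ?_⟩
    intro k hk0 hke hdvd
    have := Nat.le_of_dvd hk0 (h2 k hdvd)
    omega
  · obtain ⟨p, hpmem, hpmax⟩ := Finset.exists_max_image e.primeFactors id
      (Nat.nonempty_primeFactors.mpr (by omega))
    rw [Nat.mem_primeFactors] at hpmem
    obtain ⟨hp, hpe, -⟩ := hpmem
    have hpmax' : ∀ r', r'.Prime → r' ∣ e → r' ≤ p := fun r' hr' hr'e =>
      hpmax r' (Nat.mem_primeFactors.mpr ⟨hr', hr'e, by omega⟩)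
    have htp : t ≤ p := by
      rcases ht with rfl | ⟨ht1, ht2, -⟩
      · exact hp.one_le
      · exact hpmax' t ht1 ht2
    have hkey : p * (2 * e + 1) < cycVal q e → 2 * e + 1 < P := by
      intro h
      rw [hC] at h
      have h2 : t * P ≤ p * P := Nat.mul_le_mul_right _ htp
      have h3 : p * (2 * e + 1) < p * P := lt_of_lt_of_le h h2
      exact Nat.lt_of_mul_lt_mul_left h3
    apply hkey
    by_cases hp2 : p = 2
    · subst hp2
      have hpow : e = 2 ^ e.primeFactorsList.length :=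
        Nat.eq_prime_pow_of_unique_prime_dvd (by omega) (fun {d} hd hde => by
          have := hpmax' d hd hde
          have := hd.two_le
          omega)
      obtain ⟨k, hk⟩ : ∃ k, k = e.primeFactorsList.length := ⟨_, rfl⟩
      rw [← hk] at hpow
      have hk2 : 2 ≤ k := by
        by_contra hlt
        have : k = 0 ∨ k = 1 := by omega
        rcases this with rfl | rfl <;> simp at hpow <;> omega
      obtain ⟨j, rfl⟩ : ∃ j, k = j + 1 := ⟨k - 1, by omega⟩
      subst hpow
      rw [zl_cycVal_two_pow]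
      exact zl_main_two hq (by omega) hL
    · obtain ⟨m, hm⟩ := hpe
      have hm' : e = m * p := by rw [hm, mul_comm]
      subst hm'
      have hm0 : 0 < m := Nat.pos_of_ne_zero (fun h => by simp [h] at he0)
      exact zl_main_odd hq hp (by have := hp.two_le; omega) hm0
        (fun r' hr' hr'm => hpmax' r' hr' (Dvd.dvd.mul_right hr'm p)) hL

end Cfsg.Agent.Helper2
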